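import Cfsg.Agent.CSixSevenGFEight.Basic
import Cfsg.Agent.CSixSeven.Adjoint

/-!
# The adjoint action is irreducible over eight elements

The argument of `CSixSeven.Adjoint`, for the generators in characteristic two.
-/

set_option autoImplicit false

open scoped Classical

namespace Cfsg.Agent.CSixSevenGFEight

open Cfsg Cfsg.Geo Matrix Cfsg.Agent.CSixSeven

variable {F : Type*} [Field F] {ω : F} {X : Subgroup (GL (Fin 7) F)} {L : Submodule F (M7 F)}

/-- The adjoint module of trace-zero matrices is irreducible under the overgroup. -/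
theorem adjoint_irreducible (hG : Gen8 ω X) (hL : ∀ h ∈ X, ∀ M ∈ L,
    (h : M7 F) * M * ((h⁻¹ : GL (Fin 7) F) : M7 F) ∈ L) {M₀ : M7 F} (hM₀ : M₀ ∈ L)
    (hne : M₀ ≠ 0) (h0 : M₀.trace = 0) : ∀ M : M7 F, M.trace = 0 → M ∈ L := by
  classical
  have hω := hG.eight.omega
  obtain ⟨cF, hF⟩ : ∃ c : F, InX X (c • Fm ω) := ⟨1, by rw [one_smul]; exact hG.f⟩
  have hcF : cF ≠ 0 := by
    rintro rfl
    obtain ⟨g, -, hg⟩ := hF
    rw [zero_smul] at hg
    exact g.ne_zero hg
  let Fb : M7 F := Matrix.of fun i j => w ω (-(i * j))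
  have hFb : Fb * Fm ω = (7 : F) • (1 : M7 F) := by
    refine Matrix.ext fun i j => ?_
    rw [Matrix.mul_apply]
    have e : ∀ l : Fin 7, Fb i l * Fm ω l j = w ω ((j - i) * l) := fun l => by
      simp only [Fb, Fm, Matrix.of_apply]
      rw [← w_add hω]
      exact congrArg _
        ((show ∀ i j l : Fin 7, -(i * l) + l * j = (j - i) * l by decide +kernel) i j l)
    simp only [e, w_sum_ite hω]
    by_cases h : i = j
    · subst h; simp
    · rw [if_neg (fun e => h (sub_eq_zero.1 e).symm)]
      simp [h]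
  -- an element of `L` which is not diagonal
  obtain ⟨M₁, hM₁, i₀, j₀, hij₀, hent⟩ :
      ∃ M ∈ L, ∃ i j : Fin 7, i ≠ j ∧ (M : M7 F) i j ≠ 0 := by
    by_contra hcon
    push Not at hcon
    obtain ⟨i, hi⟩ := exists_diag_ne hω h0 hne fun i j h => hcon M₀ hM₀ i j h
    obtain ⟨g, hg, hgv⟩ := hF
    have hN := hL g hg M₀ hM₀
    set N := (g : M7 F) * M₀ * ((g⁻¹ : GL (Fin 7) F) : M7 F) with hNdef
    have hMN : (g : M7 F) * M₀ = N * g := by
      rw [hNdef, Matrix.mul_assoc, Units.inv_mul, Matrix.mul_one]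
    have key : ∀ b : Fin 7, M₀ b b = N 0 0 := fun b => by
      have e := congrFun (congrFun hMN 0) b
      rw [hgv, Matrix.mul_apply, Matrix.mul_apply, Finset.sum_eq_single b
        (fun x _ hx => by rw [hcon M₀ hM₀ x b hx, mul_zero]) (by simp),
        Finset.sum_eq_single 0 (fun x _ hx => by rw [hcon N hN 0 x (Ne.symm hx), zero_mul])
          (by simp)] at e
      simp only [Matrix.smul_apply, smul_eq_mul, Fm, Matrix.of_apply, zero_mul, w_zero,
        mul_one] at e
      exact mul_left_cancel₀ hcF (e.trans (mul_comm _ _))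
    exact hi ((key i).trans (key 0).symm)
  have hY : InX X (Matrix.diagonal fun i => w ω i) := hG.y
  have hGd : InX X (Matrix.diagonal fun i => w ω (i * i)) := hG.g
  -- single entries
  have hone : Matrix.single i₀ j₀ (1 : F) ∈ L := by
    have hA := avg_mem hω hL (fun i => w_pow_seven hω _) hGd
      (c := w ω (-(i₀ * i₀ - j₀ * j₀))) (w_pow_seven hω _)
      (avg_mem hω hL (fun i => w_pow_seven hω i) hY (c := w ω (-(i₀ - j₀))) (w_pow_seven hω _) hM₁)
    have hw6 : ∀ a b c : Fin 7, w ω a * w ω b * w ω c ^ 6 = w ω (a + b - c) := fun a b c => by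
      have e : w ω c ^ 6 = w ω (-c) := by
        rw [show (6 : ℕ) = ((6 : Fin 7) : ℕ) from rfl, ← w_mul hω,
          (show ∀ c : Fin 7, c * 6 = -c by decide) c]
      rw [e, ← w_add hω, ← w_add hω]
      exact congrArg _ ((show ∀ a b c : Fin 7, a + b + -c = a + b - c by decide +kernel) a b c)
    simp only [hw6, w_eq_one hω] at hA
    have hA' := L.smul_mem (M₁ i₀ j₀)⁻¹ hA
    convert hA' using 1
    refine Matrix.ext fun i j => ?_
    have hiff : ∀ i₀ j₀ : Fin 7, i₀ ≠ j₀ → ∀ i j : Fin 7,
        (-(i₀ * i₀ - j₀ * j₀) + i * i - j * j = 0 ∧ -(i₀ - j₀) + i - j = 0) ↔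
          (i₀ = i ∧ j₀ = j) := by decide +kernel
    simp only [Matrix.smul_apply, Matrix.of_apply, Matrix.single_apply, smul_eq_mul, ← ite_and,
      hiff i₀ j₀ hij₀ i j]
    split_ifs with h
    · obtain ⟨rfl, rfl⟩ := h; rw [inv_mul_cancel₀ hent]
    · rw [mul_zero]
  let Q : Fin 7 → Fin 7 → Prop := fun i j => Matrix.single i j (1 : F) ∈ L
  have hx : ∀ i j, Q i j → Q (i + 1) (j + 1) := fun i j h =>
    conj_mem_of hL hG.x (perm_mul_single (fun b => b + 1) (add_left_injective 1)
      (fun a b => rfl) i j) h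
  have hs : ∀ i j, Q i j → Q (2 * i) (2 * j) := fun i j h =>
    conj_mem_of hL hG.s (perm_mul_single (fun b => 2 * b) (by decide)
      (fun a b => rfl) i j) h
  have hz : ∀ i j, Q i j → Q (-i) (-j) := fun i j h =>
    conj_mem_of hL hG.z (perm_mul_single (fun b => -b) neg_injective (fun a b => rfl) i j) h
  have hk : ∀ k i j, Q i j → Q (i + k) (j + k) := by
    intro k i j h
    have e : ∀ n : ℕ, Q ((· + 1)^[n] i) ((· + 1)^[n] j) := by
      intro n
      induction n with
      | zero => exact h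
      | succ n ih => rw [Function.iterate_succ_apply', Function.iterate_succ_apply']; exact hx _ _ ih
    have hit : ∀ k i : Fin 7, (· + 1)^[(k : ℕ)] i = i + k := by decide +kernel
    simpa only [hit] using e k
  have hu : ∀ u i j, u ≠ 0 → Q i j → Q (u * i) (u * j) := by
    intro u i j hu h
    have h2 := hs i j h
    have h4 := hs _ _ h2
    have e1 : ∀ x : Fin 7, 1 * x = x := by decide
    have e4 : ∀ x : Fin 7, 4 * x = 2 * (2 * x) := by decide
    have e6 : ∀ x : Fin 7, 6 * x = -x := by decide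
    have e5 : ∀ x : Fin 7, 5 * x = -(2 * x) := by decide
    have e3 : ∀ x : Fin 7, 3 * x = -(2 * (2 * x)) := by decide
    rcases (show ∀ u : Fin 7, u ≠ 0 → u = 1 ∨ u = 2 ∨ u = 3 ∨ u = 4 ∨ u = 5 ∨ u = 6 by decide)
      u hu with rfl | rfl | rfl | rfl | rfl | rfl
    · rw [e1, e1]; exact h
    · exact h2
    · rw [e3, e3]; exact hz _ _ h4
    · rw [e4, e4]; exact h4
    · rw [e5, e5]; exact hz _ _ h2
    · rw [e6, e6]; exact hz _ _ h
  have hall : ∀ i j, i ≠ j → Q i j := by
    intro i j hij
    have hcomb : ∀ i₀ j₀ : Fin 7, i₀ ≠ j₀ → ∀ i j : Fin 7, i ≠ j →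
        let d := i₀ - j₀
        let u := (i - j) * (d * d * d * d * d)
        u ≠ 0 ∧ j = u * j₀ + (i - u * i₀) ∧ i = u * i₀ + (i - u * i₀) := by decide +kernel
    obtain ⟨h1, h2, h3⟩ := hcomb i₀ j₀ hij₀ i j hij
    rw [h3]
    conv => arg 2; rw [h2]
    exact hk _ _ _ (hu _ _ _ h1 hone)
  -- diagonal matrices
  have hD : ∀ b : Fin 7, b ≠ 0 → Matrix.diagonal (fun k => w ω (k * b)) ∈ L := by
    intro b hb
    have hN : Fm ω * Matrix.single b 0 1 * Fb ∈ L := by
      refine conj_mem_of hL hF ?_ (L.smul_mem (7 : F) (hall b 0 hb))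
      rw [Matrix.smul_mul, Matrix.mul_smul, Matrix.mul_smul, Matrix.mul_assoc _ Fb, hFb,
        Matrix.mul_smul, Matrix.mul_one]
    have hoff : ∑ k : Fin 7, ∑ l : Fin 7,
        (if k = l then 0 else w ω (k * b) • Matrix.single k l (1 : F)) ∈ L := by
      refine Submodule.sum_mem _ fun k _ => Submodule.sum_mem _ fun l _ => ?_
      split_ifs with h
      · exact L.zero_mem
      · exact L.smul_mem _ (hall k l h)
    convert L.sub_mem hN hoff using 1
    refine Matrix.ext fun k l => ?_
    have hNv : (Fm ω * Matrix.single b 0 1 * Fb : M7 F) k l = w ω (k * b) := by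
      simp [Matrix.mul_apply, Matrix.single_apply, Fb, Fm, ite_and, Finset.sum_ite_eq]
    rw [Matrix.sub_apply, hNv, Matrix.sum_apply, Finset.sum_eq_single k, Matrix.sum_apply,
      Finset.sum_eq_single l]
    · by_cases h : k = l
      · subst h; simp
      · simp [h]
    · intro x _ hx
      split_ifs <;> simp [Matrix.single_apply, hx]
    · simp
    · intro x _ hx
      rw [Matrix.sum_apply]
      refine Finset.sum_eq_zero fun y _ => ?_
      split_ifs <;> simp [Matrix.single_apply, hx]
    · simp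
  have hdiff : ∀ i : Fin 7, Matrix.single i i (1 : F) - Matrix.single 0 0 1 ∈ L := by
    intro i
    have h : (7 : F)⁻¹ • ∑ b : Fin 7,
        (w ω (-i * b) - 1) • Matrix.diagonal (fun k => w ω (k * b)) ∈ L := by
      refine L.smul_mem _ (Submodule.sum_mem _ fun b _ => ?_)
      by_cases hb : b = 0
      · subst hb; simp
      · exact L.smul_mem _ (hD b hb)
    convert h using 1
    refine Matrix.ext fun k l => ?_
    simp only [Matrix.smul_apply, Matrix.sum_apply, Matrix.sub_apply, smul_eq_mul]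
    by_cases hkl : k = l
    · subst hkl
      have e : ∀ b : Fin 7, (w ω (-i * b) - 1) * w ω (k * b) =
          w ω ((k - i) * b) - w ω (k * b) := fun b => by
        rw [sub_mul, one_mul, ← w_add hω]
        congr 2
        exact (show ∀ i k b : Fin 7, -i * b + k * b = (k - i) * b by decide +kernel) i k b
      simp only [Matrix.diagonal_apply_eq, e, Finset.sum_sub_distrib, w_sum_ite hω, sub_eq_zero]
      rw [mul_sub, mul_ite, mul_ite, mul_zero, inv_mul_cancel₀ hω.seven_ne]
      simp [Matrix.single_apply, eq_comm]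
    · have e1 : ∀ x : Fin 7, ¬ (x = k ∧ x = l) := fun x h => hkl (h.1.symm.trans h.2)
      simp [Matrix.diagonal_apply_ne _ hkl, Matrix.single_apply, e1]
  intro M hM
  have h : ∑ i : Fin 7, ∑ j : Fin 7, (if i = j then M i i • (Matrix.single i i (1 : F) -
      Matrix.single 0 0 1) else M i j • Matrix.single i j (1 : F)) ∈ L := by
    refine Submodule.sum_mem _ fun i _ => Submodule.sum_mem _ fun j _ => ?_
    split_ifs with hij
    · exact L.smul_mem _ (hdiff i)
    · exact L.smul_mem _ (hall i j hij)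
  convert h using 1
  have e : ∀ i j : Fin 7, (if i = j then M i i • (Matrix.single i i (1 : F) -
      Matrix.single 0 0 1) else M i j • Matrix.single i j (1 : F)) =
      Matrix.single i j (M i j) - if i = j then M i i • Matrix.single 0 0 1 else 0 := by
    intro i j
    split_ifs with hij
    · subst hij; rw [smul_sub]; simp
    · simp
  simp only [e, Finset.sum_sub_distrib, Finset.sum_ite_eq, Finset.mem_univ, if_true,
    ← Finset.sum_smul]
  rw [show ∑ i, M i i = M.trace from rfl, hM, zero_smul, sub_zero, ← Matrix.matrix_eq_sum_single]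


end Cfsg.Agent.CSixSevenGFEight
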