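import Cfsg.Agent.CSixSeven.Blocks

/-!
# Dimension seven over eight elements: coordinates on the centraliser of the parity involution
-/

set_option autoImplicit false
set_option linter.unusedSectionVars false

namespace Cfsg.Agent.CSixSevenGFEight

open Cfsg Cfsg.Geo Matrix Cfsg.Agent.CSixSeven

variable {F : Type*} [Field F] {ω : F}

/-- The field with eight elements with a chosen seventh root of unity. -/
structure Eight (ω : F) : Prop where
  omega : CSixSeven.Omega ω
  two : (2 : F) = 0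
  cases : ∀ x : F, x = 0 ∨ ∃ k : Fin 7, x = w ω k

/-- The overgroup contains the generators of the normaliser. -/
structure Gen8 (ω : F) (X : Subgroup (GL (Fin 7) F)) : Prop where
  eight : Eight ω
  le_sl : X ≤ specialLinear (Fin 7) F
  y : InX X (Ym ω)
  x : InX X Xm
  g : InX X (Gm ω)
  s : InX X Sm
  z : InX X Zm
  f : InX X (Fm ω)

namespace Eight

variable (hF : Eight ω)
include hF

lemma add_self (x : F) : x + x = 0 := by linear_combination x * hF.two

lemma neg (x : F) : -x = x := by linear_combination -x * hF.two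

lemma sub (x y : F) : x - y = x + y := by linear_combination -y * hF.two

lemma eq_of_add {a b : F} (h : a + b = 0) : a = b := by linear_combination h - b * hF.two

lemma pow_seven {x : F} (hx : x ≠ 0) : x ^ 7 = 1 := by
  rcases hF.cases x with h | ⟨k, rfl⟩
  · exact absurd h hx
  · rw [w, ← pow_mul, mul_comm, pow_mul, hF.omega.pow_seven, one_pow]

lemma pow_eight (x : F) : x ^ 8 = x := by
  rcases eq_or_ne x 0 with rfl | hx
  · simp
  · rw [pow_succ, hF.pow_seven hx, one_mul]

lemma seven : (7 : F) = 1 := by linear_combination 3 * hF.two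

lemma eq_one_of_sq {x : F} (h : x * x = 1) : x = 1 := by
  have h1 : (x + 1) * (x + 1) = 0 := by linear_combination h + (x + 1) * hF.two
  exact hF.eq_of_add (mul_self_eq_zero.1 h1)

end Eight

/-- The off-diagonal block from the lifts to the fixed vectors. -/
def Sp (M : M7 F) : Matrix (Fin 3) (Fin 3) F := Matrix.of fun r s => M (kb r) (-kb s)

/-- The column of the fixed basis vector. -/
def mv (M : M7 F) : Fin 3 → F := fun r => M (kb r) 0

/-- The row of the fixed basis vector. -/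
def lv (M : M7 F) : Fin 3 → F := fun s => M 0 (kb s)

theorem sum_fin_seven (f : Fin 7 → F) :
    ∑ i, f i = f 0 + ∑ s : Fin 3, (f (kb s) + f (-kb s)) := by
  simp only [Fin.sum_univ_seven, Fin.sum_univ_three, kb, Matrix.cons_val_zero, Matrix.cons_val_one,
    Matrix.cons_val, show (-1 : Fin 7) = 6 from rfl, show (-2 : Fin 7) = 5 from rfl,
    show (-4 : Fin 7) = 3 from rfl]
  ring

section Coord

variable {M N : M7 F}

theorem sym_kk (hM : Sym M) (r s : Fin 3) : M (-kb r) (-kb s) = M (kb r) (kb s) := hM _ _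

theorem sym_kn (hM : Sym M) (r s : Fin 3) : M (-kb r) (kb s) = M (kb r) (-kb s) := by
  simpa using hM (kb r) (-kb s)

theorem sym_k0 (hM : Sym M) (r : Fin 3) : M (-kb r) 0 = M (kb r) 0 := by
  simpa using hM (kb r) 0

theorem sym_0k (hM : Sym M) (r : Fin 3) : M 0 (-kb r) = M 0 (kb r) := by
  simpa using hM 0 (kb r)

theorem sym_mul (hM : Sym M) (hN : Sym N) : Sym (M * N) :=
  sym_iff_commute.2 ((sym_iff_commute.1 hM).mul_left (sym_iff_commute.1 hN))

theorem bm_apply (hF : Eight ω) (M : M7 F) (r s : Fin 3) :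
    Bm M r s = M (kb r) (kb s) + M (kb r) (-kb s) := by
  simp [Bm, hF.sub]

theorem kk_eq (hF : Eight ω) (M : M7 F) (r s : Fin 3) :
    M (kb r) (kb s) = Bm M r s + Sp M r s := by
  rw [bm_apply hF, Sp, Matrix.of_apply]
  linear_combination -(M (kb r) (-kb s)) * hF.two

theorem mul_00 (hF : Eight ω) (hM : Sym M) (hN : Sym N) : (M * N) 0 0 = M 0 0 * N 0 0 := by
  rw [Matrix.mul_apply, sum_fin_seven]
  simp only [sym_0k hM, sym_k0 hN, hF.add_self, Finset.sum_const_zero, add_zero]

theorem mv_mul (hF : Eight ω) (hM : Sym M) (hN : Sym N) :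
    mv (M * N) = N 0 0 • mv M + Bm M *ᵥ mv N := by
  funext r
  simp only [mv, Pi.add_apply, Pi.smul_apply, smul_eq_mul, Matrix.mulVec, dotProduct]
  rw [Matrix.mul_apply, sum_fin_seven]
  simp only [sym_k0 hN, bm_apply hF, add_mul]
  ring

theorem lv_mul (hF : Eight ω) (hM : Sym M) (hN : Sym N) :
    lv (M * N) = M 0 0 • lv N + lv M ᵥ* Bm N := by
  funext r
  simp only [lv, Pi.add_apply, Pi.smul_apply, smul_eq_mul, Matrix.vecMul, dotProduct]
  rw [Matrix.mul_apply, sum_fin_seven]
  simp only [sym_0k hM, sym_kn hN, bm_apply hF, mul_add]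

theorem sp_mul (hF : Eight ω) (hM : Sym M) (hN : Sym N) :
    Sp (M * N) = Matrix.vecMulVec (mv M) (lv N) + Bm M * Sp N + Sp M * Bm N := by
  refine Matrix.ext fun r t => ?_
  simp only [Matrix.add_apply, Matrix.mul_apply, Matrix.vecMulVec_apply, mv, lv, Sp,
    Matrix.of_apply]
  rw [sum_fin_seven]
  simp only [sym_0k hN, sym_kk hN, bm_apply hF, Fin.sum_univ_three]
  linear_combination (-(M (kb r) (-kb 0) * N (kb 0) (-kb t) + M (kb r) (-kb 1) * N (kb 1) (-kb t) +
    M (kb r) (-kb 2) * N (kb 2) (-kb t))) * hF.two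

theorem ext_coords (hF : Eight ω) (hM : Sym M) (hN : Sym N) (hb : Bm M = Bm N) (hs : Sp M = Sp N)
    (hm : mv M = mv N) (hl : lv M = lv N) (h0 : M 0 0 = N 0 0) : M = N := by
  have hkn : ∀ r s, M (kb r) (-kb s) = N (kb r) (-kb s) := fun r s => congrFun (congrFun hs r) s
  have hkk : ∀ r s, M (kb r) (kb s) = N (kb r) (kb s) := fun r s => by
    rw [kk_eq hF M, kk_eq hF N, hb, hs]
  have hk0 : ∀ r, M (kb r) 0 = N (kb r) 0 := congrFun hm
  have h0k : ∀ r, M 0 (kb r) = N 0 (kb r) := congrFun hl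
  have h : ∀ j : Fin 7, j = 0 ∨ (∃ r, j = kb r) ∨ ∃ r, j = -kb r := by decide
  refine Matrix.ext fun i j => ?_
  rcases h i with rfl | ⟨r, rfl⟩ | ⟨r, rfl⟩ <;> rcases h j with rfl | ⟨s, rfl⟩ | ⟨s, rfl⟩ <;>
    simp only [sym_kk hM, sym_kk hN, sym_kn hM, sym_kn hN, sym_k0 hM, sym_k0 hN, sym_0k hM,
      sym_0k hN, hkn, hkk, hk0, h0k, h0]

end Coord

@[simp] theorem sp_one : Sp (1 : M7 F) = 0 := by
  have h : ∀ r s, kb r ≠ -kb s := by decide
  refine Matrix.ext fun r s => ?_
  simp [Sp, Matrix.one_apply, h]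

@[simp] theorem mv_one : mv (1 : M7 F) = 0 := by
  have h : ∀ r, kb r ≠ 0 := by decide
  funext r; simp [mv, Matrix.one_apply, h]

@[simp] theorem lv_one : lv (1 : M7 F) = 0 := by
  have h : ∀ r, (0 : Fin 7) ≠ kb r := by decide
  funext r; simp [lv, Matrix.one_apply, h]

@[simp] theorem sp_zm (hF : Eight ω) : Sp (Zm : M7 F) = 1 := by
  have h : ∀ r s, (kb r = kb s) ↔ r = s := by decide
  refine Matrix.ext fun r s => ?_
  simp [Sp, Zm, Matrix.one_apply, h, hF.neg]

@[simp] theorem mv_zm : mv (Zm : M7 F) = 0 := by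
  have h : ∀ r, kb r ≠ 0 := by decide
  funext r; simp [mv, Zm, h]

@[simp] theorem lv_zm : lv (Zm : M7 F) = 0 := by
  have h : ∀ r, (0 : Fin 7) ≠ -kb r := by decide
  funext r; simp [lv, Zm, h]

theorem zm_00 (hF : Eight ω) : (Zm : M7 F) 0 0 = 1 := by simp [Zm, hF.neg]

end Cfsg.Agent.CSixSevenGFEight
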