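import Cfsg.Agent.CSixSevenGFEight.Adjoint
import Cfsg.Agent.CSixSeven.Rational
import Cfsg.Agent.RootSub.Transv.Full
import Cfsg.Agent.GeoClasses.TransvGen

/-!
# An overgroup with a full root group is the special linear group
-/

set_option autoImplicit false
set_option linter.unusedSectionVars false
set_option linter.style.haveILetI false

open scoped Classical

namespace Cfsg.Agent.CSixSevenGFEight

open Cfsg Cfsg.Geo Matrix Cfsg.Agent.CSixSeven

variable {F : Type*} [Field F] {ω : F} {X : Subgroup (GL (Fin 7) F)}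

/-- The whole root group of a transvection parameter lies in `X`. -/
def IsFull (X : Subgroup (GL (Fin 7) F)) (r : M7 F) : Prop :=
  r ∈ Tset X ∧ ∀ a : F, InX X (1 + a • r)

theorem IsFull.conj {r : M7 F} (hr : IsFull X r) {h : GL (Fin 7) F} (hh : h ∈ X) :
    IsFull X ((h : M7 F) * r * ((h⁻¹ : GL (Fin 7) F) : M7 F)) := by
  refine ⟨tset_conj hr.1 hh, fun a => ?_⟩
  obtain ⟨g, hg, hgv⟩ := hr.2 a
  refine ⟨h * g * h⁻¹, mul_mem (mul_mem hh hg) (inv_mem hh), ?_⟩
  rw [Units.val_mul, Units.val_mul, hgv, Matrix.mul_add, Matrix.add_mul, Matrix.mul_one,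
    Units.mul_inv, Matrix.mul_smul, Matrix.smul_mul]

theorem span_full (hG : Gen8 ω X) {r : M7 F} (hr : IsFull X r) (hne : r ≠ 0) {M : M7 F}
    (hM : M.trace = 0) : M ∈ Submodule.span F {q | IsFull X q} := by
  refine adjoint_irreducible hG (fun h hh N hN => ?_) (Submodule.subset_span hr) hne
    (tset_trace hr.1) M hM
  induction hN using Submodule.span_induction with
  | mem x hx => exact Submodule.subset_span (hx.conj hh)
  | zero => simp
  | add x y _ _ hx hy => rw [Matrix.mul_add, Matrix.add_mul]; exact add_mem hx hy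
  | smul k x _ hx => rw [Matrix.mul_smul, Matrix.smul_mul]; exact Submodule.smul_mem _ k hx

/-- A transvection pairing nontrivially with a full one is full. -/
theorem isFull_of_pair (h2 : (2 : F) = 0) {t q : M7 F} (ht : t ∈ Tset X) (hq : IsFull X q)
    (hne : (t * q).trace ≠ 0) : IsFull X t := by
  refine ⟨ht, fun c => ?_⟩
  obtain ⟨x, φ, h0, htv, g, hg, hgv⟩ := id ht
  obtain ⟨u, ψ, h1, hqv, -⟩ := id hq.1
  set α := φ ⬝ᵥ u with hα
  set β := ψ ⬝ᵥ x with hβ
  have htr : (t * q).trace = α * β := by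
    rw [htv, hqv, vecMulVec_mul_vecMulVec, trace_vecMulVec, dotProduct_smul, smul_eq_mul,
      dotProduct_comm x ψ]
  have hαβ : α * β ≠ 0 := htr ▸ hne
  have hinv : ((g⁻¹ : GL (Fin 7) F) : M7 F) = 1 + t := by
    refine Units.inv_eq_of_mul_eq_one_right ?_
    rw [hgv, Matrix.add_mul, Matrix.mul_add, Matrix.mul_add, Matrix.one_mul, Matrix.one_mul,
      Matrix.mul_one, tset_sq ht]
    refine Matrix.ext fun i j => ?_
    simp only [Matrix.add_apply, Matrix.zero_apply, add_zero]
    linear_combination (t i j) * h2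
  -- the root group through the image of `u`
  have hq' : IsFull X ((g : M7 F) * q * ((g⁻¹ : GL (Fin 7) F) : M7 F)) := hq.conj hg
  obtain ⟨e, he, hev⟩ := hq.2 (α * β)⁻¹
  have hq'' := hq'.conj he
  have heinv : ((e⁻¹ : GL (Fin 7) F) : M7 F) = 1 + (α * β)⁻¹ • q := by
    refine Units.inv_eq_of_mul_eq_one_right ?_
    rw [hev, Matrix.add_mul, Matrix.mul_add, Matrix.mul_add, Matrix.one_mul, Matrix.one_mul,
      Matrix.mul_one, Matrix.smul_mul, Matrix.mul_smul, tset_sq hq.1, smul_zero, smul_zero]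
    refine Matrix.ext fun i j => ?_
    simp only [Matrix.add_apply, Matrix.zero_apply, add_zero]
    linear_combination ((((α * β)⁻¹ • q) : M7 F) i j) * h2
  have key : (e : M7 F) * ((g : M7 F) * q * ((g⁻¹ : GL (Fin 7) F) : M7 F)) *
      ((e⁻¹ : GL (Fin 7) F) : M7 F) = (α * β) • t := by
    rw [hinv, heinv, hgv, hev, htv, hqv]
    set k := (α * β)⁻¹ with hk
    have hkk : k * (α * β) = 1 := inv_mul_cancel₀ hαβ
    have l1 : (1 + vecMulVec x φ) * vecMulVec u ψ * (1 + vecMulVec x φ) =
        vecMulVec (u + α • x) (ψ + β • φ) := by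
      refine Matrix.ext fun i j => ?_
      simp only [Matrix.add_mul, Matrix.mul_add, Matrix.one_mul, Matrix.mul_one,
        vecMulVec_mul_vecMulVec, Matrix.add_apply, vecMulVec_apply, Pi.add_apply, Pi.smul_apply,
        smul_eq_mul, ← hα, ← hβ, smul_dotProduct]
      ring
    rw [l1]
    refine Matrix.ext fun i j => ?_
    have d1 : ψ ⬝ᵥ (u + α • x) = α * β := by
      rw [dotProduct_add, dotProduct_smul, h1, ← hβ, smul_eq_mul, zero_add]
    have d2 : (ψ + β • φ) ⬝ᵥ u = α * β := by
      rw [add_dotProduct, smul_dotProduct, h1, ← hα, smul_eq_mul, zero_add, mul_comm]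
    simp only [Matrix.add_mul, Matrix.mul_add, Matrix.one_mul, Matrix.mul_one, Matrix.smul_mul,
      Matrix.mul_smul, vecMulVec_mul_vecMulVec, smul_dotProduct, d1, d2, Matrix.add_apply, Matrix.smul_apply, vecMulVec_apply, Pi.add_apply,
      Pi.smul_apply, smul_eq_mul]
    linear_combination
      (3 * u i * ψ j + u i * β * φ j + α * x i * ψ j + k * (α * β) * u i * ψ j) * hkk +
        (2 * u i * ψ j + u i * β * φ j + α * x i * ψ j) * h2
  obtain ⟨r, hr, hrv⟩ := hq''.2 (c / (α * β))
  rw [key, smul_smul, div_mul_cancel₀ c hαβ] at hrv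
  exact ⟨r, hr, hrv⟩

/-- A full root group and a second functional at its centre give the special linear group. -/
theorem sl_le_of_full (hG : Gen8 ω X) {u ψ v χ : Fin 7 → F} (hu : IsFull X (vecMulVec u ψ))
    (hv : IsFull X (vecMulVec v χ)) (h0 : ψ ⬝ᵥ u = 0) (h1 : ψ ⬝ᵥ v = 0) (h2 : χ ⬝ᵥ u ≠ 0)
    (hψ : ψ ≠ 0) (hu0 : u ≠ 0) (hv' : vecMulVec v χ ≠ 0) : specialLinear (Fin 7) F ≤ X := by
  haveI : Fintype F := by
    refine Fintype.ofSurjective (fun o : Option (Fin 7) => o.elim 0 (w ω)) fun x => ?_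
    rcases hG.eight.cases x with rfl | ⟨k, rfl⟩
    exacts [⟨none, rfl⟩, ⟨some k, rfl⟩]
  have h2' := hG.eight.two
  have hu' : vecMulVec u ψ ≠ 0 := by
    obtain ⟨i, hi⟩ := Function.ne_iff.1 hu0
    obtain ⟨j, hj⟩ := Function.ne_iff.1 hψ
    intro h
    exact mul_ne_zero hi hj (by simpa [vecMulVec_apply] using congrFun (congrFun h i) j)
  -- every transvection is full
  have hall : ∀ t ∈ Tset X, ∀ c : F, InX X (1 + c • t) := by
    intro t ht c
    rcases eq_or_ne t 0 with rfl | ht0
    · simpa using InX.one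
    obtain ⟨q, hq, hqt⟩ : ∃ q, IsFull X q ∧ (t * q).trace ≠ 0 := by
      by_contra hcon
      push Not at hcon
      refine ht0 (eq_zero_of_trace hG.eight.omega (tset_trace ht) fun N hN => ?_)
      have h := span_full hG hu hu' hN
      clear hN
      induction h using Submodule.span_induction with
      | mem x hx => exact hcon x hx
      | zero => simp
      | add x y _ _ hx hy => rw [Matrix.mul_add, trace_add, hx, hy, add_zero]
      | smul k x _ hx => rw [Matrix.mul_smul, trace_smul, hx, smul_zero]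
    exact (isFull_of_pair h2' ht hq hqt).2 c
  let toE : GL (Fin 7) F ≃* ((Fin 7 → F) ≃ₗ[F] (Fin 7 → F)) :=
    (Matrix.GeneralLinearGroup.toLin).trans (LinearMap.GeneralLinearGroup.generalLinearEquiv F _)
  have toE_apply : ∀ (k : GL (Fin 7) F) (v : Fin 7 → F), toE k v = (k : M7 F) *ᵥ v := fun _ _ => rfl
  set H := X.map toE.toMonoidHom
  have hIs : ∀ {x η : Fin 7 → F}, η ⬝ᵥ x = 0 → InX X (1 + vecMulVec x η) →
      RootSub.Transv.IsTv H x (dotProductBilin F F η) := by
    rintro x η h ⟨k, hk, hkv⟩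
    refine ⟨h, toE k, Subgroup.mem_map_of_mem _ hk, fun v => ?_⟩
    rw [toE_apply, hkv, add_mulVec, one_mulVec, vecMulVec_mulVec, op_smul_eq_smul]
    rfl
  have hIs1 : ∀ {x η : Fin 7 → F}, IsFull X (vecMulVec x η) → η ⬝ᵥ x = 0 →
      RootSub.Transv.IsTv H x (dotProductBilin F F η) := fun {x η} h h' =>
    hIs h' (by simpa using h.2 1)
  have hsc : RootSub.Transv.ScalarClosed H := by
    rintro x η ⟨he, -, ⟨k, hk, rfl⟩, hkv⟩ c
    have hdot : ∀ v, η v = (fun i => η (Pi.single i 1)) ⬝ᵥ v := fun v => by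
      conv_lhs => rw [← Finset.univ_sum_single v, map_sum]
      refine Finset.sum_congr rfl fun i _ => ?_
      rw [show (Pi.single i (v i) : Fin 7 → F) = v i • Pi.single i 1 by
        rw [← Pi.single_smul', smul_eq_mul, mul_one], map_smul, smul_eq_mul, mul_comm]
    have hmem : vecMulVec x (fun i => η (Pi.single i 1)) ∈ Tset X := by
      refine ⟨x, _, (hdot x).symm.trans he, rfl, k, hk, Matrix.ext_of_mulVec_single fun i => ?_⟩
      rw [add_mulVec, one_mulVec, vecMulVec_mulVec, op_smul_eq_smul, ← hdot]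
      exact hkv _
    obtain ⟨l, hl, hlv⟩ := hall _ hmem c
    refine ⟨by rw [LinearMap.smul_apply, he, smul_zero], toE l, Subgroup.mem_map_of_mem _ hl,
      fun v => ?_⟩
    rw [toE_apply, hlv, add_mulVec, one_mulVec, smul_mulVec, vecMulVec_mulVec, op_smul_eq_smul,
      ← hdot, smul_smul]
    rfl
  have hirr : RootSub.Transv.TvIrred H := by
    intro U hU
    by_cases hb : U = ⊥
    · exact Or.inl hb
    refine Or.inr ?_
    have hN : ∀ N : M7 F, N.trace = 0 → ∀ v ∈ U, N *ᵥ v ∈ U := by
      intro N hN v hv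
      have h := span_full hG hu hu' hN
      clear hN
      induction h using Submodule.span_induction with
      | mem y hy =>
        obtain ⟨⟨x, η, h, rfl, -⟩, -⟩ := id hy
        rw [vecMulVec_mulVec, op_smul_eq_smul]
        exact hU _ _ (hIs1 hy h) v hv
      | zero => simp
      | add a b _ _ ha hb => rw [add_mulVec]; exact U.add_mem ha hb
      | smul k a _ ha => rw [smul_mulVec]; exact U.smul_mem k ha
    obtain ⟨v, hv, hv0⟩ := (Submodule.ne_bot_iff U).1 hb
    obtain ⟨j, hj⟩ := Function.ne_iff.1 hv0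
    have hsingle : ∀ i k : Fin 7, i ≠ k → ∀ w ∈ U, w k ≠ 0 → Pi.single i (1 : F) ∈ U := by
      intro i k hik w hw hwk
      have h := U.smul_mem (w k)⁻¹ (hN (Matrix.single i k 1)
        (by simp [Matrix.trace, Matrix.single_apply, hik, Ne.symm hik]) w hw)
      convert h using 1
      funext a
      by_cases ha : a = i
      · subst ha; simp [Matrix.single_mulVec, hwk]
      · simp [Matrix.single_mulVec, ha]
    obtain ⟨i₀, hi₀⟩ : ∃ i₀ : Fin 7, i₀ ≠ j :=
      ⟨j + 1, (show ∀ j : Fin 7, j + 1 ≠ j by decide) j⟩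
    have hsall : ∀ i, Pi.single i (1 : F) ∈ U := by
      intro i
      by_cases h : i = j
      · subst h
        exact hsingle i i₀ (Ne.symm hi₀) _ (hsingle i₀ i hi₀ v hv hj) (by simp)
      · exact hsingle i j h v hv hj
    refine Submodule.eq_top_iff'.2 fun x => ?_
    rw [← Finset.univ_sum_single x]
    refine Submodule.sum_mem _ fun i _ => ?_
    have := U.smul_mem (x i) (hsall i)
    rwa [← Pi.single_smul', smul_eq_mul, mul_one] at this
  -- two functionals at the centre `v`
  have hd : χ ⬝ᵥ v = 0 := by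
    have := tset_trace hv.1
    rwa [trace_vecMulVec, dotProduct_comm] at this
  have hvψ : InX X (1 + vecMulVec v ψ) := by
    obtain ⟨a, ha, hav⟩ := hu.2 1
    obtain ⟨b, hb, hbv⟩ := hv.2 (χ ⬝ᵥ u)⁻¹
    refine ⟨a * b * (a * b), mul_mem (mul_mem ha hb) (mul_mem ha hb), ?_⟩
    simp only [Units.val_mul, hav, hbv, one_smul, Matrix.mul_add, Matrix.add_mul, Matrix.one_mul,
      Matrix.mul_one, Matrix.mul_smul, Matrix.smul_mul, vecMulVec_mul_vecMulVec, h0, h1, hd,
      smul_smul, zero_smul, vecMulVec_zero, smul_zero, add_zero, vecMulVec_smul,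
      inv_mul_cancel₀ h2]
    refine Matrix.ext fun i j => ?_
    simp only [Matrix.add_apply, Matrix.smul_apply, vecMulVec_apply, smul_eq_mul]
    linear_combination (u i * ψ j + (χ ⬝ᵥ u)⁻¹ * (v i * χ j)) * h2'
  have hv0 : v ≠ 0 := fun h => hv' (by rw [h, zero_vecMulVec])
  have hfin : 2 ≤ Module.finrank F (RootSub.Transv.fnl H v) := by
    have hli : LinearIndependent F ![dotProductBilin F F ψ, dotProductBilin F F χ] := by
      rw [LinearIndependent.pair_iff]
      intro a b hab
      have hu1 := LinearMap.congr_fun hab u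
      simp only [LinearMap.add_apply, LinearMap.smul_apply, LinearMap.zero_apply, smul_eq_mul,
        dotProductBilin_apply_apply, h0, mul_zero, zero_add] at hu1
      have hb0 := (mul_eq_zero.1 hu1).resolve_right h2
      subst hb0
      rw [zero_smul, add_zero, smul_eq_zero] at hab
      refine ⟨hab.resolve_right fun h => hψ (dotProduct_eq_zero _ fun y => ?_), rfl⟩
      simpa using LinearMap.congr_fun h y
    have hsub : Submodule.span F (Set.range ![dotProductBilin F F ψ, dotProductBilin F F χ]) ≤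
        RootSub.Transv.fnl H v := by
      refine Submodule.span_mono ?_
      rintro _ ⟨i, rfl⟩
      fin_cases i
      · exact hIs h1 hvψ
      · exact hIs1 hv hd
    have := Submodule.finrank_mono hsub
    rwa [finrank_span_eq_card hli, Fintype.card_fin] at this
  have hT := RootSub.Transv.all_transvections hsc hirr hv0 hfin
  refine GeoClasses.specialLinear_le_of_transv_mem fun η x hx => ?_
  obtain ⟨-, t, ⟨k, hk, rfl⟩, htx⟩ := hT x η hx
  suffices he : GeoClasses.transv η x hx = k from he ▸ hk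
  refine GeoClasses.gl_ext_mulVec fun y => ?_
  rw [GeoClasses.transv_mulVec]
  exact (htx y).symm

end Cfsg.Agent.CSixSevenGFEight
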