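import Cfsg.Agent.CSixSevenGFEight.Model
import Cfsg.Agent.CSixSevenGFEight.Full

/-!
# Explicit words: each gives a full root group, hence the special linear group
-/

set_option autoImplicit false
set_option linter.unusedSectionVars false
set_option maxHeartbeats 2000000

namespace Cfsg.Agent.CSixSevenGFEight

open Cfsg Cfsg.Geo Matrix Cfsg.Agent.CSixSeven

variable {F : Type*} [Field F] {ω : F} {X : Subgroup (GL (Fin 7) F)}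

/-- The rank one model matrix. -/
def qvv (u v : Fin 7 → E8) : Q7 := fun i j => E8.mul (u i) (v j)

/-- The model transvection with parameter `a`. -/
def qtv (a : E8) (u v : Fin 7 → E8) : Q7 := fun i j =>
  E8.add (if i = j then E8.e 1 else E8.e 0) (E8.mul a (E8.mul (u i) (v j)))

/-- The dot product in the model. -/
def qdot (v u : Fin 7 → E8) : E8 :=
  E8.add (E8.mul (v 0) (u 0)) (E8.add (E8.mul (v 1) (u 1)) (E8.add (E8.mul (v 2) (u 2))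
    (E8.add (E8.mul (v 3) (u 3)) (E8.add (E8.mul (v 4) (u 4)) (E8.add (E8.mul (v 5) (u 5))
      (E8.mul (v 6) (u 6)))))))

/-- The vector of a model vector. -/
def evv (ω : F) (u : Fin 7 → E8) : Fin 7 → F := fun i => ev ω (u i)

/-- Powers of the diagonal generator in the model. -/
def qYk (k : Fin 7) : Q7 := qdm fun i => k * i

namespace Cert

section Tools

variable (hC : Cubic ω)
include hC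

theorem step {A B C : Q7} (hA : InX X (toF ω A)) (hB : InX X (toF ω B))
    (h : ∀ i j, qmul A B i j = C i j) : InX X (toF ω C) := by
  rw [← funext fun i => funext (h i), toF_mul hC]
  exact hA.mul hB

theorem conjStep {G A B : Q7} (hG : InX X (toF ω G)) (hA : InX X (toF ω A))
    (h : ∀ i j, qmul G A i j = qmul B G i j) : InX X (toF ω B) := by
  obtain ⟨g, hg, eg⟩ := hG
  obtain ⟨a, ha, ea⟩ := hA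
  refine ⟨g * a * g⁻¹, mul_mem (mul_mem hg ha) (inv_mem hg), ?_⟩
  have e := congrArg (toF ω) (funext fun i => funext (h i))
  rw [toF_mul hC, toF_mul hC, ← eg, ← ea] at e
  rw [Units.val_mul, Units.val_mul, e, Matrix.mul_assoc, Units.mul_inv, mul_one]

theorem toF_qvv (u v : Fin 7 → E8) : toF ω (qvv u v) = vecMulVec (evv ω u) (evv ω v) := by
  refine Matrix.ext fun i j => ?_
  simp [toF, qvv, evv, vecMulVec_apply, ev_mul hC]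

theorem toF_qtv (a : E8) (u v : Fin 7 → E8) :
    toF ω (qtv a u v) = 1 + ev ω a • vecMulVec (evv ω u) (evv ω v) := by
  refine Matrix.ext fun i j => ?_
  by_cases h : i = j <;>
    simp [toF, qtv, evv, h, ev_add hC, ev_mul hC, ev_one hC, ev_zero hC, Matrix.one_apply,
      vecMulVec_apply]

theorem dot_evv (v u : Fin 7 → E8) : evv ω v ⬝ᵥ evv ω u = ev ω (qdot v u) := by
  simp only [dotProduct, Fin.sum_univ_seven, evv, qdot, ev_add hC, ev_mul hC]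
  ring

theorem full_conj {G A B : Q7} (hG : InX X (toF ω G)) (hA : IsFull X (toF ω A))
    (h : ∀ i j, qmul G A i j = qmul B G i j) : IsFull X (toF ω B) := by
  obtain ⟨g, hg, eg⟩ := hG
  have e := congrArg (toF ω) (funext fun i => funext (h i))
  rw [toF_mul hC, toF_mul hC, ← eg] at e
  have := hA.conj hg
  rwa [e, Matrix.mul_assoc, Units.mul_inv, mul_one] at this

theorem isFull_of_three {u v : Fin 7 → E8} {a b c : E8} (h0 : qdot v u = E8.e 0)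
    (hcov : ∀ n : Fin 8, ∃ s t r : Bool,
      E8.add (E8.sc s a) (E8.add (E8.sc t b) (E8.sc r c)) = E8.e n.val)
    (ha : InX X (toF ω (qtv a u v))) (hb : InX X (toF ω (qtv b u v)))
    (hc : InX X (toF ω (qtv c u v))) : IsFull X (vecMulVec (evv ω u) (evv ω v)) := by
  set r : M7 F := vecMulVec (evv ω u) (evv ω v) with hr
  have hd : evv ω v ⬝ᵥ evv ω u = 0 := by rw [dot_evv hC, h0, ev_zero hC]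
  have hrr : r * r = 0 := by
    rw [hr, vecMulVec_mul_vecMulVec, hd, zero_smul, vecMulVec_zero]
  rw [toF_qtv hC] at ha hb hc
  have hsum : ∀ {x y : F}, InX X (1 + x • r) → InX X (1 + y • r) → InX X (1 + (x + y) • r) := by
    intro x y hx hy
    have := hx.mul hy
    rwa [Matrix.add_mul, Matrix.one_mul, Matrix.mul_add, Matrix.mul_one, Matrix.smul_mul,
      Matrix.mul_smul, hrr, smul_zero, smul_zero, add_zero, add_assoc, add_comm (y • r),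
      ← add_smul] at this
  have hsc : ∀ {x : E8}, InX X (1 + ev ω x • r) → ∀ s : Bool, InX X (1 + ev ω (E8.sc s x) • r) := by
    intro x hx s
    cases s
    · simpa [ev_sc hC, bit] using InX.one
    · simpa [ev_sc hC, bit] using hx
  have hall : ∀ x : F, InX X (1 + x • r) := by
    intro x
    obtain ⟨n, rfl⟩ : ∃ n : Fin 8, x = ev ω (E8.e n.val) := by
      rcases hC.eight.cases x with rfl | ⟨k, rfl⟩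
      · exact ⟨0, (ev_zero hC).symm⟩
      · obtain ⟨n, hn⟩ := (show ∀ k : Fin 7, ∃ n : Fin 8, E8.wq k = E8.e n.val by decide) k
        exact ⟨n, by rw [← hn, ev_wq hC]⟩
    obtain ⟨s, t, q, e⟩ := hcov n
    rw [← e, ev_add hC, ev_add hC]
    exact hsum (hsc ha s) (hsum (hsc hb t) (hsc hc q))
  exact ⟨⟨_, _, hd, rfl, by simpa using hall 1⟩, hall⟩

theorem sl_of_full (hG : Gen8 ω X) {u v u' v' : Fin 7 → E8}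
    (h : IsFull X (vecMulVec (evv ω u) (evv ω v))) (h' : IsFull X (toF ω (qvv u' v')))
    (h0 : qdot v u = E8.e 0) (h1 : qdot v u' = E8.e 0) (h2 : qdot v' u ≠ E8.e 0)
    (hv : ∃ i, v i ≠ E8.e 0) (hu : ∃ i, u i ≠ E8.e 0)
    (hp : ∃ i j, qvv u' v' i j ≠ E8.e 0) : specialLinear (Fin 7) F ≤ X := by
  obtain ⟨i, hi⟩ := hv
  obtain ⟨j, hj⟩ := hu
  obtain ⟨k, l, hkl⟩ := hp
  rw [toF_qvv hC] at h'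
  refine sl_le_of_full hG h h' ?_ ?_ ?_ ?_ ?_ ?_
  · rw [dot_evv hC, h0, ev_zero hC]
  · rw [dot_evv hC, h1, ev_zero hC]
  · rw [dot_evv hC]; exact fun e => h2 (ev_injective hC e)
  · exact fun e => hi (ev_injective hC (congrFun e i))
  · exact fun e => hj (ev_injective hC (congrFun e j))
  · rw [← toF_qvv hC]; exact fun e => hkl (ev_injective hC (congrFun (congrFun e k) l))

variable (hG : Gen8 ω X)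
include hG

theorem inX_qG : InX X (toF ω qG) := by rw [toF_qG hC]; exact hG.g

theorem inX_qX : InX X (toF ω qX) := by rw [toF_qX hC]; exact hG.x

theorem inX_qY : InX X (toF ω qY) := by rw [toF_qY hC]; exact hG.y

theorem inX_qS : InX X (toF ω qS) := by rw [toF_qS hC]; exact hG.s

theorem inX_qF : InX X (toF ω qF) := by rw [toF_qF hC]; exact hG.f

theorem inX_qZ : InX X (toF ω qZ) := by rw [toF_qZ hC]; exact hG.z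

theorem inX_Yk1 : InX X (toF ω (qYk 1)) := by
  rw [show qYk 1 = qY by decide +kernel]; exact inX_qY hC hG

theorem inX_Yk2 : InX X (toF ω (qYk 2)) :=
  step hC (inX_qY hC hG) (inX_qY hC hG) (by decide +kernel)

theorem inX_Yk3 : InX X (toF ω (qYk 3)) :=
  step hC (inX_Yk2 hC hG) (inX_qY hC hG) (by decide +kernel)

theorem inX_Xinv : InX X (toF ω (qperm fun j => j + 6)) := by
  have h2 := (inX_qX hC hG).mul (inX_qX hC hG)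
  have h6 := (h2.mul h2).mul h2
  rw [← toF_mul hC, ← toF_mul hC, ← toF_mul hC] at h6
  rwa [show qperm (fun j => j + 6) = qmul (qmul (qmul qX qX) (qmul qX qX)) (qmul qX qX) by
    decide +kernel]

end Tools

def a_0 : Q7 :=
  ![![E8.e 1, E8.e 0, E8.e 0, E8.e 0, E8.e 0, E8.e 0, E8.e 0],
    ![E8.e 0, E8.e 2, E8.e 0, E8.e 0, E8.e 0, E8.e 0, E8.e 6],
    ![E8.e 0, E8.e 0, E8.e 1, E8.e 0, E8.e 0, E8.e 0, E8.e 0],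
    ![E8.e 0, E8.e 0, E8.e 0, E8.e 1, E8.e 0, E8.e 0, E8.e 0],
    ![E8.e 0, E8.e 0, E8.e 0, E8.e 0, E8.e 1, E8.e 0, E8.e 0],
    ![E8.e 0, E8.e 0, E8.e 0, E8.e 0, E8.e 0, E8.e 1, E8.e 0],
    ![E8.e 0, E8.e 4, E8.e 0, E8.e 0, E8.e 0, E8.e 0, E8.e 2]]

def a_1 : Q7 :=
  ![![E8.e 1, E8.e 0, E8.e 0, E8.e 0, E8.e 0, E8.e 0, E8.e 0],
    ![E8.e 0, E8.e 2, E8.e 0, E8.e 0, E8.e 0, E8.e 0, E8.e 5],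
    ![E8.e 0, E8.e 0, E8.e 1, E8.e 0, E8.e 0, E8.e 0, E8.e 0],
    ![E8.e 0, E8.e 0, E8.e 0, E8.e 1, E8.e 0, E8.e 0, E8.e 0],
    ![E8.e 0, E8.e 0, E8.e 0, E8.e 0, E8.e 1, E8.e 0, E8.e 0],
    ![E8.e 0, E8.e 0, E8.e 0, E8.e 0, E8.e 0, E8.e 1, E8.e 0],
    ![E8.e 0, E8.e 1, E8.e 0, E8.e 0, E8.e 0, E8.e 0, E8.e 2]]

theorem a_1_eq : ∀ i j, qmul qY a_0 i j = qmul a_1 qY i j := by decide +kernel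

def a_1176 : Q7 :=
  ![![E8.e 1, E8.e 0, E8.e 0, E8.e 0, E8.e 0, E8.e 0, E8.e 0],
    ![E8.e 0, E8.e 1, E8.e 0, E8.e 0, E8.e 0, E8.e 0, E8.e 0],
    ![E8.e 0, E8.e 0, E8.e 1, E8.e 0, E8.e 0, E8.e 0, E8.e 0],
    ![E8.e 0, E8.e 0, E8.e 0, E8.e 1, E8.e 0, E8.e 0, E8.e 0],
    ![E8.e 0, E8.e 0, E8.e 0, E8.e 0, E8.e 1, E8.e 0, E8.e 0],
    ![E8.e 0, E8.e 0, E8.e 0, E8.e 0, E8.e 0, E8.e 1, E8.e 0],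
    ![E8.e 0, E8.e 7, E8.e 0, E8.e 0, E8.e 0, E8.e 0, E8.e 1]]

def a_1176p : Q7 :=
  ![![E8.e 1, E8.e 0, E8.e 0, E8.e 0, E8.e 0, E8.e 0, E8.e 0],
    ![E8.e 0, E8.e 2, E8.e 0, E8.e 0, E8.e 0, E8.e 0, E8.e 6],
    ![E8.e 0, E8.e 0, E8.e 1, E8.e 0, E8.e 0, E8.e 0, E8.e 0],
    ![E8.e 0, E8.e 0, E8.e 0, E8.e 1, E8.e 0, E8.e 0, E8.e 0],
    ![E8.e 0, E8.e 0, E8.e 0, E8.e 0, E8.e 1, E8.e 0, E8.e 0],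
    ![E8.e 0, E8.e 0, E8.e 0, E8.e 0, E8.e 0, E8.e 1, E8.e 0],
    ![E8.e 0, E8.e 1, E8.e 0, E8.e 0, E8.e 0, E8.e 0, E8.e 6]]

theorem a_1176p_eq : ∀ i j, qmul a_0 a_1 i j = a_1176p i j := by decide +kernel

theorem a_1176_eq : ∀ i j, qmul a_1176p a_0 i j = a_1176 i j := by decide +kernel

def a_1177 : Q7 :=
  ![![E8.e 1, E8.e 0, E8.e 0, E8.e 0, E8.e 0, E8.e 0, E8.e 0],
    ![E8.e 0, E8.e 1, E8.e 0, E8.e 0, E8.e 0, E8.e 0, E8.e 0],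
    ![E8.e 0, E8.e 0, E8.e 1, E8.e 0, E8.e 0, E8.e 0, E8.e 0],
    ![E8.e 0, E8.e 0, E8.e 0, E8.e 1, E8.e 0, E8.e 0, E8.e 0],
    ![E8.e 0, E8.e 0, E8.e 0, E8.e 0, E8.e 1, E8.e 0, E8.e 0],
    ![E8.e 0, E8.e 0, E8.e 0, E8.e 0, E8.e 0, E8.e 1, E8.e 0],
    ![E8.e 0, E8.e 3, E8.e 0, E8.e 0, E8.e 0, E8.e 0, E8.e 1]]

theorem a_1177_eq : ∀ i j, qmul qY a_1176 i j = qmul a_1177 qY i j := by decide +kernel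

def a_1181 : Q7 :=
  ![![E8.e 1, E8.e 0, E8.e 0, E8.e 0, E8.e 0, E8.e 0, E8.e 0],
    ![E8.e 0, E8.e 1, E8.e 0, E8.e 0, E8.e 0, E8.e 0, E8.e 0],
    ![E8.e 0, E8.e 0, E8.e 1, E8.e 0, E8.e 0, E8.e 0, E8.e 0],
    ![E8.e 0, E8.e 0, E8.e 0, E8.e 1, E8.e 0, E8.e 0, E8.e 0],
    ![E8.e 0, E8.e 0, E8.e 0, E8.e 0, E8.e 1, E8.e 0, E8.e 0],
    ![E8.e 0, E8.e 0, E8.e 0, E8.e 0, E8.e 0, E8.e 1, E8.e 0],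
    ![E8.e 0, E8.e 2, E8.e 0, E8.e 0, E8.e 0, E8.e 0, E8.e 1]]

theorem a_1181_eq : ∀ i j, qmul qY a_1177 i j = qmul a_1181 qY i j := by decide +kernel

def a_u : Fin 7 → E8 := ![E8.e 0, E8.e 0, E8.e 0, E8.e 0, E8.e 0, E8.e 0, E8.e 1]

def a_v : Fin 7 → E8 := ![E8.e 0, E8.e 1, E8.e 0, E8.e 0, E8.e 0, E8.e 0, E8.e 0]

theorem a_sel0 : a_1176 = qtv (E8.e 7) a_u a_v := by decide +kernel

theorem a_sel1 : a_1177 = qtv (E8.e 3) a_u a_v := by decide +kernel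

theorem a_sel2 : a_1181 = qtv (E8.e 2) a_u a_v := by decide +kernel

def a_w0 : Fin 7 → E8 := ![E8.e 1, E8.e 0, E8.e 0, E8.e 0, E8.e 0, E8.e 0, E8.e 0]

def a_x0 : Fin 7 → E8 := ![E8.e 0, E8.e 0, E8.e 1, E8.e 0, E8.e 0, E8.e 0, E8.e 0]

theorem a_f0_eq : ∀ i j, qmul qX (qvv a_u a_v) i j = qmul (qvv a_w0 a_x0) qX i j := by decide +kernel

def a_w1 : Fin 7 → E8 := ![E8.e 0, E8.e 1, E8.e 0, E8.e 0, E8.e 0, E8.e 0, E8.e 0]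

def a_x1 : Fin 7 → E8 := ![E8.e 0, E8.e 0, E8.e 0, E8.e 1, E8.e 0, E8.e 0, E8.e 0]

theorem a_f1_eq : ∀ i j, qmul qX (qvv a_w0 a_x0) i j = qmul (qvv a_w1 a_x1) qX i j := by decide +kernel

def a_w2 : Fin 7 → E8 := ![E8.e 0, E8.e 0, E8.e 1, E8.e 0, E8.e 0, E8.e 0, E8.e 0]

def a_x2 : Fin 7 → E8 := ![E8.e 0, E8.e 0, E8.e 0, E8.e 0, E8.e 0, E8.e 0, E8.e 1]

theorem a_f2_eq : ∀ i j, qmul qS (qvv a_w1 a_x1) i j = qmul (qvv a_w2 a_x2) qS i j := by decide +kernel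

theorem sl_a (hC : Cubic ω) (hG : Gen8 ω X) (h : InX X (toF ω a_0)) :
    specialLinear (Fin 7) F ≤ X := by
  have h0 := h
  have h1 := conjStep hC (inX_qY hC hG) h0 a_1_eq
  have h1176p := step hC h0 h1 a_1176p_eq
  have h1176 := step hC h1176p h0 a_1176_eq
  have h1177 := conjStep hC (inX_qY hC hG) h1176 a_1177_eq
  have h1181 := conjStep hC (inX_qY hC hG) h1177 a_1181_eq
  rw [a_sel0] at h1176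
  rw [a_sel1] at h1177
  rw [a_sel2] at h1181
  have hfull := isFull_of_three hC (u := a_u) (v := a_v) (by decide +kernel) (by decide +kernel) h1176 h1177 h1181
  rw [← toF_qvv hC] at hfull
  have f0 := hfull
  have f1 := full_conj hC (inX_qX hC hG) f0 a_f0_eq
  have f2 := full_conj hC (inX_qX hC hG) f1 a_f1_eq
  have f3 := full_conj hC (inX_qS hC hG) f2 a_f2_eq
  rw [toF_qvv hC] at hfull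
  exact sl_of_full hC hG hfull f3 (by decide +kernel) (by decide +kernel) (by decide +kernel) (by decide +kernel) (by decide +kernel) (by decide +kernel)

def b_0 : Q7 :=
  ![![E8.e 1, E8.e 0, E8.e 0, E8.e 0, E8.e 0, E8.e 0, E8.e 0],
    ![E8.e 0, E8.e 1, E8.e 0, E8.e 0, E8.e 0, E8.e 0, E8.e 0],
    ![E8.e 0, E8.e 0, E8.e 4, E8.e 0, E8.e 0, E8.e 2, E8.e 0],
    ![E8.e 0, E8.e 0, E8.e 0, E8.e 1, E8.e 0, E8.e 0, E8.e 0],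
    ![E8.e 0, E8.e 0, E8.e 0, E8.e 0, E8.e 1, E8.e 0, E8.e 0],
    ![E8.e 0, E8.e 0, E8.e 6, E8.e 0, E8.e 0, E8.e 4, E8.e 0],
    ![E8.e 0, E8.e 0, E8.e 0, E8.e 0, E8.e 0, E8.e 0, E8.e 1]]

def b_1 : Q7 :=
  ![![E8.e 1, E8.e 0, E8.e 0, E8.e 0, E8.e 0, E8.e 0, E8.e 0],
    ![E8.e 0, E8.e 1, E8.e 0, E8.e 0, E8.e 0, E8.e 0, E8.e 0],
    ![E8.e 0, E8.e 0, E8.e 4, E8.e 0, E8.e 0, E8.e 7, E8.e 0],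
    ![E8.e 0, E8.e 0, E8.e 0, E8.e 1, E8.e 0, E8.e 0, E8.e 0],
    ![E8.e 0, E8.e 0, E8.e 0, E8.e 0, E8.e 1, E8.e 0, E8.e 0],
    ![E8.e 0, E8.e 0, E8.e 1, E8.e 0, E8.e 0, E8.e 4, E8.e 0],
    ![E8.e 0, E8.e 0, E8.e 0, E8.e 0, E8.e 0, E8.e 0, E8.e 1]]

theorem b_1_eq : ∀ i j, qmul qY b_0 i j = qmul b_1 qY i j := by decide +kernel

def b_1176 : Q7 :=
  ![![E8.e 1, E8.e 0, E8.e 0, E8.e 0, E8.e 0, E8.e 0, E8.e 0],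
    ![E8.e 0, E8.e 1, E8.e 0, E8.e 0, E8.e 0, E8.e 0, E8.e 0],
    ![E8.e 0, E8.e 0, E8.e 1, E8.e 0, E8.e 0, E8.e 0, E8.e 0],
    ![E8.e 0, E8.e 0, E8.e 0, E8.e 1, E8.e 0, E8.e 0, E8.e 0],
    ![E8.e 0, E8.e 0, E8.e 0, E8.e 0, E8.e 1, E8.e 0, E8.e 0],
    ![E8.e 0, E8.e 0, E8.e 3, E8.e 0, E8.e 0, E8.e 1, E8.e 0],
    ![E8.e 0, E8.e 0, E8.e 0, E8.e 0, E8.e 0, E8.e 0, E8.e 1]]

def b_1176p : Q7 :=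
  ![![E8.e 1, E8.e 0, E8.e 0, E8.e 0, E8.e 0, E8.e 0, E8.e 0],
    ![E8.e 0, E8.e 1, E8.e 0, E8.e 0, E8.e 0, E8.e 0, E8.e 0],
    ![E8.e 0, E8.e 0, E8.e 4, E8.e 0, E8.e 0, E8.e 2, E8.e 0],
    ![E8.e 0, E8.e 0, E8.e 0, E8.e 1, E8.e 0, E8.e 0, E8.e 0],
    ![E8.e 0, E8.e 0, E8.e 0, E8.e 0, E8.e 1, E8.e 0, E8.e 0],
    ![E8.e 0, E8.e 0, E8.e 1, E8.e 0, E8.e 0, E8.e 2, E8.e 0],
    ![E8.e 0, E8.e 0, E8.e 0, E8.e 0, E8.e 0, E8.e 0, E8.e 1]]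

theorem b_1176p_eq : ∀ i j, qmul b_0 b_1 i j = b_1176p i j := by decide +kernel

theorem b_1176_eq : ∀ i j, qmul b_1176p b_0 i j = b_1176 i j := by decide +kernel

def b_1177 : Q7 :=
  ![![E8.e 1, E8.e 0, E8.e 0, E8.e 0, E8.e 0, E8.e 0, E8.e 0],
    ![E8.e 0, E8.e 1, E8.e 0, E8.e 0, E8.e 0, E8.e 0, E8.e 0],
    ![E8.e 0, E8.e 0, E8.e 1, E8.e 0, E8.e 0, E8.e 0, E8.e 0],
    ![E8.e 0, E8.e 0, E8.e 0, E8.e 1, E8.e 0, E8.e 0, E8.e 0],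
    ![E8.e 0, E8.e 0, E8.e 0, E8.e 0, E8.e 1, E8.e 0, E8.e 0],
    ![E8.e 0, E8.e 0, E8.e 5, E8.e 0, E8.e 0, E8.e 1, E8.e 0],
    ![E8.e 0, E8.e 0, E8.e 0, E8.e 0, E8.e 0, E8.e 0, E8.e 1]]

theorem b_1177_eq : ∀ i j, qmul qY b_1176 i j = qmul b_1177 qY i j := by decide +kernel

def b_1181 : Q7 :=
  ![![E8.e 1, E8.e 0, E8.e 0, E8.e 0, E8.e 0, E8.e 0, E8.e 0],
    ![E8.e 0, E8.e 1, E8.e 0, E8.e 0, E8.e 0, E8.e 0, E8.e 0],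
    ![E8.e 0, E8.e 0, E8.e 1, E8.e 0, E8.e 0, E8.e 0, E8.e 0],
    ![E8.e 0, E8.e 0, E8.e 0, E8.e 1, E8.e 0, E8.e 0, E8.e 0],
    ![E8.e 0, E8.e 0, E8.e 0, E8.e 0, E8.e 1, E8.e 0, E8.e 0],
    ![E8.e 0, E8.e 0, E8.e 4, E8.e 0, E8.e 0, E8.e 1, E8.e 0],
    ![E8.e 0, E8.e 0, E8.e 0, E8.e 0, E8.e 0, E8.e 0, E8.e 1]]

theorem b_1181_eq : ∀ i j, qmul qY b_1177 i j = qmul b_1181 qY i j := by decide +kernel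

def b_u : Fin 7 → E8 := ![E8.e 0, E8.e 0, E8.e 0, E8.e 0, E8.e 0, E8.e 1, E8.e 0]

def b_v : Fin 7 → E8 := ![E8.e 0, E8.e 0, E8.e 1, E8.e 0, E8.e 0, E8.e 0, E8.e 0]

theorem b_sel0 : b_1176 = qtv (E8.e 3) b_u b_v := by decide +kernel

theorem b_sel1 : b_1177 = qtv (E8.e 5) b_u b_v := by decide +kernel

theorem b_sel2 : b_1181 = qtv (E8.e 4) b_u b_v := by decide +kernel

def b_w0 : Fin 7 → E8 := ![E8.e 0, E8.e 0, E8.e 0, E8.e 1, E8.e 0, E8.e 0, E8.e 0]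

def b_x0 : Fin 7 → E8 := ![E8.e 0, E8.e 0, E8.e 0, E8.e 0, E8.e 1, E8.e 0, E8.e 0]

theorem b_f0_eq : ∀ i j, qmul qS (qvv b_u b_v) i j = qmul (qvv b_w0 b_x0) qS i j := by decide +kernel

def b_w1 : Fin 7 → E8 := ![E8.e 0, E8.e 0, E8.e 0, E8.e 0, E8.e 1, E8.e 0, E8.e 0]

def b_x1 : Fin 7 → E8 := ![E8.e 0, E8.e 0, E8.e 0, E8.e 0, E8.e 0, E8.e 1, E8.e 0]

theorem b_f1_eq : ∀ i j, qmul qX (qvv b_w0 b_x0) i j = qmul (qvv b_w1 b_x1) qX i j := by decide +kernel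

theorem sl_b (hC : Cubic ω) (hG : Gen8 ω X) (h : InX X (toF ω b_0)) :
    specialLinear (Fin 7) F ≤ X := by
  have h0 := h
  have h1 := conjStep hC (inX_qY hC hG) h0 b_1_eq
  have h1176p := step hC h0 h1 b_1176p_eq
  have h1176 := step hC h1176p h0 b_1176_eq
  have h1177 := conjStep hC (inX_qY hC hG) h1176 b_1177_eq
  have h1181 := conjStep hC (inX_qY hC hG) h1177 b_1181_eq
  rw [b_sel0] at h1176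
  rw [b_sel1] at h1177
  rw [b_sel2] at h1181
  have hfull := isFull_of_three hC (u := b_u) (v := b_v) (by decide +kernel) (by decide +kernel) h1176 h1177 h1181
  rw [← toF_qvv hC] at hfull
  have f0 := hfull
  have f1 := full_conj hC (inX_qS hC hG) f0 b_f0_eq
  have f2 := full_conj hC (inX_qX hC hG) f1 b_f1_eq
  rw [toF_qvv hC] at hfull
  exact sl_of_full hC hG hfull f2 (by decide +kernel) (by decide +kernel) (by decide +kernel) (by decide +kernel) (by decide +kernel) (by decide +kernel)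

def c_0 : Q7 :=
  ![![E8.e 1, E8.e 0, E8.e 0, E8.e 0, E8.e 0, E8.e 0, E8.e 0],
    ![E8.e 0, E8.e 1, E8.e 0, E8.e 0, E8.e 0, E8.e 0, E8.e 0],
    ![E8.e 0, E8.e 0, E8.e 1, E8.e 0, E8.e 0, E8.e 0, E8.e 0],
    ![E8.e 0, E8.e 0, E8.e 0, E8.e 6, E8.e 2, E8.e 0, E8.e 0],
    ![E8.e 0, E8.e 0, E8.e 0, E8.e 4, E8.e 6, E8.e 0, E8.e 0],
    ![E8.e 0, E8.e 0, E8.e 0, E8.e 0, E8.e 0, E8.e 1, E8.e 0],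
    ![E8.e 0, E8.e 0, E8.e 0, E8.e 0, E8.e 0, E8.e 0, E8.e 1]]

def c_1 : Q7 :=
  ![![E8.e 1, E8.e 0, E8.e 0, E8.e 0, E8.e 0, E8.e 0, E8.e 0],
    ![E8.e 0, E8.e 1, E8.e 0, E8.e 0, E8.e 0, E8.e 0, E8.e 0],
    ![E8.e 0, E8.e 0, E8.e 1, E8.e 0, E8.e 0, E8.e 0, E8.e 0],
    ![E8.e 0, E8.e 0, E8.e 0, E8.e 6, E8.e 1, E8.e 0, E8.e 0],
    ![E8.e 0, E8.e 0, E8.e 0, E8.e 3, E8.e 6, E8.e 0, E8.e 0],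
    ![E8.e 0, E8.e 0, E8.e 0, E8.e 0, E8.e 0, E8.e 1, E8.e 0],
    ![E8.e 0, E8.e 0, E8.e 0, E8.e 0, E8.e 0, E8.e 0, E8.e 1]]

theorem c_1_eq : ∀ i j, qmul qY c_0 i j = qmul c_1 qY i j := by decide +kernel

def c_1176 : Q7 :=
  ![![E8.e 1, E8.e 0, E8.e 0, E8.e 0, E8.e 0, E8.e 0, E8.e 0],
    ![E8.e 0, E8.e 1, E8.e 0, E8.e 0, E8.e 0, E8.e 0, E8.e 0],
    ![E8.e 0, E8.e 0, E8.e 1, E8.e 0, E8.e 0, E8.e 0, E8.e 0],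
    ![E8.e 0, E8.e 0, E8.e 0, E8.e 1, E8.e 5, E8.e 0, E8.e 0],
    ![E8.e 0, E8.e 0, E8.e 0, E8.e 0, E8.e 1, E8.e 0, E8.e 0],
    ![E8.e 0, E8.e 0, E8.e 0, E8.e 0, E8.e 0, E8.e 1, E8.e 0],
    ![E8.e 0, E8.e 0, E8.e 0, E8.e 0, E8.e 0, E8.e 0, E8.e 1]]

def c_1176p : Q7 :=
  ![![E8.e 1, E8.e 0, E8.e 0, E8.e 0, E8.e 0, E8.e 0, E8.e 0],
    ![E8.e 0, E8.e 1, E8.e 0, E8.e 0, E8.e 0, E8.e 0, E8.e 0],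
    ![E8.e 0, E8.e 0, E8.e 1, E8.e 0, E8.e 0, E8.e 0, E8.e 0],
    ![E8.e 0, E8.e 0, E8.e 0, E8.e 4, E8.e 1, E8.e 0, E8.e 0],
    ![E8.e 0, E8.e 0, E8.e 0, E8.e 4, E8.e 6, E8.e 0, E8.e 0],
    ![E8.e 0, E8.e 0, E8.e 0, E8.e 0, E8.e 0, E8.e 1, E8.e 0],
    ![E8.e 0, E8.e 0, E8.e 0, E8.e 0, E8.e 0, E8.e 0, E8.e 1]]

theorem c_1176p_eq : ∀ i j, qmul c_0 c_1 i j = c_1176p i j := by decide +kernel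

theorem c_1176_eq : ∀ i j, qmul c_1176p c_0 i j = c_1176 i j := by decide +kernel

def c_1177 : Q7 :=
  ![![E8.e 1, E8.e 0, E8.e 0, E8.e 0, E8.e 0, E8.e 0, E8.e 0],
    ![E8.e 0, E8.e 1, E8.e 0, E8.e 0, E8.e 0, E8.e 0, E8.e 0],
    ![E8.e 0, E8.e 0, E8.e 1, E8.e 0, E8.e 0, E8.e 0, E8.e 0],
    ![E8.e 0, E8.e 0, E8.e 0, E8.e 1, E8.e 7, E8.e 0, E8.e 0],
    ![E8.e 0, E8.e 0, E8.e 0, E8.e 0, E8.e 1, E8.e 0, E8.e 0],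
    ![E8.e 0, E8.e 0, E8.e 0, E8.e 0, E8.e 0, E8.e 1, E8.e 0],
    ![E8.e 0, E8.e 0, E8.e 0, E8.e 0, E8.e 0, E8.e 0, E8.e 1]]

theorem c_1177_eq : ∀ i j, qmul qY c_1176 i j = qmul c_1177 qY i j := by decide +kernel

def c_1181 : Q7 :=
  ![![E8.e 1, E8.e 0, E8.e 0, E8.e 0, E8.e 0, E8.e 0, E8.e 0],
    ![E8.e 0, E8.e 1, E8.e 0, E8.e 0, E8.e 0, E8.e 0, E8.e 0],
    ![E8.e 0, E8.e 0, E8.e 1, E8.e 0, E8.e 0, E8.e 0, E8.e 0],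
    ![E8.e 0, E8.e 0, E8.e 0, E8.e 1, E8.e 6, E8.e 0, E8.e 0],
    ![E8.e 0, E8.e 0, E8.e 0, E8.e 0, E8.e 1, E8.e 0, E8.e 0],
    ![E8.e 0, E8.e 0, E8.e 0, E8.e 0, E8.e 0, E8.e 1, E8.e 0],
    ![E8.e 0, E8.e 0, E8.e 0, E8.e 0, E8.e 0, E8.e 0, E8.e 1]]

theorem c_1181_eq : ∀ i j, qmul qY c_1177 i j = qmul c_1181 qY i j := by decide +kernel

def c_u : Fin 7 → E8 := ![E8.e 0, E8.e 0, E8.e 0, E8.e 1, E8.e 0, E8.e 0, E8.e 0]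

def c_v : Fin 7 → E8 := ![E8.e 0, E8.e 0, E8.e 0, E8.e 0, E8.e 1, E8.e 0, E8.e 0]

theorem c_sel0 : c_1176 = qtv (E8.e 5) c_u c_v := by decide +kernel

theorem c_sel1 : c_1177 = qtv (E8.e 7) c_u c_v := by decide +kernel

theorem c_sel2 : c_1181 = qtv (E8.e 6) c_u c_v := by decide +kernel

def c_w0 : Fin 7 → E8 := ![E8.e 0, E8.e 0, E8.e 0, E8.e 0, E8.e 1, E8.e 0, E8.e 0]

def c_x0 : Fin 7 → E8 := ![E8.e 0, E8.e 0, E8.e 0, E8.e 0, E8.e 0, E8.e 1, E8.e 0]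

theorem c_f0_eq : ∀ i j, qmul qX (qvv c_u c_v) i j = qmul (qvv c_w0 c_x0) qX i j := by decide +kernel

def c_w1 : Fin 7 → E8 := ![E8.e 0, E8.e 1, E8.e 0, E8.e 0, E8.e 0, E8.e 0, E8.e 0]

def c_x1 : Fin 7 → E8 := ![E8.e 0, E8.e 0, E8.e 0, E8.e 1, E8.e 0, E8.e 0, E8.e 0]

theorem c_f1_eq : ∀ i j, qmul qS (qvv c_w0 c_x0) i j = qmul (qvv c_w1 c_x1) qS i j := by decide +kernel

theorem sl_c (hC : Cubic ω) (hG : Gen8 ω X) (h : InX X (toF ω c_0)) :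
    specialLinear (Fin 7) F ≤ X := by
  have h0 := h
  have h1 := conjStep hC (inX_qY hC hG) h0 c_1_eq
  have h1176p := step hC h0 h1 c_1176p_eq
  have h1176 := step hC h1176p h0 c_1176_eq
  have h1177 := conjStep hC (inX_qY hC hG) h1176 c_1177_eq
  have h1181 := conjStep hC (inX_qY hC hG) h1177 c_1181_eq
  rw [c_sel0] at h1176
  rw [c_sel1] at h1177
  rw [c_sel2] at h1181
  have hfull := isFull_of_three hC (u := c_u) (v := c_v) (by decide +kernel) (by decide +kernel) h1176 h1177 h1181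
  rw [← toF_qvv hC] at hfull
  have f0 := hfull
  have f1 := full_conj hC (inX_qX hC hG) f0 c_f0_eq
  have f2 := full_conj hC (inX_qS hC hG) f1 c_f1_eq
  rw [toF_qvv hC] at hfull
  exact sl_of_full hC hG hfull f2 (by decide +kernel) (by decide +kernel) (by decide +kernel) (by decide +kernel) (by decide +kernel) (by decide +kernel)

def l_0 : Q7 :=
  ![![E8.e 0, E8.e 1, E8.e 1, E8.e 1, E8.e 1, E8.e 1, E8.e 1],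
    ![E8.e 1, E8.e 0, E8.e 1, E8.e 1, E8.e 1, E8.e 1, E8.e 1],
    ![E8.e 0, E8.e 0, E8.e 1, E8.e 0, E8.e 0, E8.e 0, E8.e 0],
    ![E8.e 1, E8.e 1, E8.e 1, E8.e 0, E8.e 1, E8.e 1, E8.e 1],
    ![E8.e 0, E8.e 0, E8.e 0, E8.e 0, E8.e 1, E8.e 0, E8.e 0],
    ![E8.e 1, E8.e 1, E8.e 1, E8.e 1, E8.e 1, E8.e 0, E8.e 1],
    ![E8.e 0, E8.e 0, E8.e 0, E8.e 0, E8.e 0, E8.e 0, E8.e 1]]

def l_1 : Q7 :=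
  ![![E8.e 0, E8.e 5, E8.e 7, E8.e 6, E8.e 3, E8.e 4, E8.e 2],
    ![E8.e 2, E8.e 0, E8.e 5, E8.e 7, E8.e 6, E8.e 3, E8.e 4],
    ![E8.e 0, E8.e 0, E8.e 1, E8.e 0, E8.e 0, E8.e 0, E8.e 0],
    ![E8.e 3, E8.e 4, E8.e 2, E8.e 0, E8.e 5, E8.e 7, E8.e 6],
    ![E8.e 0, E8.e 0, E8.e 0, E8.e 0, E8.e 1, E8.e 0, E8.e 0],
    ![E8.e 7, E8.e 6, E8.e 3, E8.e 4, E8.e 2, E8.e 0, E8.e 5],
    ![E8.e 0, E8.e 0, E8.e 0, E8.e 0, E8.e 0, E8.e 0, E8.e 1]]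

theorem l_1_eq : ∀ i j, qmul qY l_0 i j = qmul l_1 qY i j := by decide +kernel

def l_2 : Q7 :=
  ![![E8.e 1, E8.e 0, E8.e 0, E8.e 0, E8.e 0, E8.e 0, E8.e 0],
    ![E8.e 1, E8.e 0, E8.e 1, E8.e 1, E8.e 1, E8.e 1, E8.e 1],
    ![E8.e 1, E8.e 1, E8.e 0, E8.e 1, E8.e 1, E8.e 1, E8.e 1],
    ![E8.e 0, E8.e 0, E8.e 0, E8.e 1, E8.e 0, E8.e 0, E8.e 0],
    ![E8.e 1, E8.e 1, E8.e 1, E8.e 1, E8.e 0, E8.e 1, E8.e 1],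
    ![E8.e 0, E8.e 0, E8.e 0, E8.e 0, E8.e 0, E8.e 1, E8.e 0],
    ![E8.e 1, E8.e 1, E8.e 1, E8.e 1, E8.e 1, E8.e 1, E8.e 0]]

theorem l_2_eq : ∀ i j, qmul qX l_0 i j = qmul l_2 qX i j := by decide +kernel

def l_3 : Q7 :=
  ![![E8.e 0, E8.e 5, E8.e 3, E8.e 7, E8.e 7, E8.e 3, E8.e 5],
    ![E8.e 2, E8.e 0, E8.e 6, E8.e 5, E8.e 5, E8.e 6, E8.e 1],
    ![E8.e 0, E8.e 0, E8.e 1, E8.e 0, E8.e 0, E8.e 0, E8.e 0],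
    ![E8.e 4, E8.e 2, E8.e 7, E8.e 0, E8.e 1, E8.e 7, E8.e 2],
    ![E8.e 0, E8.e 0, E8.e 0, E8.e 0, E8.e 1, E8.e 0, E8.e 0],
    ![E8.e 6, E8.e 3, E8.e 1, E8.e 4, E8.e 4, E8.e 0, E8.e 3],
    ![E8.e 0, E8.e 0, E8.e 0, E8.e 0, E8.e 0, E8.e 0, E8.e 1]]

theorem l_3_eq : ∀ i j, qmul qG l_0 i j = qmul l_3 qG i j := by decide +kernel

def l_10 : Q7 :=
  ![![E8.e 1, E8.e 0, E8.e 0, E8.e 0, E8.e 0, E8.e 0, E8.e 7],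
    ![E8.e 0, E8.e 1, E8.e 0, E8.e 0, E8.e 0, E8.e 0, E8.e 3],
    ![E8.e 0, E8.e 0, E8.e 1, E8.e 0, E8.e 0, E8.e 0, E8.e 4],
    ![E8.e 0, E8.e 0, E8.e 0, E8.e 1, E8.e 0, E8.e 0, E8.e 5],
    ![E8.e 0, E8.e 0, E8.e 0, E8.e 0, E8.e 1, E8.e 0, E8.e 2],
    ![E8.e 0, E8.e 0, E8.e 0, E8.e 0, E8.e 0, E8.e 1, E8.e 6],
    ![E8.e 0, E8.e 0, E8.e 0, E8.e 0, E8.e 0, E8.e 0, E8.e 1]]

theorem l_10_eq : ∀ i j, qmul qF l_1 i j = qmul l_10 qF i j := by decide +kernel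

def l_12 : Q7 :=
  ![![E8.e 1, E8.e 0, E8.e 0, E8.e 0, E8.e 0, E8.e 0, E8.e 0],
    ![E8.e 2, E8.e 0, E8.e 6, E8.e 5, E8.e 5, E8.e 6, E8.e 1],
    ![E8.e 6, E8.e 3, E8.e 0, E8.e 4, E8.e 4, E8.e 1, E8.e 3],
    ![E8.e 0, E8.e 0, E8.e 0, E8.e 1, E8.e 0, E8.e 0, E8.e 0],
    ![E8.e 4, E8.e 2, E8.e 7, E8.e 1, E8.e 0, E8.e 7, E8.e 2],
    ![E8.e 0, E8.e 0, E8.e 0, E8.e 0, E8.e 0, E8.e 1, E8.e 0],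
    ![E8.e 2, E8.e 1, E8.e 6, E8.e 5, E8.e 5, E8.e 6, E8.e 0]]

theorem l_12_eq : ∀ i j, qmul qG l_2 i j = qmul l_12 qG i j := by decide +kernel

def l_24696 : Q7 :=
  ![![E8.e 0, E8.e 5, E8.e 3, E8.e 7, E8.e 7, E8.e 3, E8.e 5],
    ![E8.e 1, E8.e 4, E8.e 3, E8.e 7, E8.e 7, E8.e 3, E8.e 5],
    ![E8.e 0, E8.e 0, E8.e 1, E8.e 0, E8.e 0, E8.e 0, E8.e 0],
    ![E8.e 1, E8.e 5, E8.e 3, E8.e 6, E8.e 7, E8.e 3, E8.e 5],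
    ![E8.e 0, E8.e 0, E8.e 0, E8.e 0, E8.e 1, E8.e 0, E8.e 0],
    ![E8.e 1, E8.e 5, E8.e 3, E8.e 7, E8.e 7, E8.e 2, E8.e 5],
    ![E8.e 0, E8.e 0, E8.e 0, E8.e 0, E8.e 0, E8.e 0, E8.e 1]]

def l_24696p : Q7 :=
  ![![E8.e 1, E8.e 4, E8.e 2, E8.e 6, E8.e 6, E8.e 2, E8.e 4],
    ![E8.e 3, E8.e 1, E8.e 7, E8.e 4, E8.e 4, E8.e 7, E8.e 0],
    ![E8.e 0, E8.e 0, E8.e 1, E8.e 0, E8.e 0, E8.e 0, E8.e 0],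
    ![E8.e 5, E8.e 3, E8.e 6, E8.e 1, E8.e 0, E8.e 6, E8.e 3],
    ![E8.e 0, E8.e 0, E8.e 0, E8.e 0, E8.e 1, E8.e 0, E8.e 0],
    ![E8.e 7, E8.e 2, E8.e 0, E8.e 5, E8.e 5, E8.e 1, E8.e 2],
    ![E8.e 0, E8.e 0, E8.e 0, E8.e 0, E8.e 0, E8.e 0, E8.e 1]]

theorem l_24696p_eq : ∀ i j, qmul l_3 l_0 i j = l_24696p i j := by decide +kernel

theorem l_24696_eq : ∀ i j, qmul l_24696p l_24696p i j = l_24696 i j := by decide +kernel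

def l_115248 : Q7 :=
  ![![E8.e 1, E8.e 0, E8.e 0, E8.e 0, E8.e 0, E8.e 0, E8.e 1],
    ![E8.e 0, E8.e 1, E8.e 0, E8.e 0, E8.e 0, E8.e 0, E8.e 1],
    ![E8.e 0, E8.e 0, E8.e 1, E8.e 0, E8.e 0, E8.e 0, E8.e 0],
    ![E8.e 0, E8.e 0, E8.e 0, E8.e 1, E8.e 0, E8.e 0, E8.e 1],
    ![E8.e 0, E8.e 0, E8.e 0, E8.e 0, E8.e 1, E8.e 0, E8.e 0],
    ![E8.e 0, E8.e 0, E8.e 0, E8.e 0, E8.e 0, E8.e 1, E8.e 1],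
    ![E8.e 0, E8.e 0, E8.e 0, E8.e 0, E8.e 0, E8.e 0, E8.e 1]]

def l_115248p : Q7 :=
  ![![E8.e 0, E8.e 1, E8.e 1, E8.e 1, E8.e 1, E8.e 1, E8.e 6],
    ![E8.e 1, E8.e 0, E8.e 1, E8.e 1, E8.e 1, E8.e 1, E8.e 2],
    ![E8.e 0, E8.e 0, E8.e 1, E8.e 0, E8.e 0, E8.e 0, E8.e 4],
    ![E8.e 1, E8.e 1, E8.e 1, E8.e 0, E8.e 1, E8.e 1, E8.e 4],
    ![E8.e 0, E8.e 0, E8.e 0, E8.e 0, E8.e 1, E8.e 0, E8.e 2],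
    ![E8.e 1, E8.e 1, E8.e 1, E8.e 1, E8.e 1, E8.e 0, E8.e 7],
    ![E8.e 0, E8.e 0, E8.e 0, E8.e 0, E8.e 0, E8.e 0, E8.e 1]]

theorem l_115248p_eq : ∀ i j, qmul l_10 l_0 i j = l_115248p i j := by decide +kernel

theorem l_115248_eq : ∀ i j, qmul l_115248p l_115248p i j = l_115248 i j := by decide +kernel

def l_115249 : Q7 :=
  ![![E8.e 1, E8.e 0, E8.e 0, E8.e 0, E8.e 0, E8.e 0, E8.e 2],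
    ![E8.e 0, E8.e 1, E8.e 0, E8.e 0, E8.e 0, E8.e 0, E8.e 4],
    ![E8.e 0, E8.e 0, E8.e 1, E8.e 0, E8.e 0, E8.e 0, E8.e 0],
    ![E8.e 0, E8.e 0, E8.e 0, E8.e 1, E8.e 0, E8.e 0, E8.e 6],
    ![E8.e 0, E8.e 0, E8.e 0, E8.e 0, E8.e 1, E8.e 0, E8.e 0],
    ![E8.e 0, E8.e 0, E8.e 0, E8.e 0, E8.e 0, E8.e 1, E8.e 5],
    ![E8.e 0, E8.e 0, E8.e 0, E8.e 0, E8.e 0, E8.e 0, E8.e 1]]

theorem l_115249_eq : ∀ i j, qmul qY l_115248 i j = qmul l_115249 qY i j := by decide +kernel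

def l_115255 : Q7 :=
  ![![E8.e 1, E8.e 0, E8.e 0, E8.e 0, E8.e 0, E8.e 0, E8.e 0],
    ![E8.e 2, E8.e 1, E8.e 0, E8.e 0, E8.e 0, E8.e 0, E8.e 0],
    ![E8.e 4, E8.e 0, E8.e 1, E8.e 0, E8.e 0, E8.e 0, E8.e 0],
    ![E8.e 0, E8.e 0, E8.e 0, E8.e 1, E8.e 0, E8.e 0, E8.e 0],
    ![E8.e 6, E8.e 0, E8.e 0, E8.e 0, E8.e 1, E8.e 0, E8.e 0],
    ![E8.e 0, E8.e 0, E8.e 0, E8.e 0, E8.e 0, E8.e 1, E8.e 0],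
    ![E8.e 5, E8.e 0, E8.e 0, E8.e 0, E8.e 0, E8.e 0, E8.e 1]]

theorem l_115255_eq : ∀ i j, qmul qX l_115249 i j = qmul l_115255 qX i j := by decide +kernel

def l_115282 : Q7 :=
  ![![E8.e 1, E8.e 0, E8.e 0, E8.e 0, E8.e 0, E8.e 0, E8.e 0],
    ![E8.e 6, E8.e 1, E8.e 0, E8.e 0, E8.e 0, E8.e 0, E8.e 0],
    ![E8.e 2, E8.e 0, E8.e 1, E8.e 0, E8.e 0, E8.e 0, E8.e 0],
    ![E8.e 0, E8.e 0, E8.e 0, E8.e 1, E8.e 0, E8.e 0, E8.e 0],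
    ![E8.e 4, E8.e 0, E8.e 0, E8.e 0, E8.e 1, E8.e 0, E8.e 0],
    ![E8.e 5, E8.e 0, E8.e 0, E8.e 0, E8.e 0, E8.e 1, E8.e 0],
    ![E8.e 0, E8.e 0, E8.e 0, E8.e 0, E8.e 0, E8.e 0, E8.e 1]]

theorem l_115282_eq : ∀ i j, qmul qS l_115255 i j = qmul l_115282 qS i j := by decide +kernel

def l_115383 : Q7 :=
  ![![E8.e 1, E8.e 0, E8.e 0, E8.e 0, E8.e 0, E8.e 0, E8.e 0],
    ![E8.e 7, E8.e 1, E8.e 0, E8.e 0, E8.e 0, E8.e 0, E8.e 0],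
    ![E8.e 7, E8.e 0, E8.e 1, E8.e 0, E8.e 0, E8.e 0, E8.e 0],
    ![E8.e 0, E8.e 0, E8.e 0, E8.e 1, E8.e 0, E8.e 0, E8.e 0],
    ![E8.e 6, E8.e 0, E8.e 0, E8.e 0, E8.e 1, E8.e 0, E8.e 0],
    ![E8.e 3, E8.e 0, E8.e 0, E8.e 0, E8.e 0, E8.e 1, E8.e 0],
    ![E8.e 0, E8.e 0, E8.e 0, E8.e 0, E8.e 0, E8.e 0, E8.e 1]]

theorem l_115383_eq : ∀ i j, qmul qG l_115282 i j = qmul l_115383 qG i j := by decide +kernel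

def l_115715 : Q7 :=
  ![![E8.e 1, E8.e 0, E8.e 0, E8.e 0, E8.e 0, E8.e 0, E8.e 0],
    ![E8.e 6, E8.e 1, E8.e 0, E8.e 0, E8.e 0, E8.e 0, E8.e 0],
    ![E8.e 7, E8.e 0, E8.e 1, E8.e 0, E8.e 0, E8.e 0, E8.e 0],
    ![E8.e 3, E8.e 0, E8.e 0, E8.e 1, E8.e 0, E8.e 0, E8.e 0],
    ![E8.e 7, E8.e 0, E8.e 0, E8.e 0, E8.e 1, E8.e 0, E8.e 0],
    ![E8.e 0, E8.e 0, E8.e 0, E8.e 0, E8.e 0, E8.e 1, E8.e 0],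
    ![E8.e 0, E8.e 0, E8.e 0, E8.e 0, E8.e 0, E8.e 0, E8.e 1]]

theorem l_115715_eq : ∀ i j, qmul qS l_115383 i j = qmul l_115715 qS i j := by decide +kernel

def l_116652 : Q7 :=
  ![![E8.e 1, E8.e 0, E8.e 0, E8.e 0, E8.e 0, E8.e 0, E8.e 0],
    ![E8.e 7, E8.e 1, E8.e 0, E8.e 0, E8.e 0, E8.e 0, E8.e 0],
    ![E8.e 4, E8.e 0, E8.e 1, E8.e 0, E8.e 0, E8.e 0, E8.e 0],
    ![E8.e 7, E8.e 0, E8.e 0, E8.e 1, E8.e 0, E8.e 0, E8.e 0],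
    ![E8.e 1, E8.e 0, E8.e 0, E8.e 0, E8.e 1, E8.e 0, E8.e 0],
    ![E8.e 0, E8.e 0, E8.e 0, E8.e 0, E8.e 0, E8.e 1, E8.e 0],
    ![E8.e 0, E8.e 0, E8.e 0, E8.e 0, E8.e 0, E8.e 0, E8.e 1]]

theorem l_116652_eq : ∀ i j, qmul qG l_115715 i j = qmul l_116652 qG i j := by decide +kernel

def l_118779 : Q7 :=
  ![![E8.e 4, E8.e 5, E8.e 5, E8.e 5, E8.e 5, E8.e 5, E8.e 5],
    ![E8.e 7, E8.e 6, E8.e 7, E8.e 7, E8.e 7, E8.e 7, E8.e 7],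
    ![E8.e 0, E8.e 0, E8.e 1, E8.e 0, E8.e 0, E8.e 0, E8.e 0],
    ![E8.e 6, E8.e 6, E8.e 6, E8.e 7, E8.e 6, E8.e 6, E8.e 6],
    ![E8.e 0, E8.e 0, E8.e 0, E8.e 0, E8.e 1, E8.e 0, E8.e 0],
    ![E8.e 4, E8.e 4, E8.e 4, E8.e 4, E8.e 4, E8.e 5, E8.e 4],
    ![E8.e 0, E8.e 0, E8.e 0, E8.e 0, E8.e 0, E8.e 0, E8.e 1]]

theorem l_118779_eq : ∀ i j, qmul qF l_116652 i j = qmul l_118779 qF i j := by decide +kernel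

def l_122536 : Q7 :=
  ![![E8.e 4, E8.e 7, E8.e 4, E8.e 6, E8.e 6, E8.e 4, E8.e 7],
    ![E8.e 5, E8.e 6, E8.e 4, E8.e 6, E8.e 6, E8.e 4, E8.e 7],
    ![E8.e 0, E8.e 0, E8.e 1, E8.e 0, E8.e 0, E8.e 0, E8.e 0],
    ![E8.e 5, E8.e 7, E8.e 4, E8.e 7, E8.e 6, E8.e 4, E8.e 7],
    ![E8.e 0, E8.e 0, E8.e 0, E8.e 0, E8.e 1, E8.e 0, E8.e 0],
    ![E8.e 5, E8.e 7, E8.e 4, E8.e 6, E8.e 6, E8.e 5, E8.e 7],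
    ![E8.e 0, E8.e 0, E8.e 0, E8.e 0, E8.e 0, E8.e 0, E8.e 1]]

theorem l_122536_eq : ∀ i j, qmul qG l_118779 i j = qmul l_122536 qG i j := by decide +kernel

def l_131712 : Q7 :=
  ![![E8.e 3, E8.e 1, E8.e 6, E8.e 5, E8.e 5, E8.e 6, E8.e 1],
    ![E8.e 2, E8.e 0, E8.e 6, E8.e 5, E8.e 5, E8.e 6, E8.e 1],
    ![E8.e 0, E8.e 0, E8.e 1, E8.e 0, E8.e 0, E8.e 0, E8.e 0],
    ![E8.e 2, E8.e 1, E8.e 6, E8.e 4, E8.e 5, E8.e 6, E8.e 1],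
    ![E8.e 0, E8.e 0, E8.e 0, E8.e 0, E8.e 1, E8.e 0, E8.e 0],
    ![E8.e 2, E8.e 1, E8.e 6, E8.e 5, E8.e 5, E8.e 7, E8.e 1],
    ![E8.e 0, E8.e 0, E8.e 0, E8.e 0, E8.e 0, E8.e 0, E8.e 1]]

def l_131712p : Q7 :=
  ![![E8.e 0, E8.e 1, E8.e 1, E8.e 1, E8.e 1, E8.e 1, E8.e 1],
    ![E8.e 3, E8.e 1, E8.e 7, E8.e 4, E8.e 4, E8.e 7, E8.e 0],
    ![E8.e 6, E8.e 3, E8.e 0, E8.e 4, E8.e 4, E8.e 1, E8.e 3],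
    ![E8.e 1, E8.e 1, E8.e 1, E8.e 0, E8.e 1, E8.e 1, E8.e 1],
    ![E8.e 4, E8.e 2, E8.e 7, E8.e 1, E8.e 0, E8.e 7, E8.e 2],
    ![E8.e 1, E8.e 1, E8.e 1, E8.e 1, E8.e 1, E8.e 0, E8.e 1],
    ![E8.e 2, E8.e 1, E8.e 6, E8.e 5, E8.e 5, E8.e 6, E8.e 0]]

theorem l_131712p_eq : ∀ i j, qmul l_12 l_0 i j = l_131712p i j := by decide +kernel

theorem l_131712_eq : ∀ i j, qmul l_131712p l_131712p i j = l_131712 i j := by decide +kernel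

def l_u : Fin 7 → E8 := ![E8.e 1, E8.e 1, E8.e 0, E8.e 1, E8.e 0, E8.e 1, E8.e 0]

def l_v : Fin 7 → E8 := ![E8.e 1, E8.e 5, E8.e 3, E8.e 7, E8.e 7, E8.e 3, E8.e 5]

theorem l_sel0 : l_24696 = qtv (E8.e 1) l_u l_v := by decide +kernel

theorem l_sel1 : l_122536 = qtv (E8.e 5) l_u l_v := by decide +kernel

theorem l_sel2 : l_131712 = qtv (E8.e 2) l_u l_v := by decide +kernel

def l_w0 : Fin 7 → E8 := ![E8.e 1, E8.e 2, E8.e 0, E8.e 3, E8.e 0, E8.e 7, E8.e 0]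

def l_x0 : Fin 7 → E8 := ![E8.e 1, E8.e 7, E8.e 2, E8.e 4, E8.e 2, E8.e 7, E8.e 1]

theorem l_f0_eq : ∀ i j, qmul qY (qvv l_u l_v) i j = qmul (qvv l_w0 l_x0) qY i j := by decide +kernel

theorem sl_l (hC : Cubic ω) (hG : Gen8 ω X) (h : InX X (toF ω l_0)) :
    specialLinear (Fin 7) F ≤ X := by
  have h0 := h
  have h1 := conjStep hC (inX_qY hC hG) h0 l_1_eq
  have h2 := conjStep hC (inX_qX hC hG) h0 l_2_eq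
  have h3 := conjStep hC (inX_qG hC hG) h0 l_3_eq
  have h10 := conjStep hC (inX_qF hC hG) h1 l_10_eq
  have h12 := conjStep hC (inX_qG hC hG) h2 l_12_eq
  have h24696p := step hC h3 h0 l_24696p_eq
  have h24696 := step hC h24696p h24696p l_24696_eq
  have h115248p := step hC h10 h0 l_115248p_eq
  have h115248 := step hC h115248p h115248p l_115248_eq
  have h115249 := conjStep hC (inX_qY hC hG) h115248 l_115249_eq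
  have h115255 := conjStep hC (inX_qX hC hG) h115249 l_115255_eq
  have h115282 := conjStep hC (inX_qS hC hG) h115255 l_115282_eq
  have h115383 := conjStep hC (inX_qG hC hG) h115282 l_115383_eq
  have h115715 := conjStep hC (inX_qS hC hG) h115383 l_115715_eq
  have h116652 := conjStep hC (inX_qG hC hG) h115715 l_116652_eq
  have h118779 := conjStep hC (inX_qF hC hG) h116652 l_118779_eq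
  have h122536 := conjStep hC (inX_qG hC hG) h118779 l_122536_eq
  have h131712p := step hC h12 h0 l_131712p_eq
  have h131712 := step hC h131712p h131712p l_131712_eq
  rw [l_sel0] at h24696
  rw [l_sel1] at h122536
  rw [l_sel2] at h131712
  have hfull := isFull_of_three hC (u := l_u) (v := l_v) (by decide +kernel) (by decide +kernel) h24696 h122536 h131712
  rw [← toF_qvv hC] at hfull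
  have f0 := hfull
  have f1 := full_conj hC (inX_qY hC hG) f0 l_f0_eq
  rw [toF_qvv hC] at hfull
  exact sl_of_full hC hG hfull f1 (by decide +kernel) (by decide +kernel) (by decide +kernel) (by decide +kernel) (by decide +kernel) (by decide +kernel)

def p2_0 : Q7 :=
  ![![E8.e 1, E8.e 0, E8.e 0, E8.e 0, E8.e 0, E8.e 0, E8.e 0],
    ![E8.e 0, E8.e 4, E8.e 0, E8.e 0, E8.e 0, E8.e 0, E8.e 2],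
    ![E8.e 0, E8.e 0, E8.e 1, E8.e 0, E8.e 0, E8.e 0, E8.e 0],
    ![E8.e 0, E8.e 0, E8.e 0, E8.e 1, E8.e 0, E8.e 0, E8.e 0],
    ![E8.e 0, E8.e 0, E8.e 0, E8.e 0, E8.e 1, E8.e 0, E8.e 0],
    ![E8.e 0, E8.e 0, E8.e 0, E8.e 0, E8.e 0, E8.e 1, E8.e 0],
    ![E8.e 0, E8.e 6, E8.e 0, E8.e 0, E8.e 0, E8.e 0, E8.e 4]]

def p2_1 : Q7 :=
  ![![E8.e 1, E8.e 0, E8.e 0, E8.e 0, E8.e 0, E8.e 0, E8.e 0],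
    ![E8.e 0, E8.e 4, E8.e 0, E8.e 0, E8.e 0, E8.e 0, E8.e 3],
    ![E8.e 0, E8.e 0, E8.e 1, E8.e 0, E8.e 0, E8.e 0, E8.e 0],
    ![E8.e 0, E8.e 0, E8.e 0, E8.e 1, E8.e 0, E8.e 0, E8.e 0],
    ![E8.e 0, E8.e 0, E8.e 0, E8.e 0, E8.e 1, E8.e 0, E8.e 0],
    ![E8.e 0, E8.e 0, E8.e 0, E8.e 0, E8.e 0, E8.e 1, E8.e 0],
    ![E8.e 0, E8.e 4, E8.e 0, E8.e 0, E8.e 0, E8.e 0, E8.e 4]]

theorem p2_1_eq : ∀ i j, qmul qY p2_0 i j = qmul p2_1 qY i j := by decide +kernel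

def p2_5 : Q7 :=
  ![![E8.e 1, E8.e 0, E8.e 0, E8.e 0, E8.e 0, E8.e 0, E8.e 0],
    ![E8.e 0, E8.e 4, E8.e 0, E8.e 0, E8.e 0, E8.e 0, E8.e 7],
    ![E8.e 0, E8.e 0, E8.e 1, E8.e 0, E8.e 0, E8.e 0, E8.e 0],
    ![E8.e 0, E8.e 0, E8.e 0, E8.e 1, E8.e 0, E8.e 0, E8.e 0],
    ![E8.e 0, E8.e 0, E8.e 0, E8.e 0, E8.e 1, E8.e 0, E8.e 0],
    ![E8.e 0, E8.e 0, E8.e 0, E8.e 0, E8.e 0, E8.e 1, E8.e 0],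
    ![E8.e 0, E8.e 1, E8.e 0, E8.e 0, E8.e 0, E8.e 0, E8.e 4]]

theorem p2_5_eq : ∀ i j, qmul qY p2_1 i j = qmul p2_5 qY i j := by decide +kernel

def p2_18816 : Q7 :=
  ![![E8.e 1, E8.e 0, E8.e 0, E8.e 0, E8.e 0, E8.e 0, E8.e 0],
    ![E8.e 0, E8.e 1, E8.e 0, E8.e 0, E8.e 0, E8.e 0, E8.e 0],
    ![E8.e 0, E8.e 0, E8.e 1, E8.e 0, E8.e 0, E8.e 0, E8.e 0],
    ![E8.e 0, E8.e 0, E8.e 0, E8.e 1, E8.e 0, E8.e 0, E8.e 0],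
    ![E8.e 0, E8.e 0, E8.e 0, E8.e 0, E8.e 1, E8.e 0, E8.e 0],
    ![E8.e 0, E8.e 0, E8.e 0, E8.e 0, E8.e 0, E8.e 1, E8.e 0],
    ![E8.e 0, E8.e 3, E8.e 0, E8.e 0, E8.e 0, E8.e 0, E8.e 1]]

def p2_18816p : Q7 :=
  ![![E8.e 1, E8.e 0, E8.e 0, E8.e 0, E8.e 0, E8.e 0, E8.e 0],
    ![E8.e 0, E8.e 4, E8.e 0, E8.e 0, E8.e 0, E8.e 0, E8.e 2],
    ![E8.e 0, E8.e 0, E8.e 1, E8.e 0, E8.e 0, E8.e 0, E8.e 0],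
    ![E8.e 0, E8.e 0, E8.e 0, E8.e 1, E8.e 0, E8.e 0, E8.e 0],
    ![E8.e 0, E8.e 0, E8.e 0, E8.e 0, E8.e 1, E8.e 0, E8.e 0],
    ![E8.e 0, E8.e 0, E8.e 0, E8.e 0, E8.e 0, E8.e 1, E8.e 0],
    ![E8.e 0, E8.e 1, E8.e 0, E8.e 0, E8.e 0, E8.e 0, E8.e 2]]

theorem p2_18816p_eq : ∀ i j, qmul p2_0 p2_5 i j = p2_18816p i j := by decide +kernel

theorem p2_18816_eq : ∀ i j, qmul p2_18816p p2_0 i j = p2_18816 i j := by decide +kernel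

def p2_18817 : Q7 :=
  ![![E8.e 1, E8.e 0, E8.e 0, E8.e 0, E8.e 0, E8.e 0, E8.e 0],
    ![E8.e 0, E8.e 1, E8.e 0, E8.e 0, E8.e 0, E8.e 0, E8.e 0],
    ![E8.e 0, E8.e 0, E8.e 1, E8.e 0, E8.e 0, E8.e 0, E8.e 0],
    ![E8.e 0, E8.e 0, E8.e 0, E8.e 1, E8.e 0, E8.e 0, E8.e 0],
    ![E8.e 0, E8.e 0, E8.e 0, E8.e 0, E8.e 1, E8.e 0, E8.e 0],
    ![E8.e 0, E8.e 0, E8.e 0, E8.e 0, E8.e 0, E8.e 1, E8.e 0],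
    ![E8.e 0, E8.e 2, E8.e 0, E8.e 0, E8.e 0, E8.e 0, E8.e 1]]

theorem p2_18817_eq : ∀ i j, qmul qY p2_18816 i j = qmul p2_18817 qY i j := by decide +kernel

def p2_18821 : Q7 :=
  ![![E8.e 1, E8.e 0, E8.e 0, E8.e 0, E8.e 0, E8.e 0, E8.e 0],
    ![E8.e 0, E8.e 1, E8.e 0, E8.e 0, E8.e 0, E8.e 0, E8.e 0],
    ![E8.e 0, E8.e 0, E8.e 1, E8.e 0, E8.e 0, E8.e 0, E8.e 0],
    ![E8.e 0, E8.e 0, E8.e 0, E8.e 1, E8.e 0, E8.e 0, E8.e 0],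
    ![E8.e 0, E8.e 0, E8.e 0, E8.e 0, E8.e 1, E8.e 0, E8.e 0],
    ![E8.e 0, E8.e 0, E8.e 0, E8.e 0, E8.e 0, E8.e 1, E8.e 0],
    ![E8.e 0, E8.e 5, E8.e 0, E8.e 0, E8.e 0, E8.e 0, E8.e 1]]

theorem p2_18821_eq : ∀ i j, qmul qY p2_18817 i j = qmul p2_18821 qY i j := by decide +kernel

def p2_u : Fin 7 → E8 := ![E8.e 0, E8.e 0, E8.e 0, E8.e 0, E8.e 0, E8.e 0, E8.e 1]

def p2_v : Fin 7 → E8 := ![E8.e 0, E8.e 1, E8.e 0, E8.e 0, E8.e 0, E8.e 0, E8.e 0]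

theorem p2_sel0 : p2_18816 = qtv (E8.e 3) p2_u p2_v := by decide +kernel

theorem p2_sel1 : p2_18817 = qtv (E8.e 2) p2_u p2_v := by decide +kernel

theorem p2_sel2 : p2_18821 = qtv (E8.e 5) p2_u p2_v := by decide +kernel

def p2_w0 : Fin 7 → E8 := ![E8.e 1, E8.e 0, E8.e 0, E8.e 0, E8.e 0, E8.e 0, E8.e 0]

def p2_x0 : Fin 7 → E8 := ![E8.e 0, E8.e 0, E8.e 1, E8.e 0, E8.e 0, E8.e 0, E8.e 0]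

theorem p2_f0_eq : ∀ i j, qmul qX (qvv p2_u p2_v) i j = qmul (qvv p2_w0 p2_x0) qX i j := by decide +kernel

def p2_w1 : Fin 7 → E8 := ![E8.e 0, E8.e 1, E8.e 0, E8.e 0, E8.e 0, E8.e 0, E8.e 0]

def p2_x1 : Fin 7 → E8 := ![E8.e 0, E8.e 0, E8.e 0, E8.e 1, E8.e 0, E8.e 0, E8.e 0]

theorem p2_f1_eq : ∀ i j, qmul qX (qvv p2_w0 p2_x0) i j = qmul (qvv p2_w1 p2_x1) qX i j := by decide +kernel

def p2_w2 : Fin 7 → E8 := ![E8.e 0, E8.e 0, E8.e 1, E8.e 0, E8.e 0, E8.e 0, E8.e 0]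

def p2_x2 : Fin 7 → E8 := ![E8.e 0, E8.e 0, E8.e 0, E8.e 0, E8.e 0, E8.e 0, E8.e 1]

theorem p2_f2_eq : ∀ i j, qmul qS (qvv p2_w1 p2_x1) i j = qmul (qvv p2_w2 p2_x2) qS i j := by decide +kernel

theorem sl_p2 (hC : Cubic ω) (hG : Gen8 ω X) (h : InX X (toF ω p2_0)) :
    specialLinear (Fin 7) F ≤ X := by
  have h0 := h
  have h1 := conjStep hC (inX_qY hC hG) h0 p2_1_eq
  have h5 := conjStep hC (inX_qY hC hG) h1 p2_5_eq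
  have h18816p := step hC h0 h5 p2_18816p_eq
  have h18816 := step hC h18816p h0 p2_18816_eq
  have h18817 := conjStep hC (inX_qY hC hG) h18816 p2_18817_eq
  have h18821 := conjStep hC (inX_qY hC hG) h18817 p2_18821_eq
  rw [p2_sel0] at h18816
  rw [p2_sel1] at h18817
  rw [p2_sel2] at h18821
  have hfull := isFull_of_three hC (u := p2_u) (v := p2_v) (by decide +kernel) (by decide +kernel) h18816 h18817 h18821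
  rw [← toF_qvv hC] at hfull
  have f0 := hfull
  have f1 := full_conj hC (inX_qX hC hG) f0 p2_f0_eq
  have f2 := full_conj hC (inX_qX hC hG) f1 p2_f1_eq
  have f3 := full_conj hC (inX_qS hC hG) f2 p2_f2_eq
  rw [toF_qvv hC] at hfull
  exact sl_of_full hC hG hfull f3 (by decide +kernel) (by decide +kernel) (by decide +kernel) (by decide +kernel) (by decide +kernel) (by decide +kernel)

def p3_0 : Q7 :=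
  ![![E8.e 1, E8.e 0, E8.e 0, E8.e 0, E8.e 0, E8.e 0, E8.e 0],
    ![E8.e 0, E8.e 6, E8.e 0, E8.e 0, E8.e 0, E8.e 0, E8.e 2],
    ![E8.e 0, E8.e 0, E8.e 1, E8.e 0, E8.e 0, E8.e 0, E8.e 0],
    ![E8.e 0, E8.e 0, E8.e 0, E8.e 1, E8.e 0, E8.e 0, E8.e 0],
    ![E8.e 0, E8.e 0, E8.e 0, E8.e 0, E8.e 1, E8.e 0, E8.e 0],
    ![E8.e 0, E8.e 0, E8.e 0, E8.e 0, E8.e 0, E8.e 1, E8.e 0],
    ![E8.e 0, E8.e 4, E8.e 0, E8.e 0, E8.e 0, E8.e 0, E8.e 6]]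

def p3_1 : Q7 :=
  ![![E8.e 1, E8.e 0, E8.e 0, E8.e 0, E8.e 0, E8.e 0, E8.e 0],
    ![E8.e 0, E8.e 6, E8.e 0, E8.e 0, E8.e 0, E8.e 0, E8.e 3],
    ![E8.e 0, E8.e 0, E8.e 1, E8.e 0, E8.e 0, E8.e 0, E8.e 0],
    ![E8.e 0, E8.e 0, E8.e 0, E8.e 1, E8.e 0, E8.e 0, E8.e 0],
    ![E8.e 0, E8.e 0, E8.e 0, E8.e 0, E8.e 1, E8.e 0, E8.e 0],
    ![E8.e 0, E8.e 0, E8.e 0, E8.e 0, E8.e 0, E8.e 1, E8.e 0],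
    ![E8.e 0, E8.e 1, E8.e 0, E8.e 0, E8.e 0, E8.e 0, E8.e 6]]

theorem p3_1_eq : ∀ i j, qmul qY p3_0 i j = qmul p3_1 qY i j := by decide +kernel

def p3_4 : Q7 :=
  ![![E8.e 7, E8.e 5, E8.e 0, E8.e 5, E8.e 6, E8.e 1, E8.e 1],
    ![E8.e 5, E8.e 3, E8.e 0, E8.e 2, E8.e 5, E8.e 4, E8.e 4],
    ![E8.e 0, E8.e 0, E8.e 1, E8.e 0, E8.e 0, E8.e 0, E8.e 0],
    ![E8.e 5, E8.e 2, E8.e 0, E8.e 3, E8.e 5, E8.e 4, E8.e 4],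
    ![E8.e 6, E8.e 5, E8.e 0, E8.e 5, E8.e 7, E8.e 1, E8.e 1],
    ![E8.e 1, E8.e 4, E8.e 0, E8.e 4, E8.e 1, E8.e 2, E8.e 3],
    ![E8.e 1, E8.e 4, E8.e 0, E8.e 4, E8.e 1, E8.e 3, E8.e 2]]

theorem p3_4_eq : ∀ i j, qmul qF p3_0 i j = qmul p3_4 qF i j := by decide +kernel

def p3_5 : Q7 :=
  ![![E8.e 1, E8.e 0, E8.e 0, E8.e 0, E8.e 0, E8.e 0, E8.e 0],
    ![E8.e 0, E8.e 6, E8.e 0, E8.e 0, E8.e 0, E8.e 0, E8.e 7],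
    ![E8.e 0, E8.e 0, E8.e 1, E8.e 0, E8.e 0, E8.e 0, E8.e 0],
    ![E8.e 0, E8.e 0, E8.e 0, E8.e 1, E8.e 0, E8.e 0, E8.e 0],
    ![E8.e 0, E8.e 0, E8.e 0, E8.e 0, E8.e 1, E8.e 0, E8.e 0],
    ![E8.e 0, E8.e 0, E8.e 0, E8.e 0, E8.e 0, E8.e 1, E8.e 0],
    ![E8.e 0, E8.e 7, E8.e 0, E8.e 0, E8.e 0, E8.e 0, E8.e 6]]

theorem p3_5_eq : ∀ i j, qmul qY p3_1 i j = qmul p3_5 qY i j := by decide +kernel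

def p3_17 : Q7 :=
  ![![E8.e 2, E8.e 1, E8.e 4, E8.e 0, E8.e 4, E8.e 1, E8.e 3],
    ![E8.e 1, E8.e 7, E8.e 5, E8.e 0, E8.e 5, E8.e 6, E8.e 1],
    ![E8.e 4, E8.e 5, E8.e 3, E8.e 0, E8.e 2, E8.e 5, E8.e 4],
    ![E8.e 0, E8.e 0, E8.e 0, E8.e 1, E8.e 0, E8.e 0, E8.e 0],
    ![E8.e 4, E8.e 5, E8.e 2, E8.e 0, E8.e 3, E8.e 5, E8.e 4],
    ![E8.e 1, E8.e 6, E8.e 5, E8.e 0, E8.e 5, E8.e 7, E8.e 1],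
    ![E8.e 3, E8.e 1, E8.e 4, E8.e 0, E8.e 4, E8.e 1, E8.e 2]]

theorem p3_17_eq : ∀ i j, qmul qX p3_4 i j = qmul p3_17 qX i j := by decide +kernel

def p3_59 : Q7 :=
  ![![E8.e 2, E8.e 3, E8.e 1, E8.e 4, E8.e 0, E8.e 4, E8.e 1],
    ![E8.e 3, E8.e 2, E8.e 1, E8.e 4, E8.e 0, E8.e 4, E8.e 1],
    ![E8.e 1, E8.e 1, E8.e 7, E8.e 5, E8.e 0, E8.e 5, E8.e 6],
    ![E8.e 4, E8.e 4, E8.e 5, E8.e 3, E8.e 0, E8.e 2, E8.e 5],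
    ![E8.e 0, E8.e 0, E8.e 0, E8.e 0, E8.e 1, E8.e 0, E8.e 0],
    ![E8.e 4, E8.e 4, E8.e 5, E8.e 2, E8.e 0, E8.e 3, E8.e 5],
    ![E8.e 1, E8.e 1, E8.e 6, E8.e 5, E8.e 0, E8.e 5, E8.e 7]]

theorem p3_59_eq : ∀ i j, qmul qX p3_17 i j = qmul p3_59 qX i j := by decide +kernel

def p3_175 : Q7 :=
  ![![E8.e 1, E8.e 0, E8.e 0, E8.e 0, E8.e 0, E8.e 0, E8.e 0],
    ![E8.e 0, E8.e 6, E8.e 0, E8.e 0, E8.e 0, E8.e 0, E8.e 5],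
    ![E8.e 0, E8.e 0, E8.e 1, E8.e 0, E8.e 0, E8.e 0, E8.e 0],
    ![E8.e 0, E8.e 0, E8.e 0, E8.e 1, E8.e 0, E8.e 0, E8.e 0],
    ![E8.e 0, E8.e 0, E8.e 0, E8.e 0, E8.e 1, E8.e 0, E8.e 0],
    ![E8.e 0, E8.e 0, E8.e 0, E8.e 0, E8.e 0, E8.e 1, E8.e 0],
    ![E8.e 0, E8.e 6, E8.e 0, E8.e 0, E8.e 0, E8.e 0, E8.e 6]]

theorem p3_175_eq : ∀ i j, qmul qF p3_59 i j = qmul p3_175 qF i j := by decide +kernel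

def p3_1176 : Q7 :=
  ![![E8.e 1, E8.e 0, E8.e 0, E8.e 0, E8.e 0, E8.e 0, E8.e 0],
    ![E8.e 0, E8.e 5, E8.e 0, E8.e 0, E8.e 0, E8.e 0, E8.e 2],
    ![E8.e 0, E8.e 0, E8.e 1, E8.e 0, E8.e 0, E8.e 0, E8.e 0],
    ![E8.e 0, E8.e 0, E8.e 0, E8.e 1, E8.e 0, E8.e 0, E8.e 0],
    ![E8.e 0, E8.e 0, E8.e 0, E8.e 0, E8.e 1, E8.e 0, E8.e 0],
    ![E8.e 0, E8.e 0, E8.e 0, E8.e 0, E8.e 0, E8.e 1, E8.e 0],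
    ![E8.e 0, E8.e 3, E8.e 0, E8.e 0, E8.e 0, E8.e 0, E8.e 5]]

def p3_1176p : Q7 :=
  ![![E8.e 1, E8.e 0, E8.e 0, E8.e 0, E8.e 0, E8.e 0, E8.e 0],
    ![E8.e 0, E8.e 0, E8.e 0, E8.e 0, E8.e 0, E8.e 0, E8.e 6],
    ![E8.e 0, E8.e 0, E8.e 1, E8.e 0, E8.e 0, E8.e 0, E8.e 0],
    ![E8.e 0, E8.e 0, E8.e 0, E8.e 1, E8.e 0, E8.e 0, E8.e 0],
    ![E8.e 0, E8.e 0, E8.e 0, E8.e 0, E8.e 1, E8.e 0, E8.e 0],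
    ![E8.e 0, E8.e 0, E8.e 0, E8.e 0, E8.e 0, E8.e 1, E8.e 0],
    ![E8.e 0, E8.e 3, E8.e 0, E8.e 0, E8.e 0, E8.e 0, E8.e 5]]

theorem p3_1176p_eq : ∀ i j, qmul p3_0 p3_1 i j = p3_1176p i j := by decide +kernel

theorem p3_1176_eq : ∀ i j, qmul p3_1176p p3_0 i j = p3_1176 i j := by decide +kernel

def p3_1177 : Q7 :=
  ![![E8.e 1, E8.e 0, E8.e 0, E8.e 0, E8.e 0, E8.e 0, E8.e 0],
    ![E8.e 0, E8.e 5, E8.e 0, E8.e 0, E8.e 0, E8.e 0, E8.e 3],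
    ![E8.e 0, E8.e 0, E8.e 1, E8.e 0, E8.e 0, E8.e 0, E8.e 0],
    ![E8.e 0, E8.e 0, E8.e 0, E8.e 1, E8.e 0, E8.e 0, E8.e 0],
    ![E8.e 0, E8.e 0, E8.e 0, E8.e 0, E8.e 1, E8.e 0, E8.e 0],
    ![E8.e 0, E8.e 0, E8.e 0, E8.e 0, E8.e 0, E8.e 1, E8.e 0],
    ![E8.e 0, E8.e 2, E8.e 0, E8.e 0, E8.e 0, E8.e 0, E8.e 5]]

theorem p3_1177_eq : ∀ i j, qmul qY p3_1176 i j = qmul p3_1177 qY i j := by decide +kernel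

def p3_18816 : Q7 :=
  ![![E8.e 1, E8.e 0, E8.e 0, E8.e 0, E8.e 0, E8.e 0, E8.e 0],
    ![E8.e 0, E8.e 3, E8.e 0, E8.e 0, E8.e 0, E8.e 0, E8.e 4],
    ![E8.e 0, E8.e 0, E8.e 1, E8.e 0, E8.e 0, E8.e 0, E8.e 0],
    ![E8.e 0, E8.e 0, E8.e 0, E8.e 1, E8.e 0, E8.e 0, E8.e 0],
    ![E8.e 0, E8.e 0, E8.e 0, E8.e 0, E8.e 1, E8.e 0, E8.e 0],
    ![E8.e 0, E8.e 0, E8.e 0, E8.e 0, E8.e 0, E8.e 1, E8.e 0],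
    ![E8.e 0, E8.e 1, E8.e 0, E8.e 0, E8.e 0, E8.e 0, E8.e 3]]

def p3_18816p : Q7 :=
  ![![E8.e 1, E8.e 0, E8.e 0, E8.e 0, E8.e 0, E8.e 0, E8.e 0],
    ![E8.e 0, E8.e 7, E8.e 0, E8.e 0, E8.e 0, E8.e 0, E8.e 3],
    ![E8.e 0, E8.e 0, E8.e 1, E8.e 0, E8.e 0, E8.e 0, E8.e 0],
    ![E8.e 0, E8.e 0, E8.e 0, E8.e 1, E8.e 0, E8.e 0, E8.e 0],
    ![E8.e 0, E8.e 0, E8.e 0, E8.e 0, E8.e 1, E8.e 0, E8.e 0],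
    ![E8.e 0, E8.e 0, E8.e 0, E8.e 0, E8.e 0, E8.e 1, E8.e 0],
    ![E8.e 0, E8.e 1, E8.e 0, E8.e 0, E8.e 0, E8.e 0, E8.e 3]]

theorem p3_18816p_eq : ∀ i j, qmul p3_0 p3_5 i j = p3_18816p i j := by decide +kernel

theorem p3_18816_eq : ∀ i j, qmul p3_18816p p3_0 i j = p3_18816 i j := by decide +kernel

def p3_u : Fin 7 → E8 := ![E8.e 0, E8.e 1, E8.e 0, E8.e 0, E8.e 0, E8.e 0, E8.e 5]

def p3_v : Fin 7 → E8 := ![E8.e 0, E8.e 1, E8.e 0, E8.e 0, E8.e 0, E8.e 0, E8.e 2]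

theorem p3_sel0 : p3_175 = qtv (E8.e 7) p3_u p3_v := by decide +kernel

theorem p3_sel1 : p3_1177 = qtv (E8.e 4) p3_u p3_v := by decide +kernel

theorem p3_sel2 : p3_18816 = qtv (E8.e 2) p3_u p3_v := by decide +kernel

def p3_w0 : Fin 7 → E8 := ![E8.e 0, E8.e 2, E8.e 0, E8.e 0, E8.e 0, E8.e 0, E8.e 7]

def p3_x0 : Fin 7 → E8 := ![E8.e 0, E8.e 5, E8.e 0, E8.e 0, E8.e 0, E8.e 0, E8.e 4]

theorem p3_f0_eq : ∀ i j, qmul qY (qvv p3_u p3_v) i j = qmul (qvv p3_w0 p3_x0) qY i j := by decide +kernel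

def p3_w1 : Fin 7 → E8 := ![E8.e 7, E8.e 0, E8.e 2, E8.e 0, E8.e 0, E8.e 0, E8.e 0]

def p3_x1 : Fin 7 → E8 := ![E8.e 4, E8.e 0, E8.e 5, E8.e 0, E8.e 0, E8.e 0, E8.e 0]

theorem p3_f1_eq : ∀ i j, qmul qX (qvv p3_w0 p3_x0) i j = qmul (qvv p3_w1 p3_x1) qX i j := by decide +kernel

def p3_w2 : Fin 7 → E8 := ![E8.e 5, E8.e 4, E8.e 0, E8.e 6, E8.e 3, E8.e 1, E8.e 2]

def p3_x2 : Fin 7 → E8 := ![E8.e 1, E8.e 2, E8.e 0, E8.e 5, E8.e 3, E8.e 7, E8.e 6]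

theorem p3_f2_eq : ∀ i j, qmul qF (qvv p3_w1 p3_x1) i j = qmul (qvv p3_w2 p3_x2) qF i j := by decide +kernel

theorem sl_p3 (hC : Cubic ω) (hG : Gen8 ω X) (h : InX X (toF ω p3_0)) :
    specialLinear (Fin 7) F ≤ X := by
  have h0 := h
  have h1 := conjStep hC (inX_qY hC hG) h0 p3_1_eq
  have h4 := conjStep hC (inX_qF hC hG) h0 p3_4_eq
  have h5 := conjStep hC (inX_qY hC hG) h1 p3_5_eq
  have h17 := conjStep hC (inX_qX hC hG) h4 p3_17_eq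
  have h59 := conjStep hC (inX_qX hC hG) h17 p3_59_eq
  have h175 := conjStep hC (inX_qF hC hG) h59 p3_175_eq
  have h1176p := step hC h0 h1 p3_1176p_eq
  have h1176 := step hC h1176p h0 p3_1176_eq
  have h1177 := conjStep hC (inX_qY hC hG) h1176 p3_1177_eq
  have h18816p := step hC h0 h5 p3_18816p_eq
  have h18816 := step hC h18816p h0 p3_18816_eq
  rw [p3_sel0] at h175
  rw [p3_sel1] at h1177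
  rw [p3_sel2] at h18816
  have hfull := isFull_of_three hC (u := p3_u) (v := p3_v) (by decide +kernel) (by decide +kernel) h175 h1177 h18816
  rw [← toF_qvv hC] at hfull
  have f0 := hfull
  have f1 := full_conj hC (inX_qY hC hG) f0 p3_f0_eq
  have f2 := full_conj hC (inX_qX hC hG) f1 p3_f1_eq
  have f3 := full_conj hC (inX_qF hC hG) f2 p3_f2_eq
  rw [toF_qvv hC] at hfull
  exact sl_of_full hC hG hfull f3 (by decide +kernel) (by decide +kernel) (by decide +kernel) (by decide +kernel) (by decide +kernel) (by decide +kernel)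

def p5_0 : Q7 :=
  ![![E8.e 1, E8.e 0, E8.e 0, E8.e 0, E8.e 0, E8.e 0, E8.e 0],
    ![E8.e 0, E8.e 1, E8.e 0, E8.e 0, E8.e 0, E8.e 0, E8.e 0],
    ![E8.e 0, E8.e 0, E8.e 1, E8.e 0, E8.e 0, E8.e 0, E8.e 0],
    ![E8.e 0, E8.e 0, E8.e 0, E8.e 2, E8.e 4, E8.e 0, E8.e 0],
    ![E8.e 0, E8.e 0, E8.e 0, E8.e 6, E8.e 2, E8.e 0, E8.e 0],
    ![E8.e 0, E8.e 0, E8.e 0, E8.e 0, E8.e 0, E8.e 1, E8.e 0],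
    ![E8.e 0, E8.e 0, E8.e 0, E8.e 0, E8.e 0, E8.e 0, E8.e 1]]

def p5_1 : Q7 :=
  ![![E8.e 1, E8.e 0, E8.e 0, E8.e 0, E8.e 0, E8.e 0, E8.e 0],
    ![E8.e 0, E8.e 1, E8.e 0, E8.e 0, E8.e 0, E8.e 0, E8.e 0],
    ![E8.e 0, E8.e 0, E8.e 1, E8.e 0, E8.e 0, E8.e 0, E8.e 0],
    ![E8.e 0, E8.e 0, E8.e 0, E8.e 2, E8.e 2, E8.e 0, E8.e 0],
    ![E8.e 0, E8.e 0, E8.e 0, E8.e 7, E8.e 2, E8.e 0, E8.e 0],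
    ![E8.e 0, E8.e 0, E8.e 0, E8.e 0, E8.e 0, E8.e 1, E8.e 0],
    ![E8.e 0, E8.e 0, E8.e 0, E8.e 0, E8.e 0, E8.e 0, E8.e 1]]

theorem p5_1_eq : ∀ i j, qmul qY p5_0 i j = qmul p5_1 qY i j := by decide +kernel

def p5_5 : Q7 :=
  ![![E8.e 1, E8.e 0, E8.e 0, E8.e 0, E8.e 0, E8.e 0, E8.e 0],
    ![E8.e 0, E8.e 1, E8.e 0, E8.e 0, E8.e 0, E8.e 0, E8.e 0],
    ![E8.e 0, E8.e 0, E8.e 1, E8.e 0, E8.e 0, E8.e 0, E8.e 0],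
    ![E8.e 0, E8.e 0, E8.e 0, E8.e 2, E8.e 1, E8.e 0, E8.e 0],
    ![E8.e 0, E8.e 0, E8.e 0, E8.e 5, E8.e 2, E8.e 0, E8.e 0],
    ![E8.e 0, E8.e 0, E8.e 0, E8.e 0, E8.e 0, E8.e 1, E8.e 0],
    ![E8.e 0, E8.e 0, E8.e 0, E8.e 0, E8.e 0, E8.e 0, E8.e 1]]

theorem p5_5_eq : ∀ i j, qmul qY p5_1 i j = qmul p5_5 qY i j := by decide +kernel

def p5_35280 : Q7 :=
  ![![E8.e 1, E8.e 0, E8.e 0, E8.e 0, E8.e 0, E8.e 0, E8.e 0],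
    ![E8.e 0, E8.e 1, E8.e 0, E8.e 0, E8.e 0, E8.e 0, E8.e 0],
    ![E8.e 0, E8.e 0, E8.e 1, E8.e 0, E8.e 0, E8.e 0, E8.e 0],
    ![E8.e 0, E8.e 0, E8.e 0, E8.e 1, E8.e 7, E8.e 0, E8.e 0],
    ![E8.e 0, E8.e 0, E8.e 0, E8.e 0, E8.e 1, E8.e 0, E8.e 0],
    ![E8.e 0, E8.e 0, E8.e 0, E8.e 0, E8.e 0, E8.e 1, E8.e 0],
    ![E8.e 0, E8.e 0, E8.e 0, E8.e 0, E8.e 0, E8.e 0, E8.e 1]]

def p5_35280p : Q7 :=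
  ![![E8.e 1, E8.e 0, E8.e 0, E8.e 0, E8.e 0, E8.e 0, E8.e 0],
    ![E8.e 0, E8.e 1, E8.e 0, E8.e 0, E8.e 0, E8.e 0, E8.e 0],
    ![E8.e 0, E8.e 0, E8.e 1, E8.e 0, E8.e 0, E8.e 0, E8.e 0],
    ![E8.e 0, E8.e 0, E8.e 0, E8.e 6, E8.e 1, E8.e 0, E8.e 0],
    ![E8.e 0, E8.e 0, E8.e 0, E8.e 6, E8.e 2, E8.e 0, E8.e 0],
    ![E8.e 0, E8.e 0, E8.e 0, E8.e 0, E8.e 0, E8.e 1, E8.e 0],
    ![E8.e 0, E8.e 0, E8.e 0, E8.e 0, E8.e 0, E8.e 0, E8.e 1]]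

theorem p5_35280p_eq : ∀ i j, qmul p5_0 p5_5 i j = p5_35280p i j := by decide +kernel

theorem p5_35280_eq : ∀ i j, qmul p5_35280p p5_0 i j = p5_35280 i j := by decide +kernel

def p5_35281 : Q7 :=
  ![![E8.e 1, E8.e 0, E8.e 0, E8.e 0, E8.e 0, E8.e 0, E8.e 0],
    ![E8.e 0, E8.e 1, E8.e 0, E8.e 0, E8.e 0, E8.e 0, E8.e 0],
    ![E8.e 0, E8.e 0, E8.e 1, E8.e 0, E8.e 0, E8.e 0, E8.e 0],
    ![E8.e 0, E8.e 0, E8.e 0, E8.e 1, E8.e 6, E8.e 0, E8.e 0],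
    ![E8.e 0, E8.e 0, E8.e 0, E8.e 0, E8.e 1, E8.e 0, E8.e 0],
    ![E8.e 0, E8.e 0, E8.e 0, E8.e 0, E8.e 0, E8.e 1, E8.e 0],
    ![E8.e 0, E8.e 0, E8.e 0, E8.e 0, E8.e 0, E8.e 0, E8.e 1]]

theorem p5_35281_eq : ∀ i j, qmul qY p5_35280 i j = qmul p5_35281 qY i j := by decide +kernel

def p5_35285 : Q7 :=
  ![![E8.e 1, E8.e 0, E8.e 0, E8.e 0, E8.e 0, E8.e 0, E8.e 0],
    ![E8.e 0, E8.e 1, E8.e 0, E8.e 0, E8.e 0, E8.e 0, E8.e 0],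
    ![E8.e 0, E8.e 0, E8.e 1, E8.e 0, E8.e 0, E8.e 0, E8.e 0],
    ![E8.e 0, E8.e 0, E8.e 0, E8.e 1, E8.e 3, E8.e 0, E8.e 0],
    ![E8.e 0, E8.e 0, E8.e 0, E8.e 0, E8.e 1, E8.e 0, E8.e 0],
    ![E8.e 0, E8.e 0, E8.e 0, E8.e 0, E8.e 0, E8.e 1, E8.e 0],
    ![E8.e 0, E8.e 0, E8.e 0, E8.e 0, E8.e 0, E8.e 0, E8.e 1]]

theorem p5_35285_eq : ∀ i j, qmul qY p5_35281 i j = qmul p5_35285 qY i j := by decide +kernel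

def p5_u : Fin 7 → E8 := ![E8.e 0, E8.e 0, E8.e 0, E8.e 1, E8.e 0, E8.e 0, E8.e 0]

def p5_v : Fin 7 → E8 := ![E8.e 0, E8.e 0, E8.e 0, E8.e 0, E8.e 1, E8.e 0, E8.e 0]

theorem p5_sel0 : p5_35280 = qtv (E8.e 7) p5_u p5_v := by decide +kernel

theorem p5_sel1 : p5_35281 = qtv (E8.e 6) p5_u p5_v := by decide +kernel

theorem p5_sel2 : p5_35285 = qtv (E8.e 3) p5_u p5_v := by decide +kernel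

def p5_w0 : Fin 7 → E8 := ![E8.e 0, E8.e 0, E8.e 0, E8.e 0, E8.e 1, E8.e 0, E8.e 0]

def p5_x0 : Fin 7 → E8 := ![E8.e 0, E8.e 0, E8.e 0, E8.e 0, E8.e 0, E8.e 1, E8.e 0]

theorem p5_f0_eq : ∀ i j, qmul qX (qvv p5_u p5_v) i j = qmul (qvv p5_w0 p5_x0) qX i j := by decide +kernel

def p5_w1 : Fin 7 → E8 := ![E8.e 0, E8.e 1, E8.e 0, E8.e 0, E8.e 0, E8.e 0, E8.e 0]

def p5_x1 : Fin 7 → E8 := ![E8.e 0, E8.e 0, E8.e 0, E8.e 1, E8.e 0, E8.e 0, E8.e 0]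

theorem p5_f1_eq : ∀ i j, qmul qS (qvv p5_w0 p5_x0) i j = qmul (qvv p5_w1 p5_x1) qS i j := by decide +kernel

theorem sl_p5 (hC : Cubic ω) (hG : Gen8 ω X) (h : InX X (toF ω p5_0)) :
    specialLinear (Fin 7) F ≤ X := by
  have h0 := h
  have h1 := conjStep hC (inX_qY hC hG) h0 p5_1_eq
  have h5 := conjStep hC (inX_qY hC hG) h1 p5_5_eq
  have h35280p := step hC h0 h5 p5_35280p_eq
  have h35280 := step hC h35280p h0 p5_35280_eq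
  have h35281 := conjStep hC (inX_qY hC hG) h35280 p5_35281_eq
  have h35285 := conjStep hC (inX_qY hC hG) h35281 p5_35285_eq
  rw [p5_sel0] at h35280
  rw [p5_sel1] at h35281
  rw [p5_sel2] at h35285
  have hfull := isFull_of_three hC (u := p5_u) (v := p5_v) (by decide +kernel) (by decide +kernel) h35280 h35281 h35285
  rw [← toF_qvv hC] at hfull
  have f0 := hfull
  have f1 := full_conj hC (inX_qX hC hG) f0 p5_f0_eq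
  have f2 := full_conj hC (inX_qS hC hG) f1 p5_f1_eq
  rw [toF_qvv hC] at hfull
  exact sl_of_full hC hG hfull f2 (by decide +kernel) (by decide +kernel) (by decide +kernel) (by decide +kernel) (by decide +kernel) (by decide +kernel)

def p6_0 : Q7 :=
  ![![E8.e 1, E8.e 0, E8.e 0, E8.e 0, E8.e 0, E8.e 0, E8.e 0],
    ![E8.e 0, E8.e 1, E8.e 0, E8.e 0, E8.e 0, E8.e 0, E8.e 0],
    ![E8.e 0, E8.e 0, E8.e 2, E8.e 0, E8.e 0, E8.e 4, E8.e 0],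
    ![E8.e 0, E8.e 0, E8.e 0, E8.e 1, E8.e 0, E8.e 0, E8.e 0],
    ![E8.e 0, E8.e 0, E8.e 0, E8.e 0, E8.e 1, E8.e 0, E8.e 0],
    ![E8.e 0, E8.e 0, E8.e 6, E8.e 0, E8.e 0, E8.e 2, E8.e 0],
    ![E8.e 0, E8.e 0, E8.e 0, E8.e 0, E8.e 0, E8.e 0, E8.e 1]]

def p6_1 : Q7 :=
  ![![E8.e 1, E8.e 0, E8.e 0, E8.e 0, E8.e 0, E8.e 0, E8.e 0],
    ![E8.e 0, E8.e 1, E8.e 0, E8.e 0, E8.e 0, E8.e 0, E8.e 0],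
    ![E8.e 0, E8.e 0, E8.e 2, E8.e 0, E8.e 0, E8.e 5, E8.e 0],
    ![E8.e 0, E8.e 0, E8.e 0, E8.e 1, E8.e 0, E8.e 0, E8.e 0],
    ![E8.e 0, E8.e 0, E8.e 0, E8.e 0, E8.e 1, E8.e 0, E8.e 0],
    ![E8.e 0, E8.e 0, E8.e 1, E8.e 0, E8.e 0, E8.e 2, E8.e 0],
    ![E8.e 0, E8.e 0, E8.e 0, E8.e 0, E8.e 0, E8.e 0, E8.e 1]]

theorem p6_1_eq : ∀ i j, qmul qY p6_0 i j = qmul p6_1 qY i j := by decide +kernel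

def p6_4 : Q7 :=
  ![![E8.e 3, E8.e 7, E8.e 0, E8.e 7, E8.e 2, E8.e 1, E8.e 1],
    ![E8.e 7, E8.e 5, E8.e 0, E8.e 4, E8.e 7, E8.e 6, E8.e 6],
    ![E8.e 0, E8.e 0, E8.e 1, E8.e 0, E8.e 0, E8.e 0, E8.e 0],
    ![E8.e 7, E8.e 4, E8.e 0, E8.e 5, E8.e 7, E8.e 6, E8.e 6],
    ![E8.e 2, E8.e 7, E8.e 0, E8.e 7, E8.e 3, E8.e 1, E8.e 1],
    ![E8.e 1, E8.e 6, E8.e 0, E8.e 6, E8.e 1, E8.e 4, E8.e 5],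
    ![E8.e 1, E8.e 6, E8.e 0, E8.e 6, E8.e 1, E8.e 5, E8.e 4]]

theorem p6_4_eq : ∀ i j, qmul qF p6_0 i j = qmul p6_4 qF i j := by decide +kernel

def p6_5 : Q7 :=
  ![![E8.e 1, E8.e 0, E8.e 0, E8.e 0, E8.e 0, E8.e 0, E8.e 0],
    ![E8.e 0, E8.e 1, E8.e 0, E8.e 0, E8.e 0, E8.e 0, E8.e 0],
    ![E8.e 0, E8.e 0, E8.e 2, E8.e 0, E8.e 0, E8.e 3, E8.e 0],
    ![E8.e 0, E8.e 0, E8.e 0, E8.e 1, E8.e 0, E8.e 0, E8.e 0],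
    ![E8.e 0, E8.e 0, E8.e 0, E8.e 0, E8.e 1, E8.e 0, E8.e 0],
    ![E8.e 0, E8.e 0, E8.e 3, E8.e 0, E8.e 0, E8.e 2, E8.e 0],
    ![E8.e 0, E8.e 0, E8.e 0, E8.e 0, E8.e 0, E8.e 0, E8.e 1]]

theorem p6_5_eq : ∀ i j, qmul qY p6_1 i j = qmul p6_5 qY i j := by decide +kernel

def p6_17 : Q7 :=
  ![![E8.e 4, E8.e 1, E8.e 6, E8.e 0, E8.e 6, E8.e 1, E8.e 5],
    ![E8.e 1, E8.e 3, E8.e 7, E8.e 0, E8.e 7, E8.e 2, E8.e 1],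
    ![E8.e 6, E8.e 7, E8.e 5, E8.e 0, E8.e 4, E8.e 7, E8.e 6],
    ![E8.e 0, E8.e 0, E8.e 0, E8.e 1, E8.e 0, E8.e 0, E8.e 0],
    ![E8.e 6, E8.e 7, E8.e 4, E8.e 0, E8.e 5, E8.e 7, E8.e 6],
    ![E8.e 1, E8.e 2, E8.e 7, E8.e 0, E8.e 7, E8.e 3, E8.e 1],
    ![E8.e 5, E8.e 1, E8.e 6, E8.e 0, E8.e 6, E8.e 1, E8.e 4]]

theorem p6_17_eq : ∀ i j, qmul qX p6_4 i j = qmul p6_17 qX i j := by decide +kernel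

def p6_59 : Q7 :=
  ![![E8.e 4, E8.e 5, E8.e 1, E8.e 6, E8.e 0, E8.e 6, E8.e 1],
    ![E8.e 5, E8.e 4, E8.e 1, E8.e 6, E8.e 0, E8.e 6, E8.e 1],
    ![E8.e 1, E8.e 1, E8.e 3, E8.e 7, E8.e 0, E8.e 7, E8.e 2],
    ![E8.e 6, E8.e 6, E8.e 7, E8.e 5, E8.e 0, E8.e 4, E8.e 7],
    ![E8.e 0, E8.e 0, E8.e 0, E8.e 0, E8.e 1, E8.e 0, E8.e 0],
    ![E8.e 6, E8.e 6, E8.e 7, E8.e 4, E8.e 0, E8.e 5, E8.e 7],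
    ![E8.e 1, E8.e 1, E8.e 2, E8.e 7, E8.e 0, E8.e 7, E8.e 3]]

theorem p6_59_eq : ∀ i j, qmul qX p6_17 i j = qmul p6_59 qX i j := by decide +kernel

def p6_175 : Q7 :=
  ![![E8.e 1, E8.e 0, E8.e 0, E8.e 0, E8.e 0, E8.e 0, E8.e 0],
    ![E8.e 0, E8.e 1, E8.e 0, E8.e 0, E8.e 0, E8.e 0, E8.e 0],
    ![E8.e 0, E8.e 0, E8.e 2, E8.e 0, E8.e 0, E8.e 7, E8.e 0],
    ![E8.e 0, E8.e 0, E8.e 0, E8.e 1, E8.e 0, E8.e 0, E8.e 0],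
    ![E8.e 0, E8.e 0, E8.e 0, E8.e 0, E8.e 1, E8.e 0, E8.e 0],
    ![E8.e 0, E8.e 0, E8.e 2, E8.e 0, E8.e 0, E8.e 2, E8.e 0],
    ![E8.e 0, E8.e 0, E8.e 0, E8.e 0, E8.e 0, E8.e 0, E8.e 1]]

theorem p6_175_eq : ∀ i j, qmul qF p6_59 i j = qmul p6_175 qF i j := by decide +kernel

def p6_1176 : Q7 :=
  ![![E8.e 1, E8.e 0, E8.e 0, E8.e 0, E8.e 0, E8.e 0, E8.e 0],
    ![E8.e 0, E8.e 1, E8.e 0, E8.e 0, E8.e 0, E8.e 0, E8.e 0],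
    ![E8.e 0, E8.e 0, E8.e 7, E8.e 0, E8.e 0, E8.e 4, E8.e 0],
    ![E8.e 0, E8.e 0, E8.e 0, E8.e 1, E8.e 0, E8.e 0, E8.e 0],
    ![E8.e 0, E8.e 0, E8.e 0, E8.e 0, E8.e 1, E8.e 0, E8.e 0],
    ![E8.e 0, E8.e 0, E8.e 5, E8.e 0, E8.e 0, E8.e 7, E8.e 0],
    ![E8.e 0, E8.e 0, E8.e 0, E8.e 0, E8.e 0, E8.e 0, E8.e 1]]

def p6_1176p : Q7 :=
  ![![E8.e 1, E8.e 0, E8.e 0, E8.e 0, E8.e 0, E8.e 0, E8.e 0],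
    ![E8.e 0, E8.e 1, E8.e 0, E8.e 0, E8.e 0, E8.e 0, E8.e 0],
    ![E8.e 0, E8.e 0, E8.e 0, E8.e 0, E8.e 0, E8.e 2, E8.e 0],
    ![E8.e 0, E8.e 0, E8.e 0, E8.e 1, E8.e 0, E8.e 0, E8.e 0],
    ![E8.e 0, E8.e 0, E8.e 0, E8.e 0, E8.e 1, E8.e 0, E8.e 0],
    ![E8.e 0, E8.e 0, E8.e 5, E8.e 0, E8.e 0, E8.e 7, E8.e 0],
    ![E8.e 0, E8.e 0, E8.e 0, E8.e 0, E8.e 0, E8.e 0, E8.e 1]]

theorem p6_1176p_eq : ∀ i j, qmul p6_0 p6_1 i j = p6_1176p i j := by decide +kernel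

theorem p6_1176_eq : ∀ i j, qmul p6_1176p p6_0 i j = p6_1176 i j := by decide +kernel

def p6_1177 : Q7 :=
  ![![E8.e 1, E8.e 0, E8.e 0, E8.e 0, E8.e 0, E8.e 0, E8.e 0],
    ![E8.e 0, E8.e 1, E8.e 0, E8.e 0, E8.e 0, E8.e 0, E8.e 0],
    ![E8.e 0, E8.e 0, E8.e 7, E8.e 0, E8.e 0, E8.e 5, E8.e 0],
    ![E8.e 0, E8.e 0, E8.e 0, E8.e 1, E8.e 0, E8.e 0, E8.e 0],
    ![E8.e 0, E8.e 0, E8.e 0, E8.e 0, E8.e 1, E8.e 0, E8.e 0],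
    ![E8.e 0, E8.e 0, E8.e 4, E8.e 0, E8.e 0, E8.e 7, E8.e 0],
    ![E8.e 0, E8.e 0, E8.e 0, E8.e 0, E8.e 0, E8.e 0, E8.e 1]]

theorem p6_1177_eq : ∀ i j, qmul qY p6_1176 i j = qmul p6_1177 qY i j := by decide +kernel

def p6_18816 : Q7 :=
  ![![E8.e 1, E8.e 0, E8.e 0, E8.e 0, E8.e 0, E8.e 0, E8.e 0],
    ![E8.e 0, E8.e 1, E8.e 0, E8.e 0, E8.e 0, E8.e 0, E8.e 0],
    ![E8.e 0, E8.e 0, E8.e 5, E8.e 0, E8.e 0, E8.e 6, E8.e 0],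
    ![E8.e 0, E8.e 0, E8.e 0, E8.e 1, E8.e 0, E8.e 0, E8.e 0],
    ![E8.e 0, E8.e 0, E8.e 0, E8.e 0, E8.e 1, E8.e 0, E8.e 0],
    ![E8.e 0, E8.e 0, E8.e 1, E8.e 0, E8.e 0, E8.e 5, E8.e 0],
    ![E8.e 0, E8.e 0, E8.e 0, E8.e 0, E8.e 0, E8.e 0, E8.e 1]]

def p6_18816p : Q7 :=
  ![![E8.e 1, E8.e 0, E8.e 0, E8.e 0, E8.e 0, E8.e 0, E8.e 0],
    ![E8.e 0, E8.e 1, E8.e 0, E8.e 0, E8.e 0, E8.e 0, E8.e 0],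
    ![E8.e 0, E8.e 0, E8.e 3, E8.e 0, E8.e 0, E8.e 5, E8.e 0],
    ![E8.e 0, E8.e 0, E8.e 0, E8.e 1, E8.e 0, E8.e 0, E8.e 0],
    ![E8.e 0, E8.e 0, E8.e 0, E8.e 0, E8.e 1, E8.e 0, E8.e 0],
    ![E8.e 0, E8.e 0, E8.e 1, E8.e 0, E8.e 0, E8.e 5, E8.e 0],
    ![E8.e 0, E8.e 0, E8.e 0, E8.e 0, E8.e 0, E8.e 0, E8.e 1]]

theorem p6_18816p_eq : ∀ i j, qmul p6_0 p6_5 i j = p6_18816p i j := by decide +kernel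

theorem p6_18816_eq : ∀ i j, qmul p6_18816p p6_0 i j = p6_18816 i j := by decide +kernel

def p6_u : Fin 7 → E8 := ![E8.e 0, E8.e 0, E8.e 1, E8.e 0, E8.e 0, E8.e 7, E8.e 0]

def p6_v : Fin 7 → E8 := ![E8.e 0, E8.e 0, E8.e 1, E8.e 0, E8.e 0, E8.e 4, E8.e 0]

theorem p6_sel0 : p6_175 = qtv (E8.e 3) p6_u p6_v := by decide +kernel

theorem p6_sel1 : p6_1177 = qtv (E8.e 6) p6_u p6_v := by decide +kernel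

theorem p6_sel2 : p6_18816 = qtv (E8.e 4) p6_u p6_v := by decide +kernel

def p6_w0 : Fin 7 → E8 := ![E8.e 0, E8.e 0, E8.e 0, E8.e 1, E8.e 0, E8.e 0, E8.e 7]

def p6_x0 : Fin 7 → E8 := ![E8.e 0, E8.e 0, E8.e 0, E8.e 1, E8.e 0, E8.e 0, E8.e 4]

theorem p6_f0_eq : ∀ i j, qmul qX (qvv p6_u p6_v) i j = qmul (qvv p6_w0 p6_x0) qX i j := by decide +kernel

def p6_w1 : Fin 7 → E8 := ![E8.e 0, E8.e 0, E8.e 0, E8.e 4, E8.e 0, E8.e 0, E8.e 5]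

def p6_x1 : Fin 7 → E8 := ![E8.e 0, E8.e 0, E8.e 0, E8.e 7, E8.e 0, E8.e 0, E8.e 2]

theorem p6_f1_eq : ∀ i j, qmul qG (qvv p6_w0 p6_x0) i j = qmul (qvv p6_w1 p6_x1) qG i j := by decide +kernel

def p6_w2 : Fin 7 → E8 := ![E8.e 1, E8.e 0, E8.e 4, E8.e 5, E8.e 5, E8.e 1, E8.e 4]

def p6_x2 : Fin 7 → E8 := ![E8.e 5, E8.e 0, E8.e 6, E8.e 5, E8.e 6, E8.e 3, E8.e 3]

theorem p6_f2_eq : ∀ i j, qmul qF (qvv p6_w1 p6_x1) i j = qmul (qvv p6_w2 p6_x2) qF i j := by decide +kernel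

theorem sl_p6 (hC : Cubic ω) (hG : Gen8 ω X) (h : InX X (toF ω p6_0)) :
    specialLinear (Fin 7) F ≤ X := by
  have h0 := h
  have h1 := conjStep hC (inX_qY hC hG) h0 p6_1_eq
  have h4 := conjStep hC (inX_qF hC hG) h0 p6_4_eq
  have h5 := conjStep hC (inX_qY hC hG) h1 p6_5_eq
  have h17 := conjStep hC (inX_qX hC hG) h4 p6_17_eq
  have h59 := conjStep hC (inX_qX hC hG) h17 p6_59_eq
  have h175 := conjStep hC (inX_qF hC hG) h59 p6_175_eq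
  have h1176p := step hC h0 h1 p6_1176p_eq
  have h1176 := step hC h1176p h0 p6_1176_eq
  have h1177 := conjStep hC (inX_qY hC hG) h1176 p6_1177_eq
  have h18816p := step hC h0 h5 p6_18816p_eq
  have h18816 := step hC h18816p h0 p6_18816_eq
  rw [p6_sel0] at h175
  rw [p6_sel1] at h1177
  rw [p6_sel2] at h18816
  have hfull := isFull_of_three hC (u := p6_u) (v := p6_v) (by decide +kernel) (by decide +kernel) h175 h1177 h18816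
  rw [← toF_qvv hC] at hfull
  have f0 := hfull
  have f1 := full_conj hC (inX_qX hC hG) f0 p6_f0_eq
  have f2 := full_conj hC (inX_qG hC hG) f1 p6_f1_eq
  have f3 := full_conj hC (inX_qF hC hG) f2 p6_f2_eq
  rw [toF_qvv hC] at hfull
  exact sl_of_full hC hG hfull f3 (by decide +kernel) (by decide +kernel) (by decide +kernel) (by decide +kernel) (by decide +kernel) (by decide +kernel)

def gca : Q7 :=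
  ![![E8.e 1, E8.e 0, E8.e 0, E8.e 0, E8.e 0, E8.e 0, E8.e 0],
    ![E8.e 0, E8.e 3, E8.e 0, E8.e 0, E8.e 0, E8.e 0, E8.e 2],
    ![E8.e 0, E8.e 0, E8.e 3, E8.e 0, E8.e 0, E8.e 2, E8.e 0],
    ![E8.e 0, E8.e 0, E8.e 0, E8.e 3, E8.e 2, E8.e 0, E8.e 0],
    ![E8.e 0, E8.e 0, E8.e 0, E8.e 2, E8.e 3, E8.e 0, E8.e 0],
    ![E8.e 0, E8.e 0, E8.e 2, E8.e 0, E8.e 0, E8.e 3, E8.e 0],
    ![E8.e 0, E8.e 2, E8.e 0, E8.e 0, E8.e 0, E8.e 0, E8.e 3]]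

def wca0 : Q7 :=
  ![![E8.e 1, E8.e 0, E8.e 0, E8.e 0, E8.e 0, E8.e 0, E8.e 0],
    ![E8.e 0, E8.e 6, E8.e 0, E8.e 0, E8.e 0, E8.e 0, E8.e 4],
    ![E8.e 0, E8.e 0, E8.e 7, E8.e 0, E8.e 0, E8.e 3, E8.e 0],
    ![E8.e 0, E8.e 0, E8.e 0, E8.e 5, E8.e 6, E8.e 0, E8.e 0],
    ![E8.e 0, E8.e 0, E8.e 0, E8.e 7, E8.e 1, E8.e 0, E8.e 0],
    ![E8.e 0, E8.e 0, E8.e 5, E8.e 0, E8.e 0, E8.e 2, E8.e 0],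
    ![E8.e 0, E8.e 1, E8.e 0, E8.e 0, E8.e 0, E8.e 0, E8.e 4]]

theorem wca0_eq : ∀ i j, qmul (qYk 1) gca i j = wca0 i j := by decide +kernel

def wca1 : Q7 :=
  ![![E8.e 1, E8.e 0, E8.e 0, E8.e 0, E8.e 0, E8.e 0, E8.e 0],
    ![E8.e 0, E8.e 5, E8.e 0, E8.e 0, E8.e 0, E8.e 0, E8.e 6],
    ![E8.e 0, E8.e 0, E8.e 4, E8.e 0, E8.e 0, E8.e 1, E8.e 0],
    ![E8.e 0, E8.e 0, E8.e 0, E8.e 7, E8.e 3, E8.e 0, E8.e 0],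
    ![E8.e 0, E8.e 0, E8.e 0, E8.e 5, E8.e 2, E8.e 0, E8.e 0],
    ![E8.e 0, E8.e 0, E8.e 4, E8.e 0, E8.e 0, E8.e 6, E8.e 0],
    ![E8.e 0, E8.e 7, E8.e 0, E8.e 0, E8.e 0, E8.e 0, E8.e 1]]

theorem wca1_eq : ∀ i j, qmul (qYk 3) gca i j = wca1 i j := by decide +kernel

def vca1 : Q7 :=
  ![![E8.e 1, E8.e 0, E8.e 0, E8.e 0, E8.e 0, E8.e 0, E8.e 0],
    ![E8.e 0, E8.e 2, E8.e 0, E8.e 0, E8.e 0, E8.e 0, E8.e 6],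
    ![E8.e 0, E8.e 0, E8.e 6, E8.e 0, E8.e 0, E8.e 6, E8.e 0],
    ![E8.e 0, E8.e 0, E8.e 0, E8.e 5, E8.e 3, E8.e 0, E8.e 0],
    ![E8.e 0, E8.e 0, E8.e 0, E8.e 6, E8.e 0, E8.e 0, E8.e 0],
    ![E8.e 0, E8.e 0, E8.e 1, E8.e 0, E8.e 0, E8.e 2, E8.e 0],
    ![E8.e 0, E8.e 4, E8.e 0, E8.e 0, E8.e 0, E8.e 0, E8.e 2]]

theorem vca1_eq : ∀ i j, qmul wca0 wca1 i j = vca1 i j := by decide +kernel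

def vca2 : Q7 :=
  ![![E8.e 1, E8.e 0, E8.e 0, E8.e 0, E8.e 0, E8.e 0, E8.e 0],
    ![E8.e 0, E8.e 1, E8.e 0, E8.e 0, E8.e 0, E8.e 0, E8.e 0],
    ![E8.e 0, E8.e 0, E8.e 4, E8.e 0, E8.e 0, E8.e 5, E8.e 0],
    ![E8.e 0, E8.e 0, E8.e 0, E8.e 6, E8.e 4, E8.e 0, E8.e 0],
    ![E8.e 0, E8.e 0, E8.e 0, E8.e 3, E8.e 1, E8.e 0, E8.e 0],
    ![E8.e 0, E8.e 0, E8.e 4, E8.e 0, E8.e 0, E8.e 2, E8.e 0],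
    ![E8.e 0, E8.e 0, E8.e 0, E8.e 0, E8.e 0, E8.e 0, E8.e 1]]

theorem vca2_eq : ∀ i j, qmul vca1 vca1 i j = vca2 i j := by decide +kernel

def vca4 : Q7 :=
  ![![E8.e 1, E8.e 0, E8.e 0, E8.e 0, E8.e 0, E8.e 0, E8.e 0],
    ![E8.e 0, E8.e 1, E8.e 0, E8.e 0, E8.e 0, E8.e 0, E8.e 0],
    ![E8.e 0, E8.e 0, E8.e 4, E8.e 0, E8.e 0, E8.e 3, E8.e 0],
    ![E8.e 0, E8.e 0, E8.e 0, E8.e 5, E8.e 1, E8.e 0, E8.e 0],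
    ![E8.e 0, E8.e 0, E8.e 0, E8.e 2, E8.e 6, E8.e 0, E8.e 0],
    ![E8.e 0, E8.e 0, E8.e 5, E8.e 0, E8.e 0, E8.e 6, E8.e 0],
    ![E8.e 0, E8.e 0, E8.e 0, E8.e 0, E8.e 0, E8.e 0, E8.e 1]]

theorem vca4_eq : ∀ i j, qmul vca2 vca2 i j = vca4 i j := by decide +kernel

def vca8 : Q7 :=
  ![![E8.e 1, E8.e 0, E8.e 0, E8.e 0, E8.e 0, E8.e 0, E8.e 0],
    ![E8.e 0, E8.e 1, E8.e 0, E8.e 0, E8.e 0, E8.e 0, E8.e 0],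
    ![E8.e 0, E8.e 0, E8.e 2, E8.e 0, E8.e 0, E8.e 6, E8.e 0],
    ![E8.e 0, E8.e 0, E8.e 0, E8.e 5, E8.e 3, E8.e 0, E8.e 0],
    ![E8.e 0, E8.e 0, E8.e 0, E8.e 6, E8.e 0, E8.e 0, E8.e 0],
    ![E8.e 0, E8.e 0, E8.e 1, E8.e 0, E8.e 0, E8.e 6, E8.e 0],
    ![E8.e 0, E8.e 0, E8.e 0, E8.e 0, E8.e 0, E8.e 0, E8.e 1]]

theorem vca8_eq : ∀ i j, qmul vca4 vca4 i j = vca8 i j := by decide +kernel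

def vca16 : Q7 :=
  ![![E8.e 1, E8.e 0, E8.e 0, E8.e 0, E8.e 0, E8.e 0, E8.e 0],
    ![E8.e 0, E8.e 1, E8.e 0, E8.e 0, E8.e 0, E8.e 0, E8.e 0],
    ![E8.e 0, E8.e 0, E8.e 2, E8.e 0, E8.e 0, E8.e 5, E8.e 0],
    ![E8.e 0, E8.e 0, E8.e 0, E8.e 6, E8.e 4, E8.e 0, E8.e 0],
    ![E8.e 0, E8.e 0, E8.e 0, E8.e 3, E8.e 1, E8.e 0, E8.e 0],
    ![E8.e 0, E8.e 0, E8.e 4, E8.e 0, E8.e 0, E8.e 4, E8.e 0],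
    ![E8.e 0, E8.e 0, E8.e 0, E8.e 0, E8.e 0, E8.e 0, E8.e 1]]

theorem vca16_eq : ∀ i j, qmul vca8 vca8 i j = vca16 i j := by decide +kernel

def vca32 : Q7 :=
  ![![E8.e 1, E8.e 0, E8.e 0, E8.e 0, E8.e 0, E8.e 0, E8.e 0],
    ![E8.e 0, E8.e 1, E8.e 0, E8.e 0, E8.e 0, E8.e 0, E8.e 0],
    ![E8.e 0, E8.e 0, E8.e 6, E8.e 0, E8.e 0, E8.e 3, E8.e 0],
    ![E8.e 0, E8.e 0, E8.e 0, E8.e 5, E8.e 1, E8.e 0, E8.e 0],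
    ![E8.e 0, E8.e 0, E8.e 0, E8.e 2, E8.e 6, E8.e 0, E8.e 0],
    ![E8.e 0, E8.e 0, E8.e 5, E8.e 0, E8.e 0, E8.e 4, E8.e 0],
    ![E8.e 0, E8.e 0, E8.e 0, E8.e 0, E8.e 0, E8.e 0, E8.e 1]]

theorem vca32_eq : ∀ i j, qmul vca16 vca16 i j = vca32 i j := by decide +kernel

def uca48 : Q7 :=
  ![![E8.e 1, E8.e 0, E8.e 0, E8.e 0, E8.e 0, E8.e 0, E8.e 0],
    ![E8.e 0, E8.e 1, E8.e 0, E8.e 0, E8.e 0, E8.e 0, E8.e 0],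
    ![E8.e 0, E8.e 0, E8.e 0, E8.e 0, E8.e 0, E8.e 4, E8.e 0],
    ![E8.e 0, E8.e 0, E8.e 0, E8.e 0, E8.e 3, E8.e 0, E8.e 0],
    ![E8.e 0, E8.e 0, E8.e 0, E8.e 6, E8.e 5, E8.e 0, E8.e 0],
    ![E8.e 0, E8.e 0, E8.e 7, E8.e 0, E8.e 0, E8.e 1, E8.e 0],
    ![E8.e 0, E8.e 0, E8.e 0, E8.e 0, E8.e 0, E8.e 0, E8.e 1]]

theorem uca48_eq : ∀ i j, qmul vca32 vca16 i j = uca48 i j := by decide +kernel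

def uca56 : Q7 :=
  ![![E8.e 1, E8.e 0, E8.e 0, E8.e 0, E8.e 0, E8.e 0, E8.e 0],
    ![E8.e 0, E8.e 1, E8.e 0, E8.e 0, E8.e 0, E8.e 0, E8.e 0],
    ![E8.e 0, E8.e 0, E8.e 4, E8.e 0, E8.e 0, E8.e 5, E8.e 0],
    ![E8.e 0, E8.e 0, E8.e 0, E8.e 1, E8.e 0, E8.e 0, E8.e 0],
    ![E8.e 0, E8.e 0, E8.e 0, E8.e 0, E8.e 1, E8.e 0, E8.e 0],
    ![E8.e 0, E8.e 0, E8.e 4, E8.e 0, E8.e 0, E8.e 2, E8.e 0],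
    ![E8.e 0, E8.e 0, E8.e 0, E8.e 0, E8.e 0, E8.e 0, E8.e 1]]

theorem uca56_eq : ∀ i j, qmul uca48 vca8 i j = uca56 i j := by decide +kernel

def uca60 : Q7 :=
  ![![E8.e 1, E8.e 0, E8.e 0, E8.e 0, E8.e 0, E8.e 0, E8.e 0],
    ![E8.e 0, E8.e 1, E8.e 0, E8.e 0, E8.e 0, E8.e 0, E8.e 0],
    ![E8.e 0, E8.e 0, E8.e 1, E8.e 0, E8.e 0, E8.e 4, E8.e 0],
    ![E8.e 0, E8.e 0, E8.e 0, E8.e 5, E8.e 1, E8.e 0, E8.e 0],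
    ![E8.e 0, E8.e 0, E8.e 0, E8.e 2, E8.e 6, E8.e 0, E8.e 0],
    ![E8.e 0, E8.e 0, E8.e 7, E8.e 0, E8.e 0, E8.e 0, E8.e 0],
    ![E8.e 0, E8.e 0, E8.e 0, E8.e 0, E8.e 0, E8.e 0, E8.e 1]]

theorem uca60_eq : ∀ i j, qmul uca56 vca4 i j = uca60 i j := by decide +kernel

def uca62 : Q7 :=
  ![![E8.e 1, E8.e 0, E8.e 0, E8.e 0, E8.e 0, E8.e 0, E8.e 0],
    ![E8.e 0, E8.e 1, E8.e 0, E8.e 0, E8.e 0, E8.e 0, E8.e 0],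
    ![E8.e 0, E8.e 0, E8.e 2, E8.e 0, E8.e 0, E8.e 6, E8.e 0],
    ![E8.e 0, E8.e 0, E8.e 0, E8.e 0, E8.e 3, E8.e 0, E8.e 0],
    ![E8.e 0, E8.e 0, E8.e 0, E8.e 6, E8.e 5, E8.e 0, E8.e 0],
    ![E8.e 0, E8.e 0, E8.e 1, E8.e 0, E8.e 0, E8.e 6, E8.e 0],
    ![E8.e 0, E8.e 0, E8.e 0, E8.e 0, E8.e 0, E8.e 0, E8.e 1]]

theorem uca62_eq : ∀ i j, qmul uca60 vca2 i j = uca62 i j := by decide +kernel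

def uca63 : Q7 :=
  ![![E8.e 1, E8.e 0, E8.e 0, E8.e 0, E8.e 0, E8.e 0, E8.e 0],
    ![E8.e 0, E8.e 2, E8.e 0, E8.e 0, E8.e 0, E8.e 0, E8.e 6],
    ![E8.e 0, E8.e 0, E8.e 1, E8.e 0, E8.e 0, E8.e 0, E8.e 0],
    ![E8.e 0, E8.e 0, E8.e 0, E8.e 1, E8.e 0, E8.e 0, E8.e 0],
    ![E8.e 0, E8.e 0, E8.e 0, E8.e 0, E8.e 1, E8.e 0, E8.e 0],
    ![E8.e 0, E8.e 0, E8.e 0, E8.e 0, E8.e 0, E8.e 1, E8.e 0],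
    ![E8.e 0, E8.e 4, E8.e 0, E8.e 0, E8.e 0, E8.e 0, E8.e 2]]

theorem uca63_eq : ∀ i j, qmul uca62 vca1 i j = uca63 i j := by decide +kernel

theorem ca_final : uca63 = a_0 := by decide +kernel

theorem word_ca (hC : Cubic ω) (hG : Gen8 ω X) (hq : InX X (toF ω gca)) :
    specialLinear (Fin 7) F ≤ X := by
  have hg := hq
  have hx := hg
  have hw0 := step hC (inX_Yk1 hC hG) hx wca0_eq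
  have hw1 := step hC (inX_Yk3 hC hG) hx wca1_eq
  have hv1 := step hC hw0 hw1 vca1_eq
  have hv2 := step hC hv1 hv1 vca2_eq
  have hv4 := step hC hv2 hv2 vca4_eq
  have hv8 := step hC hv4 hv4 vca8_eq
  have hv16 := step hC hv8 hv8 vca16_eq
  have hv32 := step hC hv16 hv16 vca32_eq
  have hu48 := step hC hv32 hv16 uca48_eq
  have hu56 := step hC hu48 hv8 uca56_eq
  have hu60 := step hC hu56 hv4 uca60_eq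
  have hu62 := step hC hu60 hv2 uca62_eq
  have hu63 := step hC hu62 hv1 uca63_eq
  rw [ca_final] at hu63
  exact sl_a hC hG hu63

def gcb : Q7 :=
  ![![E8.e 1, E8.e 0, E8.e 0, E8.e 0, E8.e 0, E8.e 0, E8.e 0],
    ![E8.e 0, E8.e 5, E8.e 0, E8.e 0, E8.e 0, E8.e 0, E8.e 4],
    ![E8.e 0, E8.e 0, E8.e 5, E8.e 0, E8.e 0, E8.e 4, E8.e 0],
    ![E8.e 0, E8.e 0, E8.e 0, E8.e 5, E8.e 4, E8.e 0, E8.e 0],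
    ![E8.e 0, E8.e 0, E8.e 0, E8.e 4, E8.e 5, E8.e 0, E8.e 0],
    ![E8.e 0, E8.e 0, E8.e 4, E8.e 0, E8.e 0, E8.e 5, E8.e 0],
    ![E8.e 0, E8.e 4, E8.e 0, E8.e 0, E8.e 0, E8.e 0, E8.e 5]]

def wcb0 : Q7 :=
  ![![E8.e 1, E8.e 0, E8.e 0, E8.e 0, E8.e 0, E8.e 0, E8.e 0],
    ![E8.e 0, E8.e 1, E8.e 0, E8.e 0, E8.e 0, E8.e 0, E8.e 3],
    ![E8.e 0, E8.e 0, E8.e 2, E8.e 0, E8.e 0, E8.e 6, E8.e 0],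
    ![E8.e 0, E8.e 0, E8.e 0, E8.e 4, E8.e 7, E8.e 0, E8.e 0],
    ![E8.e 0, E8.e 0, E8.e 0, E8.e 5, E8.e 3, E8.e 0, E8.e 0],
    ![E8.e 0, E8.e 0, E8.e 1, E8.e 0, E8.e 0, E8.e 6, E8.e 0],
    ![E8.e 0, E8.e 2, E8.e 0, E8.e 0, E8.e 0, E8.e 0, E8.e 7]]

theorem wcb0_eq : ∀ i j, qmul (qYk 1) gcb i j = wcb0 i j := by decide +kernel

def wcb1 : Q7 :=
  ![![E8.e 1, E8.e 0, E8.e 0, E8.e 0, E8.e 0, E8.e 0, E8.e 0],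
    ![E8.e 0, E8.e 4, E8.e 0, E8.e 0, E8.e 0, E8.e 0, E8.e 7],
    ![E8.e 0, E8.e 0, E8.e 7, E8.e 0, E8.e 0, E8.e 2, E8.e 0],
    ![E8.e 0, E8.e 0, E8.e 0, E8.e 2, E8.e 6, E8.e 0, E8.e 0],
    ![E8.e 0, E8.e 0, E8.e 0, E8.e 1, E8.e 6, E8.e 0, E8.e 0],
    ![E8.e 0, E8.e 0, E8.e 3, E8.e 0, E8.e 0, E8.e 1, E8.e 0],
    ![E8.e 0, E8.e 5, E8.e 0, E8.e 0, E8.e 0, E8.e 0, E8.e 3]]

theorem wcb1_eq : ∀ i j, qmul (qYk 3) gcb i j = wcb1 i j := by decide +kernel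

def vcb1 : Q7 :=
  ![![E8.e 1, E8.e 0, E8.e 0, E8.e 0, E8.e 0, E8.e 0, E8.e 0],
    ![E8.e 0, E8.e 0, E8.e 0, E8.e 0, E8.e 0, E8.e 0, E8.e 2],
    ![E8.e 0, E8.e 0, E8.e 4, E8.e 0, E8.e 0, E8.e 2, E8.e 0],
    ![E8.e 0, E8.e 0, E8.e 0, E8.e 4, E8.e 1, E8.e 0, E8.e 0],
    ![E8.e 0, E8.e 0, E8.e 0, E8.e 2, E8.e 2, E8.e 0, E8.e 0],
    ![E8.e 0, E8.e 0, E8.e 6, E8.e 0, E8.e 0, E8.e 4, E8.e 0],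
    ![E8.e 0, E8.e 5, E8.e 0, E8.e 0, E8.e 0, E8.e 0, E8.e 7]]

theorem vcb1_eq : ∀ i j, qmul wcb0 wcb1 i j = vcb1 i j := by decide +kernel

def vcb2 : Q7 :=
  ![![E8.e 1, E8.e 0, E8.e 0, E8.e 0, E8.e 0, E8.e 0, E8.e 0],
    ![E8.e 0, E8.e 1, E8.e 0, E8.e 0, E8.e 0, E8.e 0, E8.e 5],
    ![E8.e 0, E8.e 0, E8.e 1, E8.e 0, E8.e 0, E8.e 0, E8.e 0],
    ![E8.e 0, E8.e 0, E8.e 0, E8.e 4, E8.e 6, E8.e 0, E8.e 0],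
    ![E8.e 0, E8.e 0, E8.e 0, E8.e 7, E8.e 6, E8.e 0, E8.e 0],
    ![E8.e 0, E8.e 0, E8.e 0, E8.e 0, E8.e 0, E8.e 1, E8.e 0],
    ![E8.e 0, E8.e 6, E8.e 0, E8.e 0, E8.e 0, E8.e 0, E8.e 2]]

theorem vcb2_eq : ∀ i j, qmul vcb1 vcb1 i j = vcb2 i j := by decide +kernel

def vcb4 : Q7 :=
  ![![E8.e 1, E8.e 0, E8.e 0, E8.e 0, E8.e 0, E8.e 0, E8.e 0],
    ![E8.e 0, E8.e 2, E8.e 0, E8.e 0, E8.e 0, E8.e 0, E8.e 4],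
    ![E8.e 0, E8.e 0, E8.e 1, E8.e 0, E8.e 0, E8.e 0, E8.e 0],
    ![E8.e 0, E8.e 0, E8.e 0, E8.e 2, E8.e 7, E8.e 0, E8.e 0],
    ![E8.e 0, E8.e 0, E8.e 0, E8.e 5, E8.e 6, E8.e 0, E8.e 0],
    ![E8.e 0, E8.e 0, E8.e 0, E8.e 0, E8.e 0, E8.e 1, E8.e 0],
    ![E8.e 0, E8.e 1, E8.e 0, E8.e 0, E8.e 0, E8.e 0, E8.e 7]]

theorem vcb4_eq : ∀ i j, qmul vcb2 vcb2 i j = vcb4 i j := by decide +kernel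

def vcb8 : Q7 :=
  ![![E8.e 1, E8.e 0, E8.e 0, E8.e 0, E8.e 0, E8.e 0, E8.e 0],
    ![E8.e 0, E8.e 0, E8.e 0, E8.e 0, E8.e 0, E8.e 0, E8.e 2],
    ![E8.e 0, E8.e 0, E8.e 1, E8.e 0, E8.e 0, E8.e 0, E8.e 0],
    ![E8.e 0, E8.e 0, E8.e 0, E8.e 2, E8.e 1, E8.e 0, E8.e 0],
    ![E8.e 0, E8.e 0, E8.e 0, E8.e 2, E8.e 4, E8.e 0, E8.e 0],
    ![E8.e 0, E8.e 0, E8.e 0, E8.e 0, E8.e 0, E8.e 1, E8.e 0],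
    ![E8.e 0, E8.e 5, E8.e 0, E8.e 0, E8.e 0, E8.e 0, E8.e 7]]

theorem vcb8_eq : ∀ i j, qmul vcb4 vcb4 i j = vcb8 i j := by decide +kernel

def vcb16 : Q7 :=
  ![![E8.e 1, E8.e 0, E8.e 0, E8.e 0, E8.e 0, E8.e 0, E8.e 0],
    ![E8.e 0, E8.e 1, E8.e 0, E8.e 0, E8.e 0, E8.e 0, E8.e 5],
    ![E8.e 0, E8.e 0, E8.e 1, E8.e 0, E8.e 0, E8.e 0, E8.e 0],
    ![E8.e 0, E8.e 0, E8.e 0, E8.e 6, E8.e 6, E8.e 0, E8.e 0],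
    ![E8.e 0, E8.e 0, E8.e 0, E8.e 7, E8.e 4, E8.e 0, E8.e 0],
    ![E8.e 0, E8.e 0, E8.e 0, E8.e 0, E8.e 0, E8.e 1, E8.e 0],
    ![E8.e 0, E8.e 6, E8.e 0, E8.e 0, E8.e 0, E8.e 0, E8.e 2]]

theorem vcb16_eq : ∀ i j, qmul vcb8 vcb8 i j = vcb16 i j := by decide +kernel

def vcb32 : Q7 :=
  ![![E8.e 1, E8.e 0, E8.e 0, E8.e 0, E8.e 0, E8.e 0, E8.e 0],
    ![E8.e 0, E8.e 2, E8.e 0, E8.e 0, E8.e 0, E8.e 0, E8.e 4],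
    ![E8.e 0, E8.e 0, E8.e 1, E8.e 0, E8.e 0, E8.e 0, E8.e 0],
    ![E8.e 0, E8.e 0, E8.e 0, E8.e 6, E8.e 7, E8.e 0, E8.e 0],
    ![E8.e 0, E8.e 0, E8.e 0, E8.e 5, E8.e 2, E8.e 0, E8.e 0],
    ![E8.e 0, E8.e 0, E8.e 0, E8.e 0, E8.e 0, E8.e 1, E8.e 0],
    ![E8.e 0, E8.e 1, E8.e 0, E8.e 0, E8.e 0, E8.e 0, E8.e 7]]

theorem vcb32_eq : ∀ i j, qmul vcb16 vcb16 i j = vcb32 i j := by decide +kernel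

def ucb48 : Q7 :=
  ![![E8.e 1, E8.e 0, E8.e 0, E8.e 0, E8.e 0, E8.e 0, E8.e 0],
    ![E8.e 0, E8.e 7, E8.e 0, E8.e 0, E8.e 0, E8.e 0, E8.e 2],
    ![E8.e 0, E8.e 0, E8.e 1, E8.e 0, E8.e 0, E8.e 0, E8.e 0],
    ![E8.e 0, E8.e 0, E8.e 0, E8.e 1, E8.e 3, E8.e 0, E8.e 0],
    ![E8.e 0, E8.e 0, E8.e 0, E8.e 6, E8.e 0, E8.e 0, E8.e 0],
    ![E8.e 0, E8.e 0, E8.e 0, E8.e 0, E8.e 0, E8.e 1, E8.e 0],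
    ![E8.e 0, E8.e 5, E8.e 0, E8.e 0, E8.e 0, E8.e 0, E8.e 0]]

theorem ucb48_eq : ∀ i j, qmul vcb32 vcb16 i j = ucb48 i j := by decide +kernel

def ucb56 : Q7 :=
  ![![E8.e 1, E8.e 0, E8.e 0, E8.e 0, E8.e 0, E8.e 0, E8.e 0],
    ![E8.e 0, E8.e 1, E8.e 0, E8.e 0, E8.e 0, E8.e 0, E8.e 0],
    ![E8.e 0, E8.e 0, E8.e 1, E8.e 0, E8.e 0, E8.e 0, E8.e 0],
    ![E8.e 0, E8.e 0, E8.e 0, E8.e 4, E8.e 6, E8.e 0, E8.e 0],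
    ![E8.e 0, E8.e 0, E8.e 0, E8.e 7, E8.e 6, E8.e 0, E8.e 0],
    ![E8.e 0, E8.e 0, E8.e 0, E8.e 0, E8.e 0, E8.e 1, E8.e 0],
    ![E8.e 0, E8.e 0, E8.e 0, E8.e 0, E8.e 0, E8.e 0, E8.e 1]]

theorem ucb56_eq : ∀ i j, qmul ucb48 vcb8 i j = ucb56 i j := by decide +kernel

def ucb60 : Q7 :=
  ![![E8.e 1, E8.e 0, E8.e 0, E8.e 0, E8.e 0, E8.e 0, E8.e 0],
    ![E8.e 0, E8.e 2, E8.e 0, E8.e 0, E8.e 0, E8.e 0, E8.e 4],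
    ![E8.e 0, E8.e 0, E8.e 1, E8.e 0, E8.e 0, E8.e 0, E8.e 0],
    ![E8.e 0, E8.e 0, E8.e 0, E8.e 0, E8.e 3, E8.e 0, E8.e 0],
    ![E8.e 0, E8.e 0, E8.e 0, E8.e 6, E8.e 1, E8.e 0, E8.e 0],
    ![E8.e 0, E8.e 0, E8.e 0, E8.e 0, E8.e 0, E8.e 1, E8.e 0],
    ![E8.e 0, E8.e 1, E8.e 0, E8.e 0, E8.e 0, E8.e 0, E8.e 7]]

theorem ucb60_eq : ∀ i j, qmul ucb56 vcb4 i j = ucb60 i j := by decide +kernel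

def ucb62 : Q7 :=
  ![![E8.e 1, E8.e 0, E8.e 0, E8.e 0, E8.e 0, E8.e 0, E8.e 0],
    ![E8.e 0, E8.e 7, E8.e 0, E8.e 0, E8.e 0, E8.e 0, E8.e 2],
    ![E8.e 0, E8.e 0, E8.e 1, E8.e 0, E8.e 0, E8.e 0, E8.e 0],
    ![E8.e 0, E8.e 0, E8.e 0, E8.e 2, E8.e 1, E8.e 0, E8.e 0],
    ![E8.e 0, E8.e 0, E8.e 0, E8.e 2, E8.e 4, E8.e 0, E8.e 0],
    ![E8.e 0, E8.e 0, E8.e 0, E8.e 0, E8.e 0, E8.e 1, E8.e 0],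
    ![E8.e 0, E8.e 5, E8.e 0, E8.e 0, E8.e 0, E8.e 0, E8.e 0]]

theorem ucb62_eq : ∀ i j, qmul ucb60 vcb2 i j = ucb62 i j := by decide +kernel

def ucb63 : Q7 :=
  ![![E8.e 1, E8.e 0, E8.e 0, E8.e 0, E8.e 0, E8.e 0, E8.e 0],
    ![E8.e 0, E8.e 1, E8.e 0, E8.e 0, E8.e 0, E8.e 0, E8.e 0],
    ![E8.e 0, E8.e 0, E8.e 4, E8.e 0, E8.e 0, E8.e 2, E8.e 0],
    ![E8.e 0, E8.e 0, E8.e 0, E8.e 1, E8.e 0, E8.e 0, E8.e 0],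
    ![E8.e 0, E8.e 0, E8.e 0, E8.e 0, E8.e 1, E8.e 0, E8.e 0],
    ![E8.e 0, E8.e 0, E8.e 6, E8.e 0, E8.e 0, E8.e 4, E8.e 0],
    ![E8.e 0, E8.e 0, E8.e 0, E8.e 0, E8.e 0, E8.e 0, E8.e 1]]

theorem ucb63_eq : ∀ i j, qmul ucb62 vcb1 i j = ucb63 i j := by decide +kernel

theorem cb_final : ucb63 = b_0 := by decide +kernel

theorem word_cb (hC : Cubic ω) (hG : Gen8 ω X) (hq : InX X (toF ω gcb)) :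
    specialLinear (Fin 7) F ≤ X := by
  have hg := hq
  have hx := hg
  have hw0 := step hC (inX_Yk1 hC hG) hx wcb0_eq
  have hw1 := step hC (inX_Yk3 hC hG) hx wcb1_eq
  have hv1 := step hC hw0 hw1 vcb1_eq
  have hv2 := step hC hv1 hv1 vcb2_eq
  have hv4 := step hC hv2 hv2 vcb4_eq
  have hv8 := step hC hv4 hv4 vcb8_eq
  have hv16 := step hC hv8 hv8 vcb16_eq
  have hv32 := step hC hv16 hv16 vcb32_eq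
  have hu48 := step hC hv32 hv16 ucb48_eq
  have hu56 := step hC hu48 hv8 ucb56_eq
  have hu60 := step hC hu56 hv4 ucb60_eq
  have hu62 := step hC hu60 hv2 ucb62_eq
  have hu63 := step hC hu62 hv1 ucb63_eq
  rw [cb_final] at hu63
  exact sl_b hC hG hu63

def gcc : Q7 :=
  ![![E8.e 1, E8.e 0, E8.e 0, E8.e 0, E8.e 0, E8.e 0, E8.e 0],
    ![E8.e 0, E8.e 7, E8.e 0, E8.e 0, E8.e 0, E8.e 0, E8.e 6],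
    ![E8.e 0, E8.e 0, E8.e 7, E8.e 0, E8.e 0, E8.e 6, E8.e 0],
    ![E8.e 0, E8.e 0, E8.e 0, E8.e 7, E8.e 6, E8.e 0, E8.e 0],
    ![E8.e 0, E8.e 0, E8.e 0, E8.e 6, E8.e 7, E8.e 0, E8.e 0],
    ![E8.e 0, E8.e 0, E8.e 6, E8.e 0, E8.e 0, E8.e 7, E8.e 0],
    ![E8.e 0, E8.e 6, E8.e 0, E8.e 0, E8.e 0, E8.e 0, E8.e 7]]

def wcc0 : Q7 :=
  ![![E8.e 1, E8.e 0, E8.e 0, E8.e 0, E8.e 0, E8.e 0, E8.e 0],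
    ![E8.e 0, E8.e 5, E8.e 0, E8.e 0, E8.e 0, E8.e 0, E8.e 7],
    ![E8.e 0, E8.e 0, E8.e 1, E8.e 0, E8.e 0, E8.e 5, E8.e 0],
    ![E8.e 0, E8.e 0, E8.e 0, E8.e 2, E8.e 1, E8.e 0, E8.e 0],
    ![E8.e 0, E8.e 0, E8.e 0, E8.e 2, E8.e 4, E8.e 0, E8.e 0],
    ![E8.e 0, E8.e 0, E8.e 4, E8.e 0, E8.e 0, E8.e 3, E8.e 0],
    ![E8.e 0, E8.e 3, E8.e 0, E8.e 0, E8.e 0, E8.e 0, E8.e 6]]

theorem wcc0_eq : ∀ i j, qmul (qYk 1) gcc i j = wcc0 i j := by decide +kernel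

def wcc1 : Q7 :=
  ![![E8.e 1, E8.e 0, E8.e 0, E8.e 0, E8.e 0, E8.e 0, E8.e 0],
    ![E8.e 0, E8.e 2, E8.e 0, E8.e 0, E8.e 0, E8.e 0, E8.e 1],
    ![E8.e 0, E8.e 0, E8.e 6, E8.e 0, E8.e 0, E8.e 3, E8.e 0],
    ![E8.e 0, E8.e 0, E8.e 0, E8.e 1, E8.e 5, E8.e 0, E8.e 0],
    ![E8.e 0, E8.e 0, E8.e 0, E8.e 4, E8.e 3, E8.e 0, E8.e 0],
    ![E8.e 0, E8.e 0, E8.e 7, E8.e 0, E8.e 0, E8.e 5, E8.e 0],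
    ![E8.e 0, E8.e 2, E8.e 0, E8.e 0, E8.e 0, E8.e 0, E8.e 4]]

theorem wcc1_eq : ∀ i j, qmul (qYk 3) gcc i j = wcc1 i j := by decide +kernel

def vcc1 : Q7 :=
  ![![E8.e 1, E8.e 0, E8.e 0, E8.e 0, E8.e 0, E8.e 0, E8.e 0],
    ![E8.e 0, E8.e 4, E8.e 0, E8.e 0, E8.e 0, E8.e 0, E8.e 4],
    ![E8.e 0, E8.e 0, E8.e 0, E8.e 0, E8.e 0, E8.e 4, E8.e 0],
    ![E8.e 0, E8.e 0, E8.e 0, E8.e 6, E8.e 2, E8.e 0, E8.e 0],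
    ![E8.e 0, E8.e 0, E8.e 0, E8.e 4, E8.e 6, E8.e 0, E8.e 0],
    ![E8.e 0, E8.e 0, E8.e 7, E8.e 0, E8.e 0, E8.e 3, E8.e 0],
    ![E8.e 0, E8.e 1, E8.e 0, E8.e 0, E8.e 0, E8.e 0, E8.e 6]]

theorem vcc1_eq : ∀ i j, qmul wcc0 wcc1 i j = vcc1 i j := by decide +kernel

def vcc2 : Q7 :=
  ![![E8.e 1, E8.e 0, E8.e 0, E8.e 0, E8.e 0, E8.e 0, E8.e 0],
    ![E8.e 0, E8.e 2, E8.e 0, E8.e 0, E8.e 0, E8.e 0, E8.e 3],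
    ![E8.e 0, E8.e 0, E8.e 1, E8.e 0, E8.e 0, E8.e 7, E8.e 0],
    ![E8.e 0, E8.e 0, E8.e 0, E8.e 1, E8.e 0, E8.e 0, E8.e 0],
    ![E8.e 0, E8.e 0, E8.e 0, E8.e 0, E8.e 1, E8.e 0, E8.e 0],
    ![E8.e 0, E8.e 0, E8.e 2, E8.e 0, E8.e 0, E8.e 4, E8.e 0],
    ![E8.e 0, E8.e 2, E8.e 0, E8.e 0, E8.e 0, E8.e 0, E8.e 6]]

theorem vcc2_eq : ∀ i j, qmul vcc1 vcc1 i j = vcc2 i j := by decide +kernel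

def vcc4 : Q7 :=
  ![![E8.e 1, E8.e 0, E8.e 0, E8.e 0, E8.e 0, E8.e 0, E8.e 0],
    ![E8.e 0, E8.e 2, E8.e 0, E8.e 0, E8.e 0, E8.e 0, E8.e 7],
    ![E8.e 0, E8.e 0, E8.e 4, E8.e 0, E8.e 0, E8.e 6, E8.e 0],
    ![E8.e 0, E8.e 0, E8.e 0, E8.e 1, E8.e 0, E8.e 0, E8.e 0],
    ![E8.e 0, E8.e 0, E8.e 0, E8.e 0, E8.e 1, E8.e 0, E8.e 0],
    ![E8.e 0, E8.e 0, E8.e 1, E8.e 0, E8.e 0, E8.e 3, E8.e 0],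
    ![E8.e 0, E8.e 3, E8.e 0, E8.e 0, E8.e 0, E8.e 0, E8.e 4]]

theorem vcc4_eq : ∀ i j, qmul vcc2 vcc2 i j = vcc4 i j := by decide +kernel

def vcc8 : Q7 :=
  ![![E8.e 1, E8.e 0, E8.e 0, E8.e 0, E8.e 0, E8.e 0, E8.e 0],
    ![E8.e 0, E8.e 6, E8.e 0, E8.e 0, E8.e 0, E8.e 0, E8.e 4],
    ![E8.e 0, E8.e 0, E8.e 0, E8.e 0, E8.e 0, E8.e 4, E8.e 0],
    ![E8.e 0, E8.e 0, E8.e 0, E8.e 1, E8.e 0, E8.e 0, E8.e 0],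
    ![E8.e 0, E8.e 0, E8.e 0, E8.e 0, E8.e 1, E8.e 0, E8.e 0],
    ![E8.e 0, E8.e 0, E8.e 7, E8.e 0, E8.e 0, E8.e 3, E8.e 0],
    ![E8.e 0, E8.e 1, E8.e 0, E8.e 0, E8.e 0, E8.e 0, E8.e 4]]

theorem vcc8_eq : ∀ i j, qmul vcc4 vcc4 i j = vcc8 i j := by decide +kernel

def vcc16 : Q7 :=
  ![![E8.e 1, E8.e 0, E8.e 0, E8.e 0, E8.e 0, E8.e 0, E8.e 0],
    ![E8.e 0, E8.e 6, E8.e 0, E8.e 0, E8.e 0, E8.e 0, E8.e 3],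
    ![E8.e 0, E8.e 0, E8.e 1, E8.e 0, E8.e 0, E8.e 7, E8.e 0],
    ![E8.e 0, E8.e 0, E8.e 0, E8.e 1, E8.e 0, E8.e 0, E8.e 0],
    ![E8.e 0, E8.e 0, E8.e 0, E8.e 0, E8.e 1, E8.e 0, E8.e 0],
    ![E8.e 0, E8.e 0, E8.e 2, E8.e 0, E8.e 0, E8.e 4, E8.e 0],
    ![E8.e 0, E8.e 2, E8.e 0, E8.e 0, E8.e 0, E8.e 0, E8.e 2]]

theorem vcc16_eq : ∀ i j, qmul vcc8 vcc8 i j = vcc16 i j := by decide +kernel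

def vcc32 : Q7 :=
  ![![E8.e 1, E8.e 0, E8.e 0, E8.e 0, E8.e 0, E8.e 0, E8.e 0],
    ![E8.e 0, E8.e 4, E8.e 0, E8.e 0, E8.e 0, E8.e 0, E8.e 7],
    ![E8.e 0, E8.e 0, E8.e 4, E8.e 0, E8.e 0, E8.e 6, E8.e 0],
    ![E8.e 0, E8.e 0, E8.e 0, E8.e 1, E8.e 0, E8.e 0, E8.e 0],
    ![E8.e 0, E8.e 0, E8.e 0, E8.e 0, E8.e 1, E8.e 0, E8.e 0],
    ![E8.e 0, E8.e 0, E8.e 1, E8.e 0, E8.e 0, E8.e 3, E8.e 0],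
    ![E8.e 0, E8.e 3, E8.e 0, E8.e 0, E8.e 0, E8.e 0, E8.e 2]]

theorem vcc32_eq : ∀ i j, qmul vcc16 vcc16 i j = vcc32 i j := by decide +kernel

def ucc48 : Q7 :=
  ![![E8.e 1, E8.e 0, E8.e 0, E8.e 0, E8.e 0, E8.e 0, E8.e 0],
    ![E8.e 0, E8.e 0, E8.e 0, E8.e 0, E8.e 0, E8.e 0, E8.e 2],
    ![E8.e 0, E8.e 0, E8.e 3, E8.e 0, E8.e 0, E8.e 4, E8.e 0],
    ![E8.e 0, E8.e 0, E8.e 0, E8.e 1, E8.e 0, E8.e 0, E8.e 0],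
    ![E8.e 0, E8.e 0, E8.e 0, E8.e 0, E8.e 1, E8.e 0, E8.e 0],
    ![E8.e 0, E8.e 0, E8.e 7, E8.e 0, E8.e 0, E8.e 0, E8.e 0],
    ![E8.e 0, E8.e 5, E8.e 0, E8.e 0, E8.e 0, E8.e 0, E8.e 1]]

theorem ucc48_eq : ∀ i j, qmul vcc32 vcc16 i j = ucc48 i j := by decide +kernel

def ucc56 : Q7 :=
  ![![E8.e 1, E8.e 0, E8.e 0, E8.e 0, E8.e 0, E8.e 0, E8.e 0],
    ![E8.e 0, E8.e 2, E8.e 0, E8.e 0, E8.e 0, E8.e 0, E8.e 3],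
    ![E8.e 0, E8.e 0, E8.e 1, E8.e 0, E8.e 0, E8.e 0, E8.e 0],
    ![E8.e 0, E8.e 0, E8.e 0, E8.e 1, E8.e 0, E8.e 0, E8.e 0],
    ![E8.e 0, E8.e 0, E8.e 0, E8.e 0, E8.e 1, E8.e 0, E8.e 0],
    ![E8.e 0, E8.e 0, E8.e 0, E8.e 0, E8.e 0, E8.e 1, E8.e 0],
    ![E8.e 0, E8.e 2, E8.e 0, E8.e 0, E8.e 0, E8.e 0, E8.e 6]]

theorem ucc56_eq : ∀ i j, qmul ucc48 vcc8 i j = ucc56 i j := by decide +kernel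

def ucc60 : Q7 :=
  ![![E8.e 1, E8.e 0, E8.e 0, E8.e 0, E8.e 0, E8.e 0, E8.e 0],
    ![E8.e 0, E8.e 1, E8.e 0, E8.e 0, E8.e 0, E8.e 0, E8.e 2],
    ![E8.e 0, E8.e 0, E8.e 4, E8.e 0, E8.e 0, E8.e 6, E8.e 0],
    ![E8.e 0, E8.e 0, E8.e 0, E8.e 1, E8.e 0, E8.e 0, E8.e 0],
    ![E8.e 0, E8.e 0, E8.e 0, E8.e 0, E8.e 1, E8.e 0, E8.e 0],
    ![E8.e 0, E8.e 0, E8.e 1, E8.e 0, E8.e 0, E8.e 3, E8.e 0],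
    ![E8.e 0, E8.e 5, E8.e 0, E8.e 0, E8.e 0, E8.e 0, E8.e 0]]

theorem ucc60_eq : ∀ i j, qmul ucc56 vcc4 i j = ucc60 i j := by decide +kernel

def ucc62 : Q7 :=
  ![![E8.e 1, E8.e 0, E8.e 0, E8.e 0, E8.e 0, E8.e 0, E8.e 0],
    ![E8.e 0, E8.e 6, E8.e 0, E8.e 0, E8.e 0, E8.e 0, E8.e 4],
    ![E8.e 0, E8.e 0, E8.e 3, E8.e 0, E8.e 0, E8.e 4, E8.e 0],
    ![E8.e 0, E8.e 0, E8.e 0, E8.e 1, E8.e 0, E8.e 0, E8.e 0],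
    ![E8.e 0, E8.e 0, E8.e 0, E8.e 0, E8.e 1, E8.e 0, E8.e 0],
    ![E8.e 0, E8.e 0, E8.e 7, E8.e 0, E8.e 0, E8.e 0, E8.e 0],
    ![E8.e 0, E8.e 1, E8.e 0, E8.e 0, E8.e 0, E8.e 0, E8.e 4]]

theorem ucc62_eq : ∀ i j, qmul ucc60 vcc2 i j = ucc62 i j := by decide +kernel

def ucc63 : Q7 :=
  ![![E8.e 1, E8.e 0, E8.e 0, E8.e 0, E8.e 0, E8.e 0, E8.e 0],
    ![E8.e 0, E8.e 1, E8.e 0, E8.e 0, E8.e 0, E8.e 0, E8.e 0],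
    ![E8.e 0, E8.e 0, E8.e 1, E8.e 0, E8.e 0, E8.e 0, E8.e 0],
    ![E8.e 0, E8.e 0, E8.e 0, E8.e 6, E8.e 2, E8.e 0, E8.e 0],
    ![E8.e 0, E8.e 0, E8.e 0, E8.e 4, E8.e 6, E8.e 0, E8.e 0],
    ![E8.e 0, E8.e 0, E8.e 0, E8.e 0, E8.e 0, E8.e 1, E8.e 0],
    ![E8.e 0, E8.e 0, E8.e 0, E8.e 0, E8.e 0, E8.e 0, E8.e 1]]

theorem ucc63_eq : ∀ i j, qmul ucc62 vcc1 i j = ucc63 i j := by decide +kernel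

theorem cc_final : ucc63 = c_0 := by decide +kernel

theorem word_cc (hC : Cubic ω) (hG : Gen8 ω X) (hq : InX X (toF ω gcc)) :
    specialLinear (Fin 7) F ≤ X := by
  have hg := hq
  have hx := hg
  have hw0 := step hC (inX_Yk1 hC hG) hx wcc0_eq
  have hw1 := step hC (inX_Yk3 hC hG) hx wcc1_eq
  have hv1 := step hC hw0 hw1 vcc1_eq
  have hv2 := step hC hv1 hv1 vcc2_eq
  have hv4 := step hC hv2 hv2 vcc4_eq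
  have hv8 := step hC hv4 hv4 vcc8_eq
  have hv16 := step hC hv8 hv8 vcc16_eq
  have hv32 := step hC hv16 hv16 vcc32_eq
  have hu48 := step hC hv32 hv16 ucc48_eq
  have hu56 := step hC hu48 hv8 ucc56_eq
  have hu60 := step hC hu56 hv4 ucc60_eq
  have hu62 := step hC hu60 hv2 ucc62_eq
  have hu63 := step hC hu62 hv1 ucc63_eq
  rw [cc_final] at hu63
  exact sl_c hC hG hu63

def gt1 : Q7 :=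
  ![![E8.e 1, E8.e 0, E8.e 0, E8.e 0, E8.e 0, E8.e 0, E8.e 0],
    ![E8.e 0, E8.e 3, E8.e 0, E8.e 0, E8.e 0, E8.e 0, E8.e 2],
    ![E8.e 0, E8.e 0, E8.e 7, E8.e 0, E8.e 0, E8.e 6, E8.e 0],
    ![E8.e 0, E8.e 0, E8.e 0, E8.e 5, E8.e 4, E8.e 0, E8.e 0],
    ![E8.e 0, E8.e 0, E8.e 0, E8.e 4, E8.e 5, E8.e 0, E8.e 0],
    ![E8.e 0, E8.e 0, E8.e 6, E8.e 0, E8.e 0, E8.e 7, E8.e 0],
    ![E8.e 0, E8.e 2, E8.e 0, E8.e 0, E8.e 0, E8.e 0, E8.e 3]]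

def wt10 : Q7 :=
  ![![E8.e 1, E8.e 0, E8.e 0, E8.e 0, E8.e 0, E8.e 0, E8.e 0],
    ![E8.e 0, E8.e 6, E8.e 0, E8.e 0, E8.e 0, E8.e 0, E8.e 4],
    ![E8.e 0, E8.e 0, E8.e 1, E8.e 0, E8.e 0, E8.e 5, E8.e 0],
    ![E8.e 0, E8.e 0, E8.e 0, E8.e 4, E8.e 7, E8.e 0, E8.e 0],
    ![E8.e 0, E8.e 0, E8.e 0, E8.e 5, E8.e 3, E8.e 0, E8.e 0],
    ![E8.e 0, E8.e 0, E8.e 4, E8.e 0, E8.e 0, E8.e 3, E8.e 0],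
    ![E8.e 0, E8.e 1, E8.e 0, E8.e 0, E8.e 0, E8.e 0, E8.e 4]]

theorem wt10_eq : ∀ i j, qmul (qYk 1) gt1 i j = wt10 i j := by decide +kernel

def wt11 : Q7 :=
  ![![E8.e 1, E8.e 0, E8.e 0, E8.e 0, E8.e 0, E8.e 0, E8.e 0],
    ![E8.e 0, E8.e 5, E8.e 0, E8.e 0, E8.e 0, E8.e 0, E8.e 6],
    ![E8.e 0, E8.e 0, E8.e 6, E8.e 0, E8.e 0, E8.e 3, E8.e 0],
    ![E8.e 0, E8.e 0, E8.e 0, E8.e 2, E8.e 6, E8.e 0, E8.e 0],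
    ![E8.e 0, E8.e 0, E8.e 0, E8.e 1, E8.e 6, E8.e 0, E8.e 0],
    ![E8.e 0, E8.e 0, E8.e 7, E8.e 0, E8.e 0, E8.e 5, E8.e 0],
    ![E8.e 0, E8.e 7, E8.e 0, E8.e 0, E8.e 0, E8.e 0, E8.e 1]]

theorem wt11_eq : ∀ i j, qmul (qYk 3) gt1 i j = wt11 i j := by decide +kernel

def vt11 : Q7 :=
  ![![E8.e 1, E8.e 0, E8.e 0, E8.e 0, E8.e 0, E8.e 0, E8.e 0],
    ![E8.e 0, E8.e 2, E8.e 0, E8.e 0, E8.e 0, E8.e 0, E8.e 6],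
    ![E8.e 0, E8.e 0, E8.e 0, E8.e 0, E8.e 0, E8.e 4, E8.e 0],
    ![E8.e 0, E8.e 0, E8.e 0, E8.e 4, E8.e 1, E8.e 0, E8.e 0],
    ![E8.e 0, E8.e 0, E8.e 0, E8.e 2, E8.e 2, E8.e 0, E8.e 0],
    ![E8.e 0, E8.e 0, E8.e 7, E8.e 0, E8.e 0, E8.e 3, E8.e 0],
    ![E8.e 0, E8.e 4, E8.e 0, E8.e 0, E8.e 0, E8.e 0, E8.e 2]]

theorem vt11_eq : ∀ i j, qmul wt10 wt11 i j = vt11 i j := by decide +kernel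

def vt12 : Q7 :=
  ![![E8.e 1, E8.e 0, E8.e 0, E8.e 0, E8.e 0, E8.e 0, E8.e 0],
    ![E8.e 0, E8.e 1, E8.e 0, E8.e 0, E8.e 0, E8.e 0, E8.e 0],
    ![E8.e 0, E8.e 0, E8.e 1, E8.e 0, E8.e 0, E8.e 7, E8.e 0],
    ![E8.e 0, E8.e 0, E8.e 0, E8.e 4, E8.e 6, E8.e 0, E8.e 0],
    ![E8.e 0, E8.e 0, E8.e 0, E8.e 7, E8.e 6, E8.e 0, E8.e 0],
    ![E8.e 0, E8.e 0, E8.e 2, E8.e 0, E8.e 0, E8.e 4, E8.e 0],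
    ![E8.e 0, E8.e 0, E8.e 0, E8.e 0, E8.e 0, E8.e 0, E8.e 1]]

theorem vt12_eq : ∀ i j, qmul vt11 vt11 i j = vt12 i j := by decide +kernel

def vt14 : Q7 :=
  ![![E8.e 1, E8.e 0, E8.e 0, E8.e 0, E8.e 0, E8.e 0, E8.e 0],
    ![E8.e 0, E8.e 1, E8.e 0, E8.e 0, E8.e 0, E8.e 0, E8.e 0],
    ![E8.e 0, E8.e 0, E8.e 4, E8.e 0, E8.e 0, E8.e 6, E8.e 0],
    ![E8.e 0, E8.e 0, E8.e 0, E8.e 2, E8.e 7, E8.e 0, E8.e 0],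
    ![E8.e 0, E8.e 0, E8.e 0, E8.e 5, E8.e 6, E8.e 0, E8.e 0],
    ![E8.e 0, E8.e 0, E8.e 1, E8.e 0, E8.e 0, E8.e 3, E8.e 0],
    ![E8.e 0, E8.e 0, E8.e 0, E8.e 0, E8.e 0, E8.e 0, E8.e 1]]

theorem vt14_eq : ∀ i j, qmul vt12 vt12 i j = vt14 i j := by decide +kernel

def vt18 : Q7 :=
  ![![E8.e 1, E8.e 0, E8.e 0, E8.e 0, E8.e 0, E8.e 0, E8.e 0],
    ![E8.e 0, E8.e 1, E8.e 0, E8.e 0, E8.e 0, E8.e 0, E8.e 0],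
    ![E8.e 0, E8.e 0, E8.e 0, E8.e 0, E8.e 0, E8.e 4, E8.e 0],
    ![E8.e 0, E8.e 0, E8.e 0, E8.e 2, E8.e 1, E8.e 0, E8.e 0],
    ![E8.e 0, E8.e 0, E8.e 0, E8.e 2, E8.e 4, E8.e 0, E8.e 0],
    ![E8.e 0, E8.e 0, E8.e 7, E8.e 0, E8.e 0, E8.e 3, E8.e 0],
    ![E8.e 0, E8.e 0, E8.e 0, E8.e 0, E8.e 0, E8.e 0, E8.e 1]]

theorem vt18_eq : ∀ i j, qmul vt14 vt14 i j = vt18 i j := by decide +kernel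

def vt116 : Q7 :=
  ![![E8.e 1, E8.e 0, E8.e 0, E8.e 0, E8.e 0, E8.e 0, E8.e 0],
    ![E8.e 0, E8.e 1, E8.e 0, E8.e 0, E8.e 0, E8.e 0, E8.e 0],
    ![E8.e 0, E8.e 0, E8.e 1, E8.e 0, E8.e 0, E8.e 7, E8.e 0],
    ![E8.e 0, E8.e 0, E8.e 0, E8.e 6, E8.e 6, E8.e 0, E8.e 0],
    ![E8.e 0, E8.e 0, E8.e 0, E8.e 7, E8.e 4, E8.e 0, E8.e 0],
    ![E8.e 0, E8.e 0, E8.e 2, E8.e 0, E8.e 0, E8.e 4, E8.e 0],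
    ![E8.e 0, E8.e 0, E8.e 0, E8.e 0, E8.e 0, E8.e 0, E8.e 1]]

theorem vt116_eq : ∀ i j, qmul vt18 vt18 i j = vt116 i j := by decide +kernel

def vt132 : Q7 :=
  ![![E8.e 1, E8.e 0, E8.e 0, E8.e 0, E8.e 0, E8.e 0, E8.e 0],
    ![E8.e 0, E8.e 1, E8.e 0, E8.e 0, E8.e 0, E8.e 0, E8.e 0],
    ![E8.e 0, E8.e 0, E8.e 4, E8.e 0, E8.e 0, E8.e 6, E8.e 0],
    ![E8.e 0, E8.e 0, E8.e 0, E8.e 6, E8.e 7, E8.e 0, E8.e 0],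
    ![E8.e 0, E8.e 0, E8.e 0, E8.e 5, E8.e 2, E8.e 0, E8.e 0],
    ![E8.e 0, E8.e 0, E8.e 1, E8.e 0, E8.e 0, E8.e 3, E8.e 0],
    ![E8.e 0, E8.e 0, E8.e 0, E8.e 0, E8.e 0, E8.e 0, E8.e 1]]

theorem vt132_eq : ∀ i j, qmul vt116 vt116 i j = vt132 i j := by decide +kernel

def ut148 : Q7 :=
  ![![E8.e 1, E8.e 0, E8.e 0, E8.e 0, E8.e 0, E8.e 0, E8.e 0],
    ![E8.e 0, E8.e 1, E8.e 0, E8.e 0, E8.e 0, E8.e 0, E8.e 0],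
    ![E8.e 0, E8.e 0, E8.e 3, E8.e 0, E8.e 0, E8.e 4, E8.e 0],
    ![E8.e 0, E8.e 0, E8.e 0, E8.e 1, E8.e 3, E8.e 0, E8.e 0],
    ![E8.e 0, E8.e 0, E8.e 0, E8.e 6, E8.e 0, E8.e 0, E8.e 0],
    ![E8.e 0, E8.e 0, E8.e 7, E8.e 0, E8.e 0, E8.e 0, E8.e 0],
    ![E8.e 0, E8.e 0, E8.e 0, E8.e 0, E8.e 0, E8.e 0, E8.e 1]]

theorem ut148_eq : ∀ i j, qmul vt132 vt116 i j = ut148 i j := by decide +kernel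

def ut156 : Q7 :=
  ![![E8.e 1, E8.e 0, E8.e 0, E8.e 0, E8.e 0, E8.e 0, E8.e 0],
    ![E8.e 0, E8.e 1, E8.e 0, E8.e 0, E8.e 0, E8.e 0, E8.e 0],
    ![E8.e 0, E8.e 0, E8.e 1, E8.e 0, E8.e 0, E8.e 0, E8.e 0],
    ![E8.e 0, E8.e 0, E8.e 0, E8.e 4, E8.e 6, E8.e 0, E8.e 0],
    ![E8.e 0, E8.e 0, E8.e 0, E8.e 7, E8.e 6, E8.e 0, E8.e 0],
    ![E8.e 0, E8.e 0, E8.e 0, E8.e 0, E8.e 0, E8.e 1, E8.e 0],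
    ![E8.e 0, E8.e 0, E8.e 0, E8.e 0, E8.e 0, E8.e 0, E8.e 1]]

theorem ut156_eq : ∀ i j, qmul ut148 vt18 i j = ut156 i j := by decide +kernel

def ut160 : Q7 :=
  ![![E8.e 1, E8.e 0, E8.e 0, E8.e 0, E8.e 0, E8.e 0, E8.e 0],
    ![E8.e 0, E8.e 1, E8.e 0, E8.e 0, E8.e 0, E8.e 0, E8.e 0],
    ![E8.e 0, E8.e 0, E8.e 4, E8.e 0, E8.e 0, E8.e 6, E8.e 0],
    ![E8.e 0, E8.e 0, E8.e 0, E8.e 0, E8.e 3, E8.e 0, E8.e 0],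
    ![E8.e 0, E8.e 0, E8.e 0, E8.e 6, E8.e 1, E8.e 0, E8.e 0],
    ![E8.e 0, E8.e 0, E8.e 1, E8.e 0, E8.e 0, E8.e 3, E8.e 0],
    ![E8.e 0, E8.e 0, E8.e 0, E8.e 0, E8.e 0, E8.e 0, E8.e 1]]

theorem ut160_eq : ∀ i j, qmul ut156 vt14 i j = ut160 i j := by decide +kernel

def ut162 : Q7 :=
  ![![E8.e 1, E8.e 0, E8.e 0, E8.e 0, E8.e 0, E8.e 0, E8.e 0],
    ![E8.e 0, E8.e 1, E8.e 0, E8.e 0, E8.e 0, E8.e 0, E8.e 0],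
    ![E8.e 0, E8.e 0, E8.e 3, E8.e 0, E8.e 0, E8.e 4, E8.e 0],
    ![E8.e 0, E8.e 0, E8.e 0, E8.e 2, E8.e 1, E8.e 0, E8.e 0],
    ![E8.e 0, E8.e 0, E8.e 0, E8.e 2, E8.e 4, E8.e 0, E8.e 0],
    ![E8.e 0, E8.e 0, E8.e 7, E8.e 0, E8.e 0, E8.e 0, E8.e 0],
    ![E8.e 0, E8.e 0, E8.e 0, E8.e 0, E8.e 0, E8.e 0, E8.e 1]]

theorem ut162_eq : ∀ i j, qmul ut160 vt12 i j = ut162 i j := by decide +kernel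

def ut163 : Q7 :=
  ![![E8.e 1, E8.e 0, E8.e 0, E8.e 0, E8.e 0, E8.e 0, E8.e 0],
    ![E8.e 0, E8.e 2, E8.e 0, E8.e 0, E8.e 0, E8.e 0, E8.e 6],
    ![E8.e 0, E8.e 0, E8.e 1, E8.e 0, E8.e 0, E8.e 0, E8.e 0],
    ![E8.e 0, E8.e 0, E8.e 0, E8.e 1, E8.e 0, E8.e 0, E8.e 0],
    ![E8.e 0, E8.e 0, E8.e 0, E8.e 0, E8.e 1, E8.e 0, E8.e 0],
    ![E8.e 0, E8.e 0, E8.e 0, E8.e 0, E8.e 0, E8.e 1, E8.e 0],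
    ![E8.e 0, E8.e 4, E8.e 0, E8.e 0, E8.e 0, E8.e 0, E8.e 2]]

theorem ut163_eq : ∀ i j, qmul ut162 vt11 i j = ut163 i j := by decide +kernel

theorem t1_final : ut163 = a_0 := by decide +kernel

theorem word_t1 (hC : Cubic ω) (hG : Gen8 ω X) (hq : InX X (toF ω gt1)) :
    specialLinear (Fin 7) F ≤ X := by
  have hg := hq
  have hx := hg
  have hw0 := step hC (inX_Yk1 hC hG) hx wt10_eq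
  have hw1 := step hC (inX_Yk3 hC hG) hx wt11_eq
  have hv1 := step hC hw0 hw1 vt11_eq
  have hv2 := step hC hv1 hv1 vt12_eq
  have hv4 := step hC hv2 hv2 vt14_eq
  have hv8 := step hC hv4 hv4 vt18_eq
  have hv16 := step hC hv8 hv8 vt116_eq
  have hv32 := step hC hv16 hv16 vt132_eq
  have hu48 := step hC hv32 hv16 ut148_eq
  have hu56 := step hC hu48 hv8 ut156_eq
  have hu60 := step hC hu56 hv4 ut160_eq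
  have hu62 := step hC hu60 hv2 ut162_eq
  have hu63 := step hC hu62 hv1 ut163_eq
  rw [t1_final] at hu63
  exact sl_a hC hG hu63

def gt2 : Q7 :=
  ![![E8.e 1, E8.e 0, E8.e 0, E8.e 0, E8.e 0, E8.e 0, E8.e 0],
    ![E8.e 0, E8.e 5, E8.e 0, E8.e 0, E8.e 0, E8.e 0, E8.e 4],
    ![E8.e 0, E8.e 0, E8.e 6, E8.e 0, E8.e 0, E8.e 7, E8.e 0],
    ![E8.e 0, E8.e 0, E8.e 0, E8.e 2, E8.e 3, E8.e 0, E8.e 0],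
    ![E8.e 0, E8.e 0, E8.e 0, E8.e 3, E8.e 2, E8.e 0, E8.e 0],
    ![E8.e 0, E8.e 0, E8.e 7, E8.e 0, E8.e 0, E8.e 6, E8.e 0],
    ![E8.e 0, E8.e 4, E8.e 0, E8.e 0, E8.e 0, E8.e 0, E8.e 5]]

def ht2 : Q7 :=
  ![![E8.e 1, E8.e 0, E8.e 0, E8.e 0, E8.e 0, E8.e 0, E8.e 0],
    ![E8.e 0, E8.e 4, E8.e 0, E8.e 0, E8.e 0, E8.e 0, E8.e 5],
    ![E8.e 0, E8.e 0, E8.e 7, E8.e 0, E8.e 0, E8.e 6, E8.e 0],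
    ![E8.e 0, E8.e 0, E8.e 0, E8.e 3, E8.e 2, E8.e 0, E8.e 0],
    ![E8.e 0, E8.e 0, E8.e 0, E8.e 2, E8.e 3, E8.e 0, E8.e 0],
    ![E8.e 0, E8.e 0, E8.e 6, E8.e 0, E8.e 0, E8.e 7, E8.e 0],
    ![E8.e 0, E8.e 5, E8.e 0, E8.e 0, E8.e 0, E8.e 0, E8.e 4]]

theorem ht2_eq : ∀ i j, qmul gt2 qZ i j = ht2 i j := by decide +kernel

def wt20 : Q7 :=
  ![![E8.e 1, E8.e 0, E8.e 0, E8.e 0, E8.e 0, E8.e 0, E8.e 0],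
    ![E8.e 0, E8.e 6, E8.e 0, E8.e 0, E8.e 0, E8.e 0, E8.e 2],
    ![E8.e 0, E8.e 0, E8.e 4, E8.e 0, E8.e 0, E8.e 2, E8.e 0],
    ![E8.e 0, E8.e 0, E8.e 0, E8.e 4, E8.e 1, E8.e 0, E8.e 0],
    ![E8.e 0, E8.e 0, E8.e 0, E8.e 4, E8.e 6, E8.e 0, E8.e 0],
    ![E8.e 0, E8.e 0, E8.e 1, E8.e 0, E8.e 0, E8.e 2, E8.e 0],
    ![E8.e 0, E8.e 6, E8.e 0, E8.e 0, E8.e 0, E8.e 0, E8.e 1]]

theorem wt20_eq : ∀ i j, qmul (qYk 2) ht2 i j = wt20 i j := by decide +kernel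

def wt21 : Q7 :=
  ![![E8.e 1, E8.e 0, E8.e 0, E8.e 0, E8.e 0, E8.e 0, E8.e 0],
    ![E8.e 0, E8.e 3, E8.e 0, E8.e 0, E8.e 0, E8.e 0, E8.e 1],
    ![E8.e 0, E8.e 0, E8.e 1, E8.e 0, E8.e 0, E8.e 5, E8.e 0],
    ![E8.e 0, E8.e 0, E8.e 0, E8.e 5, E8.e 6, E8.e 0, E8.e 0],
    ![E8.e 0, E8.e 0, E8.e 0, E8.e 7, E8.e 1, E8.e 0, E8.e 0],
    ![E8.e 0, E8.e 0, E8.e 4, E8.e 0, E8.e 0, E8.e 3, E8.e 0],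
    ![E8.e 0, E8.e 7, E8.e 0, E8.e 0, E8.e 0, E8.e 0, E8.e 2]]

theorem wt21_eq : ∀ i j, qmul (qYk 1) ht2 i j = wt21 i j := by decide +kernel

def vt21 : Q7 :=
  ![![E8.e 1, E8.e 0, E8.e 0, E8.e 0, E8.e 0, E8.e 0, E8.e 0],
    ![E8.e 0, E8.e 4, E8.e 0, E8.e 0, E8.e 0, E8.e 0, E8.e 2],
    ![E8.e 0, E8.e 0, E8.e 7, E8.e 0, E8.e 0, E8.e 4, E8.e 0],
    ![E8.e 0, E8.e 0, E8.e 0, E8.e 5, E8.e 4, E8.e 0, E8.e 0],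
    ![E8.e 0, E8.e 0, E8.e 0, E8.e 6, E8.e 3, E8.e 0, E8.e 0],
    ![E8.e 0, E8.e 0, E8.e 2, E8.e 0, E8.e 0, E8.e 3, E8.e 0],
    ![E8.e 0, E8.e 6, E8.e 0, E8.e 0, E8.e 0, E8.e 0, E8.e 4]]

theorem vt21_eq : ∀ i j, qmul wt20 wt21 i j = vt21 i j := by decide +kernel

def vt22 : Q7 :=
  ![![E8.e 1, E8.e 0, E8.e 0, E8.e 0, E8.e 0, E8.e 0, E8.e 0],
    ![E8.e 0, E8.e 1, E8.e 0, E8.e 0, E8.e 0, E8.e 0, E8.e 0],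
    ![E8.e 0, E8.e 0, E8.e 0, E8.e 0, E8.e 0, E8.e 6, E8.e 0],
    ![E8.e 0, E8.e 0, E8.e 0, E8.e 2, E8.e 5, E8.e 0, E8.e 0],
    ![E8.e 0, E8.e 0, E8.e 0, E8.e 2, E8.e 0, E8.e 0, E8.e 0],
    ![E8.e 0, E8.e 0, E8.e 3, E8.e 0, E8.e 0, E8.e 6, E8.e 0],
    ![E8.e 0, E8.e 0, E8.e 0, E8.e 0, E8.e 0, E8.e 0, E8.e 1]]

theorem vt22_eq : ∀ i j, qmul vt21 vt21 i j = vt22 i j := by decide +kernel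

def vt24 : Q7 :=
  ![![E8.e 1, E8.e 0, E8.e 0, E8.e 0, E8.e 0, E8.e 0, E8.e 0],
    ![E8.e 0, E8.e 1, E8.e 0, E8.e 0, E8.e 0, E8.e 0, E8.e 0],
    ![E8.e 0, E8.e 0, E8.e 1, E8.e 0, E8.e 0, E8.e 2, E8.e 0],
    ![E8.e 0, E8.e 0, E8.e 0, E8.e 5, E8.e 1, E8.e 0, E8.e 0],
    ![E8.e 0, E8.e 0, E8.e 0, E8.e 4, E8.e 1, E8.e 0, E8.e 0],
    ![E8.e 0, E8.e 0, E8.e 1, E8.e 0, E8.e 0, E8.e 3, E8.e 0],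
    ![E8.e 0, E8.e 0, E8.e 0, E8.e 0, E8.e 0, E8.e 0, E8.e 1]]

theorem vt24_eq : ∀ i j, qmul vt22 vt22 i j = vt24 i j := by decide +kernel

def vt28 : Q7 :=
  ![![E8.e 1, E8.e 0, E8.e 0, E8.e 0, E8.e 0, E8.e 0, E8.e 0],
    ![E8.e 0, E8.e 1, E8.e 0, E8.e 0, E8.e 0, E8.e 0, E8.e 0],
    ![E8.e 0, E8.e 0, E8.e 3, E8.e 0, E8.e 0, E8.e 4, E8.e 0],
    ![E8.e 0, E8.e 0, E8.e 0, E8.e 3, E8.e 4, E8.e 0, E8.e 0],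
    ![E8.e 0, E8.e 0, E8.e 0, E8.e 6, E8.e 5, E8.e 0, E8.e 0],
    ![E8.e 0, E8.e 0, E8.e 2, E8.e 0, E8.e 0, E8.e 7, E8.e 0],
    ![E8.e 0, E8.e 0, E8.e 0, E8.e 0, E8.e 0, E8.e 0, E8.e 1]]

theorem vt28_eq : ∀ i j, qmul vt24 vt24 i j = vt28 i j := by decide +kernel

def ut29 : Q7 :=
  ![![E8.e 1, E8.e 0, E8.e 0, E8.e 0, E8.e 0, E8.e 0, E8.e 0],
    ![E8.e 0, E8.e 4, E8.e 0, E8.e 0, E8.e 0, E8.e 0, E8.e 2],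
    ![E8.e 0, E8.e 0, E8.e 1, E8.e 0, E8.e 0, E8.e 0, E8.e 0],
    ![E8.e 0, E8.e 0, E8.e 0, E8.e 1, E8.e 0, E8.e 0, E8.e 0],
    ![E8.e 0, E8.e 0, E8.e 0, E8.e 0, E8.e 1, E8.e 0, E8.e 0],
    ![E8.e 0, E8.e 0, E8.e 0, E8.e 0, E8.e 0, E8.e 1, E8.e 0],
    ![E8.e 0, E8.e 6, E8.e 0, E8.e 0, E8.e 0, E8.e 0, E8.e 4]]

theorem ut29_eq : ∀ i j, qmul vt28 vt21 i j = ut29 i j := by decide +kernel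

theorem t2_final : ut29 = p2_0 := by decide +kernel

theorem word_t2 (hC : Cubic ω) (hG : Gen8 ω X) (hq : InX X (toF ω gt2)) :
    specialLinear (Fin 7) F ≤ X := by
  have hg := hq
  have hx := step hC hg (inX_qZ hC hG) ht2_eq
  have hw0 := step hC (inX_Yk2 hC hG) hx wt20_eq
  have hw1 := step hC (inX_Yk1 hC hG) hx wt21_eq
  have hv1 := step hC hw0 hw1 vt21_eq
  have hv2 := step hC hv1 hv1 vt22_eq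
  have hv4 := step hC hv2 hv2 vt24_eq
  have hv8 := step hC hv4 hv4 vt28_eq
  have hu9 := step hC hv8 hv1 ut29_eq
  rw [t2_final] at hu9
  exact sl_p2 hC hG hu9

def gt3 : Q7 :=
  ![![E8.e 1, E8.e 0, E8.e 0, E8.e 0, E8.e 0, E8.e 0, E8.e 0],
    ![E8.e 0, E8.e 7, E8.e 0, E8.e 0, E8.e 0, E8.e 0, E8.e 6],
    ![E8.e 0, E8.e 0, E8.e 0, E8.e 0, E8.e 0, E8.e 1, E8.e 0],
    ![E8.e 0, E8.e 0, E8.e 0, E8.e 6, E8.e 7, E8.e 0, E8.e 0],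
    ![E8.e 0, E8.e 0, E8.e 0, E8.e 7, E8.e 6, E8.e 0, E8.e 0],
    ![E8.e 0, E8.e 0, E8.e 1, E8.e 0, E8.e 0, E8.e 0, E8.e 0],
    ![E8.e 0, E8.e 6, E8.e 0, E8.e 0, E8.e 0, E8.e 0, E8.e 7]]

def wt30 : Q7 :=
  ![![E8.e 1, E8.e 0, E8.e 0, E8.e 0, E8.e 0, E8.e 0, E8.e 0],
    ![E8.e 0, E8.e 2, E8.e 0, E8.e 0, E8.e 0, E8.e 0, E8.e 1],
    ![E8.e 0, E8.e 0, E8.e 0, E8.e 0, E8.e 0, E8.e 5, E8.e 0],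
    ![E8.e 0, E8.e 0, E8.e 0, E8.e 5, E8.e 1, E8.e 0, E8.e 0],
    ![E8.e 0, E8.e 0, E8.e 0, E8.e 3, E8.e 4, E8.e 0, E8.e 0],
    ![E8.e 0, E8.e 0, E8.e 2, E8.e 0, E8.e 0, E8.e 0, E8.e 0],
    ![E8.e 0, E8.e 2, E8.e 0, E8.e 0, E8.e 0, E8.e 0, E8.e 4]]

theorem wt30_eq : ∀ i j, qmul (qYk 3) gt3 i j = wt30 i j := by decide +kernel

def wt31 : Q7 :=
  ![![E8.e 1, E8.e 0, E8.e 0, E8.e 0, E8.e 0, E8.e 0, E8.e 0],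
    ![E8.e 0, E8.e 1, E8.e 0, E8.e 0, E8.e 0, E8.e 0, E8.e 5],
    ![E8.e 0, E8.e 0, E8.e 0, E8.e 0, E8.e 0, E8.e 6, E8.e 0],
    ![E8.e 0, E8.e 0, E8.e 0, E8.e 3, E8.e 6, E8.e 0, E8.e 0],
    ![E8.e 0, E8.e 0, E8.e 0, E8.e 5, E8.e 7, E8.e 0, E8.e 0],
    ![E8.e 0, E8.e 0, E8.e 3, E8.e 0, E8.e 0, E8.e 0, E8.e 0],
    ![E8.e 0, E8.e 4, E8.e 0, E8.e 0, E8.e 0, E8.e 0, E8.e 3]]

theorem wt31_eq : ∀ i j, qmul (qYk 2) gt3 i j = wt31 i j := by decide +kernel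

def vt31 : Q7 :=
  ![![E8.e 1, E8.e 0, E8.e 0, E8.e 0, E8.e 0, E8.e 0, E8.e 0],
    ![E8.e 0, E8.e 6, E8.e 0, E8.e 0, E8.e 0, E8.e 0, E8.e 2],
    ![E8.e 0, E8.e 0, E8.e 4, E8.e 0, E8.e 0, E8.e 0, E8.e 0],
    ![E8.e 0, E8.e 0, E8.e 0, E8.e 1, E8.e 4, E8.e 0, E8.e 0],
    ![E8.e 0, E8.e 0, E8.e 0, E8.e 7, E8.e 0, E8.e 0, E8.e 0],
    ![E8.e 0, E8.e 0, E8.e 0, E8.e 0, E8.e 0, E8.e 7, E8.e 0],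
    ![E8.e 0, E8.e 4, E8.e 0, E8.e 0, E8.e 0, E8.e 0, E8.e 6]]

theorem vt31_eq : ∀ i j, qmul wt30 wt31 i j = vt31 i j := by decide +kernel

def vt32 : Q7 :=
  ![![E8.e 1, E8.e 0, E8.e 0, E8.e 0, E8.e 0, E8.e 0, E8.e 0],
    ![E8.e 0, E8.e 1, E8.e 0, E8.e 0, E8.e 0, E8.e 0, E8.e 0],
    ![E8.e 0, E8.e 0, E8.e 6, E8.e 0, E8.e 0, E8.e 0, E8.e 0],
    ![E8.e 0, E8.e 0, E8.e 0, E8.e 0, E8.e 4, E8.e 0, E8.e 0],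
    ![E8.e 0, E8.e 0, E8.e 0, E8.e 7, E8.e 1, E8.e 0, E8.e 0],
    ![E8.e 0, E8.e 0, E8.e 0, E8.e 0, E8.e 0, E8.e 3, E8.e 0],
    ![E8.e 0, E8.e 0, E8.e 0, E8.e 0, E8.e 0, E8.e 0, E8.e 1]]

theorem vt32_eq : ∀ i j, qmul vt31 vt31 i j = vt32 i j := by decide +kernel

def vt34 : Q7 :=
  ![![E8.e 1, E8.e 0, E8.e 0, E8.e 0, E8.e 0, E8.e 0, E8.e 0],
    ![E8.e 0, E8.e 1, E8.e 0, E8.e 0, E8.e 0, E8.e 0, E8.e 0],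
    ![E8.e 0, E8.e 0, E8.e 2, E8.e 0, E8.e 0, E8.e 0, E8.e 0],
    ![E8.e 0, E8.e 0, E8.e 0, E8.e 1, E8.e 4, E8.e 0, E8.e 0],
    ![E8.e 0, E8.e 0, E8.e 0, E8.e 7, E8.e 0, E8.e 0, E8.e 0],
    ![E8.e 0, E8.e 0, E8.e 0, E8.e 0, E8.e 0, E8.e 5, E8.e 0],
    ![E8.e 0, E8.e 0, E8.e 0, E8.e 0, E8.e 0, E8.e 0, E8.e 1]]

theorem vt34_eq : ∀ i j, qmul vt32 vt32 i j = vt34 i j := by decide +kernel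

def vt38 : Q7 :=
  ![![E8.e 1, E8.e 0, E8.e 0, E8.e 0, E8.e 0, E8.e 0, E8.e 0],
    ![E8.e 0, E8.e 1, E8.e 0, E8.e 0, E8.e 0, E8.e 0, E8.e 0],
    ![E8.e 0, E8.e 0, E8.e 4, E8.e 0, E8.e 0, E8.e 0, E8.e 0],
    ![E8.e 0, E8.e 0, E8.e 0, E8.e 0, E8.e 4, E8.e 0, E8.e 0],
    ![E8.e 0, E8.e 0, E8.e 0, E8.e 7, E8.e 1, E8.e 0, E8.e 0],
    ![E8.e 0, E8.e 0, E8.e 0, E8.e 0, E8.e 0, E8.e 7, E8.e 0],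
    ![E8.e 0, E8.e 0, E8.e 0, E8.e 0, E8.e 0, E8.e 0, E8.e 1]]

theorem vt38_eq : ∀ i j, qmul vt34 vt34 i j = vt38 i j := by decide +kernel

def vt316 : Q7 :=
  ![![E8.e 1, E8.e 0, E8.e 0, E8.e 0, E8.e 0, E8.e 0, E8.e 0],
    ![E8.e 0, E8.e 1, E8.e 0, E8.e 0, E8.e 0, E8.e 0, E8.e 0],
    ![E8.e 0, E8.e 0, E8.e 6, E8.e 0, E8.e 0, E8.e 0, E8.e 0],
    ![E8.e 0, E8.e 0, E8.e 0, E8.e 1, E8.e 4, E8.e 0, E8.e 0],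
    ![E8.e 0, E8.e 0, E8.e 0, E8.e 7, E8.e 0, E8.e 0, E8.e 0],
    ![E8.e 0, E8.e 0, E8.e 0, E8.e 0, E8.e 0, E8.e 3, E8.e 0],
    ![E8.e 0, E8.e 0, E8.e 0, E8.e 0, E8.e 0, E8.e 0, E8.e 1]]

theorem vt316_eq : ∀ i j, qmul vt38 vt38 i j = vt316 i j := by decide +kernel

def ut320 : Q7 :=
  ![![E8.e 1, E8.e 0, E8.e 0, E8.e 0, E8.e 0, E8.e 0, E8.e 0],
    ![E8.e 0, E8.e 1, E8.e 0, E8.e 0, E8.e 0, E8.e 0, E8.e 0],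
    ![E8.e 0, E8.e 0, E8.e 7, E8.e 0, E8.e 0, E8.e 0, E8.e 0],
    ![E8.e 0, E8.e 0, E8.e 0, E8.e 0, E8.e 4, E8.e 0, E8.e 0],
    ![E8.e 0, E8.e 0, E8.e 0, E8.e 7, E8.e 1, E8.e 0, E8.e 0],
    ![E8.e 0, E8.e 0, E8.e 0, E8.e 0, E8.e 0, E8.e 4, E8.e 0],
    ![E8.e 0, E8.e 0, E8.e 0, E8.e 0, E8.e 0, E8.e 0, E8.e 1]]

theorem ut320_eq : ∀ i j, qmul vt316 vt34 i j = ut320 i j := by decide +kernel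

def ut321 : Q7 :=
  ![![E8.e 1, E8.e 0, E8.e 0, E8.e 0, E8.e 0, E8.e 0, E8.e 0],
    ![E8.e 0, E8.e 6, E8.e 0, E8.e 0, E8.e 0, E8.e 0, E8.e 2],
    ![E8.e 0, E8.e 0, E8.e 1, E8.e 0, E8.e 0, E8.e 0, E8.e 0],
    ![E8.e 0, E8.e 0, E8.e 0, E8.e 1, E8.e 0, E8.e 0, E8.e 0],
    ![E8.e 0, E8.e 0, E8.e 0, E8.e 0, E8.e 1, E8.e 0, E8.e 0],
    ![E8.e 0, E8.e 0, E8.e 0, E8.e 0, E8.e 0, E8.e 1, E8.e 0],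
    ![E8.e 0, E8.e 4, E8.e 0, E8.e 0, E8.e 0, E8.e 0, E8.e 6]]

theorem ut321_eq : ∀ i j, qmul ut320 vt31 i j = ut321 i j := by decide +kernel

theorem t3_final : ut321 = p3_0 := by decide +kernel

theorem word_t3 (hC : Cubic ω) (hG : Gen8 ω X) (hq : InX X (toF ω gt3)) :
    specialLinear (Fin 7) F ≤ X := by
  have hg := hq
  have hx := hg
  have hw0 := step hC (inX_Yk3 hC hG) hx wt30_eq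
  have hw1 := step hC (inX_Yk2 hC hG) hx wt31_eq
  have hv1 := step hC hw0 hw1 vt31_eq
  have hv2 := step hC hv1 hv1 vt32_eq
  have hv4 := step hC hv2 hv2 vt34_eq
  have hv8 := step hC hv4 hv4 vt38_eq
  have hv16 := step hC hv8 hv8 vt316_eq
  have hu20 := step hC hv16 hv4 ut320_eq
  have hu21 := step hC hu20 hv1 ut321_eq
  rw [t3_final] at hu21
  exact sl_p3 hC hG hu21

def gt4 : Q7 :=
  ![![E8.e 1, E8.e 0, E8.e 0, E8.e 0, E8.e 0, E8.e 0, E8.e 0],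
    ![E8.e 0, E8.e 2, E8.e 0, E8.e 0, E8.e 0, E8.e 0, E8.e 3],
    ![E8.e 0, E8.e 0, E8.e 4, E8.e 0, E8.e 0, E8.e 5, E8.e 0],
    ![E8.e 0, E8.e 0, E8.e 0, E8.e 7, E8.e 6, E8.e 0, E8.e 0],
    ![E8.e 0, E8.e 0, E8.e 0, E8.e 6, E8.e 7, E8.e 0, E8.e 0],
    ![E8.e 0, E8.e 0, E8.e 5, E8.e 0, E8.e 0, E8.e 4, E8.e 0],
    ![E8.e 0, E8.e 3, E8.e 0, E8.e 0, E8.e 0, E8.e 0, E8.e 2]]

def wt40 : Q7 :=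
  ![![E8.e 1, E8.e 0, E8.e 0, E8.e 0, E8.e 0, E8.e 0, E8.e 0],
    ![E8.e 0, E8.e 4, E8.e 0, E8.e 0, E8.e 0, E8.e 0, E8.e 6],
    ![E8.e 0, E8.e 0, E8.e 6, E8.e 0, E8.e 0, E8.e 2, E8.e 0],
    ![E8.e 0, E8.e 0, E8.e 0, E8.e 2, E8.e 1, E8.e 0, E8.e 0],
    ![E8.e 0, E8.e 0, E8.e 0, E8.e 2, E8.e 4, E8.e 0, E8.e 0],
    ![E8.e 0, E8.e 0, E8.e 6, E8.e 0, E8.e 0, E8.e 1, E8.e 0],
    ![E8.e 0, E8.e 4, E8.e 0, E8.e 0, E8.e 0, E8.e 0, E8.e 1]]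

theorem wt40_eq : ∀ i j, qmul (qYk 1) gt4 i j = wt40 i j := by decide +kernel

def wt41 : Q7 :=
  ![![E8.e 1, E8.e 0, E8.e 0, E8.e 0, E8.e 0, E8.e 0, E8.e 0],
    ![E8.e 0, E8.e 6, E8.e 0, E8.e 0, E8.e 0, E8.e 0, E8.e 5],
    ![E8.e 0, E8.e 0, E8.e 2, E8.e 0, E8.e 0, E8.e 7, E8.e 0],
    ![E8.e 0, E8.e 0, E8.e 0, E8.e 1, E8.e 5, E8.e 0, E8.e 0],
    ![E8.e 0, E8.e 0, E8.e 0, E8.e 4, E8.e 3, E8.e 0, E8.e 0],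
    ![E8.e 0, E8.e 0, E8.e 1, E8.e 0, E8.e 0, E8.e 3, E8.e 0],
    ![E8.e 0, E8.e 1, E8.e 0, E8.e 0, E8.e 0, E8.e 0, E8.e 7]]

theorem wt41_eq : ∀ i j, qmul (qYk 3) gt4 i j = wt41 i j := by decide +kernel

def vt41 : Q7 :=
  ![![E8.e 1, E8.e 0, E8.e 0, E8.e 0, E8.e 0, E8.e 0, E8.e 0],
    ![E8.e 0, E8.e 3, E8.e 0, E8.e 0, E8.e 0, E8.e 0, E8.e 6],
    ![E8.e 0, E8.e 0, E8.e 5, E8.e 0, E8.e 0, E8.e 2, E8.e 0],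
    ![E8.e 0, E8.e 0, E8.e 0, E8.e 6, E8.e 2, E8.e 0, E8.e 0],
    ![E8.e 0, E8.e 0, E8.e 0, E8.e 4, E8.e 6, E8.e 0, E8.e 0],
    ![E8.e 0, E8.e 0, E8.e 6, E8.e 0, E8.e 0, E8.e 7, E8.e 0],
    ![E8.e 0, E8.e 4, E8.e 0, E8.e 0, E8.e 0, E8.e 0, E8.e 5]]

theorem vt41_eq : ∀ i j, qmul wt40 wt41 i j = vt41 i j := by decide +kernel

def vt42 : Q7 :=
  ![![E8.e 1, E8.e 0, E8.e 0, E8.e 0, E8.e 0, E8.e 0, E8.e 0],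
    ![E8.e 0, E8.e 0, E8.e 0, E8.e 0, E8.e 0, E8.e 0, E8.e 2],
    ![E8.e 0, E8.e 0, E8.e 0, E8.e 0, E8.e 0, E8.e 4, E8.e 0],
    ![E8.e 0, E8.e 0, E8.e 0, E8.e 1, E8.e 0, E8.e 0, E8.e 0],
    ![E8.e 0, E8.e 0, E8.e 0, E8.e 0, E8.e 1, E8.e 0, E8.e 0],
    ![E8.e 0, E8.e 0, E8.e 7, E8.e 0, E8.e 0, E8.e 4, E8.e 0],
    ![E8.e 0, E8.e 5, E8.e 0, E8.e 0, E8.e 0, E8.e 0, E8.e 2]]

theorem vt42_eq : ∀ i j, qmul vt41 vt41 i j = vt42 i j := by decide +kernel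

def vt44 : Q7 :=
  ![![E8.e 1, E8.e 0, E8.e 0, E8.e 0, E8.e 0, E8.e 0, E8.e 0],
    ![E8.e 0, E8.e 1, E8.e 0, E8.e 0, E8.e 0, E8.e 0, E8.e 4],
    ![E8.e 0, E8.e 0, E8.e 1, E8.e 0, E8.e 0, E8.e 6, E8.e 0],
    ![E8.e 0, E8.e 0, E8.e 0, E8.e 1, E8.e 0, E8.e 0, E8.e 0],
    ![E8.e 0, E8.e 0, E8.e 0, E8.e 0, E8.e 1, E8.e 0, E8.e 0],
    ![E8.e 0, E8.e 0, E8.e 1, E8.e 0, E8.e 0, E8.e 7, E8.e 0],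
    ![E8.e 0, E8.e 1, E8.e 0, E8.e 0, E8.e 0, E8.e 0, E8.e 5]]

theorem vt44_eq : ∀ i j, qmul vt42 vt42 i j = vt44 i j := by decide +kernel

def vt48 : Q7 :=
  ![![E8.e 1, E8.e 0, E8.e 0, E8.e 0, E8.e 0, E8.e 0, E8.e 0],
    ![E8.e 0, E8.e 5, E8.e 0, E8.e 0, E8.e 0, E8.e 0, E8.e 6],
    ![E8.e 0, E8.e 0, E8.e 7, E8.e 0, E8.e 0, E8.e 2, E8.e 0],
    ![E8.e 0, E8.e 0, E8.e 0, E8.e 1, E8.e 0, E8.e 0, E8.e 0],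
    ![E8.e 0, E8.e 0, E8.e 0, E8.e 0, E8.e 1, E8.e 0, E8.e 0],
    ![E8.e 0, E8.e 0, E8.e 6, E8.e 0, E8.e 0, E8.e 5, E8.e 0],
    ![E8.e 0, E8.e 4, E8.e 0, E8.e 0, E8.e 0, E8.e 0, E8.e 3]]

theorem vt48_eq : ∀ i j, qmul vt44 vt44 i j = vt48 i j := by decide +kernel

def ut49 : Q7 :=
  ![![E8.e 1, E8.e 0, E8.e 0, E8.e 0, E8.e 0, E8.e 0, E8.e 0],
    ![E8.e 0, E8.e 1, E8.e 0, E8.e 0, E8.e 0, E8.e 0, E8.e 0],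
    ![E8.e 0, E8.e 0, E8.e 1, E8.e 0, E8.e 0, E8.e 0, E8.e 0],
    ![E8.e 0, E8.e 0, E8.e 0, E8.e 6, E8.e 2, E8.e 0, E8.e 0],
    ![E8.e 0, E8.e 0, E8.e 0, E8.e 4, E8.e 6, E8.e 0, E8.e 0],
    ![E8.e 0, E8.e 0, E8.e 0, E8.e 0, E8.e 0, E8.e 1, E8.e 0],
    ![E8.e 0, E8.e 0, E8.e 0, E8.e 0, E8.e 0, E8.e 0, E8.e 1]]

theorem ut49_eq : ∀ i j, qmul vt48 vt41 i j = ut49 i j := by decide +kernel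

theorem t4_final : ut49 = c_0 := by decide +kernel

theorem word_t4 (hC : Cubic ω) (hG : Gen8 ω X) (hq : InX X (toF ω gt4)) :
    specialLinear (Fin 7) F ≤ X := by
  have hg := hq
  have hx := hg
  have hw0 := step hC (inX_Yk1 hC hG) hx wt40_eq
  have hw1 := step hC (inX_Yk3 hC hG) hx wt41_eq
  have hv1 := step hC hw0 hw1 vt41_eq
  have hv2 := step hC hv1 hv1 vt42_eq
  have hv4 := step hC hv2 hv2 vt44_eq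
  have hv8 := step hC hv4 hv4 vt48_eq
  have hu9 := step hC hv8 hv1 ut49_eq
  rw [t4_final] at hu9
  exact sl_c hC hG hu9

def gt5 : Q7 :=
  ![![E8.e 1, E8.e 0, E8.e 0, E8.e 0, E8.e 0, E8.e 0, E8.e 0],
    ![E8.e 0, E8.e 0, E8.e 0, E8.e 0, E8.e 0, E8.e 0, E8.e 1],
    ![E8.e 0, E8.e 0, E8.e 2, E8.e 0, E8.e 0, E8.e 3, E8.e 0],
    ![E8.e 0, E8.e 0, E8.e 0, E8.e 3, E8.e 2, E8.e 0, E8.e 0],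
    ![E8.e 0, E8.e 0, E8.e 0, E8.e 2, E8.e 3, E8.e 0, E8.e 0],
    ![E8.e 0, E8.e 0, E8.e 3, E8.e 0, E8.e 0, E8.e 2, E8.e 0],
    ![E8.e 0, E8.e 1, E8.e 0, E8.e 0, E8.e 0, E8.e 0, E8.e 0]]

def ht5 : Q7 :=
  ![![E8.e 1, E8.e 0, E8.e 0, E8.e 0, E8.e 0, E8.e 0, E8.e 0],
    ![E8.e 0, E8.e 1, E8.e 0, E8.e 0, E8.e 0, E8.e 0, E8.e 0],
    ![E8.e 0, E8.e 0, E8.e 3, E8.e 0, E8.e 0, E8.e 2, E8.e 0],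
    ![E8.e 0, E8.e 0, E8.e 0, E8.e 2, E8.e 3, E8.e 0, E8.e 0],
    ![E8.e 0, E8.e 0, E8.e 0, E8.e 3, E8.e 2, E8.e 0, E8.e 0],
    ![E8.e 0, E8.e 0, E8.e 2, E8.e 0, E8.e 0, E8.e 3, E8.e 0],
    ![E8.e 0, E8.e 0, E8.e 0, E8.e 0, E8.e 0, E8.e 0, E8.e 1]]

theorem ht5_eq : ∀ i j, qmul gt5 qZ i j = ht5 i j := by decide +kernel

def wt50 : Q7 :=
  ![![E8.e 1, E8.e 0, E8.e 0, E8.e 0, E8.e 0, E8.e 0, E8.e 0],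
    ![E8.e 0, E8.e 4, E8.e 0, E8.e 0, E8.e 0, E8.e 0, E8.e 0],
    ![E8.e 0, E8.e 0, E8.e 1, E8.e 0, E8.e 0, E8.e 7, E8.e 0],
    ![E8.e 0, E8.e 0, E8.e 0, E8.e 1, E8.e 4, E8.e 0, E8.e 0],
    ![E8.e 0, E8.e 0, E8.e 0, E8.e 6, E8.e 4, E8.e 0, E8.e 0],
    ![E8.e 0, E8.e 0, E8.e 6, E8.e 0, E8.e 0, E8.e 5, E8.e 0],
    ![E8.e 0, E8.e 0, E8.e 0, E8.e 0, E8.e 0, E8.e 0, E8.e 7]]

theorem wt50_eq : ∀ i j, qmul (qYk 2) ht5 i j = wt50 i j := by decide +kernel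

def wt51 : Q7 :=
  ![![E8.e 1, E8.e 0, E8.e 0, E8.e 0, E8.e 0, E8.e 0, E8.e 0],
    ![E8.e 0, E8.e 2, E8.e 0, E8.e 0, E8.e 0, E8.e 0, E8.e 0],
    ![E8.e 0, E8.e 0, E8.e 7, E8.e 0, E8.e 0, E8.e 3, E8.e 0],
    ![E8.e 0, E8.e 0, E8.e 0, E8.e 6, E8.e 5, E8.e 0, E8.e 0],
    ![E8.e 0, E8.e 0, E8.e 0, E8.e 1, E8.e 7, E8.e 0, E8.e 0],
    ![E8.e 0, E8.e 0, E8.e 5, E8.e 0, E8.e 0, E8.e 2, E8.e 0],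
    ![E8.e 0, E8.e 0, E8.e 0, E8.e 0, E8.e 0, E8.e 0, E8.e 5]]

theorem wt51_eq : ∀ i j, qmul (qYk 1) ht5 i j = wt51 i j := by decide +kernel

def vt51 : Q7 :=
  ![![E8.e 1, E8.e 0, E8.e 0, E8.e 0, E8.e 0, E8.e 0, E8.e 0],
    ![E8.e 0, E8.e 3, E8.e 0, E8.e 0, E8.e 0, E8.e 0, E8.e 0],
    ![E8.e 0, E8.e 0, E8.e 1, E8.e 0, E8.e 0, E8.e 6, E8.e 0],
    ![E8.e 0, E8.e 0, E8.e 0, E8.e 2, E8.e 4, E8.e 0, E8.e 0],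
    ![E8.e 0, E8.e 0, E8.e 0, E8.e 6, E8.e 2, E8.e 0, E8.e 0],
    ![E8.e 0, E8.e 0, E8.e 3, E8.e 0, E8.e 0, E8.e 0, E8.e 0],
    ![E8.e 0, E8.e 0, E8.e 0, E8.e 0, E8.e 0, E8.e 0, E8.e 6]]

theorem vt51_eq : ∀ i j, qmul wt50 wt51 i j = vt51 i j := by decide +kernel

def vt52 : Q7 :=
  ![![E8.e 1, E8.e 0, E8.e 0, E8.e 0, E8.e 0, E8.e 0, E8.e 0],
    ![E8.e 0, E8.e 5, E8.e 0, E8.e 0, E8.e 0, E8.e 0, E8.e 0],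
    ![E8.e 0, E8.e 0, E8.e 0, E8.e 0, E8.e 0, E8.e 6, E8.e 0],
    ![E8.e 0, E8.e 0, E8.e 0, E8.e 1, E8.e 0, E8.e 0, E8.e 0],
    ![E8.e 0, E8.e 0, E8.e 0, E8.e 0, E8.e 1, E8.e 0, E8.e 0],
    ![E8.e 0, E8.e 0, E8.e 3, E8.e 0, E8.e 0, E8.e 1, E8.e 0],
    ![E8.e 0, E8.e 0, E8.e 0, E8.e 0, E8.e 0, E8.e 0, E8.e 2]]

theorem vt52_eq : ∀ i j, qmul vt51 vt51 i j = vt52 i j := by decide +kernel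

def vt54 : Q7 :=
  ![![E8.e 1, E8.e 0, E8.e 0, E8.e 0, E8.e 0, E8.e 0, E8.e 0],
    ![E8.e 0, E8.e 7, E8.e 0, E8.e 0, E8.e 0, E8.e 0, E8.e 0],
    ![E8.e 0, E8.e 0, E8.e 1, E8.e 0, E8.e 0, E8.e 6, E8.e 0],
    ![E8.e 0, E8.e 0, E8.e 0, E8.e 1, E8.e 0, E8.e 0, E8.e 0],
    ![E8.e 0, E8.e 0, E8.e 0, E8.e 0, E8.e 1, E8.e 0, E8.e 0],
    ![E8.e 0, E8.e 0, E8.e 3, E8.e 0, E8.e 0, E8.e 0, E8.e 0],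
    ![E8.e 0, E8.e 0, E8.e 0, E8.e 0, E8.e 0, E8.e 0, E8.e 4]]

theorem vt54_eq : ∀ i j, qmul vt52 vt52 i j = vt54 i j := by decide +kernel

def vt58 : Q7 :=
  ![![E8.e 1, E8.e 0, E8.e 0, E8.e 0, E8.e 0, E8.e 0, E8.e 0],
    ![E8.e 0, E8.e 3, E8.e 0, E8.e 0, E8.e 0, E8.e 0, E8.e 0],
    ![E8.e 0, E8.e 0, E8.e 0, E8.e 0, E8.e 0, E8.e 6, E8.e 0],
    ![E8.e 0, E8.e 0, E8.e 0, E8.e 1, E8.e 0, E8.e 0, E8.e 0],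
    ![E8.e 0, E8.e 0, E8.e 0, E8.e 0, E8.e 1, E8.e 0, E8.e 0],
    ![E8.e 0, E8.e 0, E8.e 3, E8.e 0, E8.e 0, E8.e 1, E8.e 0],
    ![E8.e 0, E8.e 0, E8.e 0, E8.e 0, E8.e 0, E8.e 0, E8.e 6]]

theorem vt58_eq : ∀ i j, qmul vt54 vt54 i j = vt58 i j := by decide +kernel

def vt516 : Q7 :=
  ![![E8.e 1, E8.e 0, E8.e 0, E8.e 0, E8.e 0, E8.e 0, E8.e 0],
    ![E8.e 0, E8.e 5, E8.e 0, E8.e 0, E8.e 0, E8.e 0, E8.e 0],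
    ![E8.e 0, E8.e 0, E8.e 1, E8.e 0, E8.e 0, E8.e 6, E8.e 0],
    ![E8.e 0, E8.e 0, E8.e 0, E8.e 1, E8.e 0, E8.e 0, E8.e 0],
    ![E8.e 0, E8.e 0, E8.e 0, E8.e 0, E8.e 1, E8.e 0, E8.e 0],
    ![E8.e 0, E8.e 0, E8.e 3, E8.e 0, E8.e 0, E8.e 0, E8.e 0],
    ![E8.e 0, E8.e 0, E8.e 0, E8.e 0, E8.e 0, E8.e 0, E8.e 2]]

theorem vt516_eq : ∀ i j, qmul vt58 vt58 i j = vt516 i j := by decide +kernel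

def ut520 : Q7 :=
  ![![E8.e 1, E8.e 0, E8.e 0, E8.e 0, E8.e 0, E8.e 0, E8.e 0],
    ![E8.e 0, E8.e 6, E8.e 0, E8.e 0, E8.e 0, E8.e 0, E8.e 0],
    ![E8.e 0, E8.e 0, E8.e 0, E8.e 0, E8.e 0, E8.e 6, E8.e 0],
    ![E8.e 0, E8.e 0, E8.e 0, E8.e 1, E8.e 0, E8.e 0, E8.e 0],
    ![E8.e 0, E8.e 0, E8.e 0, E8.e 0, E8.e 1, E8.e 0, E8.e 0],
    ![E8.e 0, E8.e 0, E8.e 3, E8.e 0, E8.e 0, E8.e 1, E8.e 0],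
    ![E8.e 0, E8.e 0, E8.e 0, E8.e 0, E8.e 0, E8.e 0, E8.e 3]]

theorem ut520_eq : ∀ i j, qmul vt516 vt54 i j = ut520 i j := by decide +kernel

def ut521 : Q7 :=
  ![![E8.e 1, E8.e 0, E8.e 0, E8.e 0, E8.e 0, E8.e 0, E8.e 0],
    ![E8.e 0, E8.e 1, E8.e 0, E8.e 0, E8.e 0, E8.e 0, E8.e 0],
    ![E8.e 0, E8.e 0, E8.e 1, E8.e 0, E8.e 0, E8.e 0, E8.e 0],
    ![E8.e 0, E8.e 0, E8.e 0, E8.e 2, E8.e 4, E8.e 0, E8.e 0],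
    ![E8.e 0, E8.e 0, E8.e 0, E8.e 6, E8.e 2, E8.e 0, E8.e 0],
    ![E8.e 0, E8.e 0, E8.e 0, E8.e 0, E8.e 0, E8.e 1, E8.e 0],
    ![E8.e 0, E8.e 0, E8.e 0, E8.e 0, E8.e 0, E8.e 0, E8.e 1]]

theorem ut521_eq : ∀ i j, qmul ut520 vt51 i j = ut521 i j := by decide +kernel

theorem t5_final : ut521 = p5_0 := by decide +kernel

theorem word_t5 (hC : Cubic ω) (hG : Gen8 ω X) (hq : InX X (toF ω gt5)) :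
    specialLinear (Fin 7) F ≤ X := by
  have hg := hq
  have hx := step hC hg (inX_qZ hC hG) ht5_eq
  have hw0 := step hC (inX_Yk2 hC hG) hx wt50_eq
  have hw1 := step hC (inX_Yk1 hC hG) hx wt51_eq
  have hv1 := step hC hw0 hw1 vt51_eq
  have hv2 := step hC hv1 hv1 vt52_eq
  have hv4 := step hC hv2 hv2 vt54_eq
  have hv8 := step hC hv4 hv4 vt58_eq
  have hv16 := step hC hv8 hv8 vt516_eq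
  have hu20 := step hC hv16 hv4 ut520_eq
  have hu21 := step hC hu20 hv1 ut521_eq
  rw [t5_final] at hu21
  exact sl_p5 hC hG hu21

def gt6 : Q7 :=
  ![![E8.e 1, E8.e 0, E8.e 0, E8.e 0, E8.e 0, E8.e 0, E8.e 0],
    ![E8.e 0, E8.e 6, E8.e 0, E8.e 0, E8.e 0, E8.e 0, E8.e 7],
    ![E8.e 0, E8.e 0, E8.e 3, E8.e 0, E8.e 0, E8.e 2, E8.e 0],
    ![E8.e 0, E8.e 0, E8.e 0, E8.e 4, E8.e 5, E8.e 0, E8.e 0],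
    ![E8.e 0, E8.e 0, E8.e 0, E8.e 5, E8.e 4, E8.e 0, E8.e 0],
    ![E8.e 0, E8.e 0, E8.e 2, E8.e 0, E8.e 0, E8.e 3, E8.e 0],
    ![E8.e 0, E8.e 7, E8.e 0, E8.e 0, E8.e 0, E8.e 0, E8.e 6]]

def wt60 : Q7 :=
  ![![E8.e 1, E8.e 0, E8.e 0, E8.e 0, E8.e 0, E8.e 0, E8.e 0],
    ![E8.e 0, E8.e 1, E8.e 0, E8.e 0, E8.e 0, E8.e 0, E8.e 2],
    ![E8.e 0, E8.e 0, E8.e 4, E8.e 0, E8.e 0, E8.e 1, E8.e 0],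
    ![E8.e 0, E8.e 0, E8.e 0, E8.e 6, E8.e 2, E8.e 0, E8.e 0],
    ![E8.e 0, E8.e 0, E8.e 0, E8.e 6, E8.e 1, E8.e 0, E8.e 0],
    ![E8.e 0, E8.e 0, E8.e 4, E8.e 0, E8.e 0, E8.e 6, E8.e 0],
    ![E8.e 0, E8.e 4, E8.e 0, E8.e 0, E8.e 0, E8.e 0, E8.e 2]]

theorem wt60_eq : ∀ i j, qmul (qYk 3) gt6 i j = wt60 i j := by decide +kernel

def wt61 : Q7 :=
  ![![E8.e 1, E8.e 0, E8.e 0, E8.e 0, E8.e 0, E8.e 0, E8.e 0],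
    ![E8.e 0, E8.e 5, E8.e 0, E8.e 0, E8.e 0, E8.e 0, E8.e 1],
    ![E8.e 0, E8.e 0, E8.e 1, E8.e 0, E8.e 0, E8.e 7, E8.e 0],
    ![E8.e 0, E8.e 0, E8.e 0, E8.e 2, E8.e 7, E8.e 0, E8.e 0],
    ![E8.e 0, E8.e 0, E8.e 0, E8.e 1, E8.e 3, E8.e 0, E8.e 0],
    ![E8.e 0, E8.e 0, E8.e 6, E8.e 0, E8.e 0, E8.e 5, E8.e 0],
    ![E8.e 0, E8.e 3, E8.e 0, E8.e 0, E8.e 0, E8.e 0, E8.e 4]]

theorem wt61_eq : ∀ i j, qmul (qYk 2) gt6 i j = wt61 i j := by decide +kernel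

def vt61 : Q7 :=
  ![![E8.e 1, E8.e 0, E8.e 0, E8.e 0, E8.e 0, E8.e 0, E8.e 0],
    ![E8.e 0, E8.e 3, E8.e 0, E8.e 0, E8.e 0, E8.e 0, E8.e 2],
    ![E8.e 0, E8.e 0, E8.e 2, E8.e 0, E8.e 0, E8.e 4, E8.e 0],
    ![E8.e 0, E8.e 0, E8.e 0, E8.e 5, E8.e 2, E8.e 0, E8.e 0],
    ![E8.e 0, E8.e 0, E8.e 0, E8.e 6, E8.e 7, E8.e 0, E8.e 0],
    ![E8.e 0, E8.e 0, E8.e 6, E8.e 0, E8.e 0, E8.e 2, E8.e 0],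
    ![E8.e 0, E8.e 4, E8.e 0, E8.e 0, E8.e 0, E8.e 0, E8.e 7]]

theorem vt61_eq : ∀ i j, qmul wt60 wt61 i j = vt61 i j := by decide +kernel

def vt62 : Q7 :=
  ![![E8.e 1, E8.e 0, E8.e 0, E8.e 0, E8.e 0, E8.e 0, E8.e 0],
    ![E8.e 0, E8.e 6, E8.e 0, E8.e 0, E8.e 0, E8.e 0, E8.e 3],
    ![E8.e 0, E8.e 0, E8.e 1, E8.e 0, E8.e 0, E8.e 0, E8.e 0],
    ![E8.e 0, E8.e 0, E8.e 0, E8.e 0, E8.e 4, E8.e 0, E8.e 0],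
    ![E8.e 0, E8.e 0, E8.e 0, E8.e 7, E8.e 4, E8.e 0, E8.e 0],
    ![E8.e 0, E8.e 0, E8.e 0, E8.e 0, E8.e 0, E8.e 1, E8.e 0],
    ![E8.e 0, E8.e 6, E8.e 0, E8.e 0, E8.e 0, E8.e 0, E8.e 0]]

theorem vt62_eq : ∀ i j, qmul vt61 vt61 i j = vt62 i j := by decide +kernel

def vt64 : Q7 :=
  ![![E8.e 1, E8.e 0, E8.e 0, E8.e 0, E8.e 0, E8.e 0, E8.e 0],
    ![E8.e 0, E8.e 3, E8.e 0, E8.e 0, E8.e 0, E8.e 0, E8.e 1],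
    ![E8.e 0, E8.e 0, E8.e 1, E8.e 0, E8.e 0, E8.e 0, E8.e 0],
    ![E8.e 0, E8.e 0, E8.e 0, E8.e 1, E8.e 6, E8.e 0, E8.e 0],
    ![E8.e 0, E8.e 0, E8.e 0, E8.e 1, E8.e 7, E8.e 0, E8.e 0],
    ![E8.e 0, E8.e 0, E8.e 0, E8.e 0, E8.e 0, E8.e 1, E8.e 0],
    ![E8.e 0, E8.e 2, E8.e 0, E8.e 0, E8.e 0, E8.e 0, E8.e 1]]

theorem vt64_eq : ∀ i j, qmul vt62 vt62 i j = vt64 i j := by decide +kernel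

def vt68 : Q7 :=
  ![![E8.e 1, E8.e 0, E8.e 0, E8.e 0, E8.e 0, E8.e 0, E8.e 0],
    ![E8.e 0, E8.e 7, E8.e 0, E8.e 0, E8.e 0, E8.e 0, E8.e 2],
    ![E8.e 0, E8.e 0, E8.e 1, E8.e 0, E8.e 0, E8.e 0, E8.e 0],
    ![E8.e 0, E8.e 0, E8.e 0, E8.e 7, E8.e 2, E8.e 0, E8.e 0],
    ![E8.e 0, E8.e 0, E8.e 0, E8.e 6, E8.e 5, E8.e 0, E8.e 0],
    ![E8.e 0, E8.e 0, E8.e 0, E8.e 0, E8.e 0, E8.e 1, E8.e 0],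
    ![E8.e 0, E8.e 4, E8.e 0, E8.e 0, E8.e 0, E8.e 0, E8.e 3]]

theorem vt68_eq : ∀ i j, qmul vt64 vt64 i j = vt68 i j := by decide +kernel

def ut69 : Q7 :=
  ![![E8.e 1, E8.e 0, E8.e 0, E8.e 0, E8.e 0, E8.e 0, E8.e 0],
    ![E8.e 0, E8.e 1, E8.e 0, E8.e 0, E8.e 0, E8.e 0, E8.e 0],
    ![E8.e 0, E8.e 0, E8.e 2, E8.e 0, E8.e 0, E8.e 4, E8.e 0],
    ![E8.e 0, E8.e 0, E8.e 0, E8.e 1, E8.e 0, E8.e 0, E8.e 0],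
    ![E8.e 0, E8.e 0, E8.e 0, E8.e 0, E8.e 1, E8.e 0, E8.e 0],
    ![E8.e 0, E8.e 0, E8.e 6, E8.e 0, E8.e 0, E8.e 2, E8.e 0],
    ![E8.e 0, E8.e 0, E8.e 0, E8.e 0, E8.e 0, E8.e 0, E8.e 1]]

theorem ut69_eq : ∀ i j, qmul vt68 vt61 i j = ut69 i j := by decide +kernel

theorem t6_final : ut69 = p6_0 := by decide +kernel

theorem word_t6 (hC : Cubic ω) (hG : Gen8 ω X) (hq : InX X (toF ω gt6)) :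
    specialLinear (Fin 7) F ≤ X := by
  have hg := hq
  have hx := hg
  have hw0 := step hC (inX_Yk3 hC hG) hx wt60_eq
  have hw1 := step hC (inX_Yk2 hC hG) hx wt61_eq
  have hv1 := step hC hw0 hw1 vt61_eq
  have hv2 := step hC hv1 hv1 vt62_eq
  have hv4 := step hC hv2 hv2 vt64_eq
  have hv8 := step hC hv4 hv4 vt68_eq
  have hu9 := step hC hv8 hv1 ut69_eq
  rw [t6_final] at hu9
  exact sl_p6 hC hG hu9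

def gt7 : Q7 :=
  ![![E8.e 1, E8.e 0, E8.e 0, E8.e 0, E8.e 0, E8.e 0, E8.e 0],
    ![E8.e 0, E8.e 4, E8.e 0, E8.e 0, E8.e 0, E8.e 0, E8.e 5],
    ![E8.e 0, E8.e 0, E8.e 5, E8.e 0, E8.e 0, E8.e 4, E8.e 0],
    ![E8.e 0, E8.e 0, E8.e 0, E8.e 0, E8.e 1, E8.e 0, E8.e 0],
    ![E8.e 0, E8.e 0, E8.e 0, E8.e 1, E8.e 0, E8.e 0, E8.e 0],
    ![E8.e 0, E8.e 0, E8.e 4, E8.e 0, E8.e 0, E8.e 5, E8.e 0],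
    ![E8.e 0, E8.e 5, E8.e 0, E8.e 0, E8.e 0, E8.e 0, E8.e 4]]

def wt70 : Q7 :=
  ![![E8.e 1, E8.e 0, E8.e 0, E8.e 0, E8.e 0, E8.e 0, E8.e 0],
    ![E8.e 0, E8.e 3, E8.e 0, E8.e 0, E8.e 0, E8.e 0, E8.e 1],
    ![E8.e 0, E8.e 0, E8.e 2, E8.e 0, E8.e 0, E8.e 6, E8.e 0],
    ![E8.e 0, E8.e 0, E8.e 0, E8.e 0, E8.e 3, E8.e 0, E8.e 0],
    ![E8.e 0, E8.e 0, E8.e 0, E8.e 6, E8.e 0, E8.e 0, E8.e 0],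
    ![E8.e 0, E8.e 0, E8.e 1, E8.e 0, E8.e 0, E8.e 6, E8.e 0],
    ![E8.e 0, E8.e 7, E8.e 0, E8.e 0, E8.e 0, E8.e 0, E8.e 2]]

theorem wt70_eq : ∀ i j, qmul (qYk 1) gt7 i j = wt70 i j := by decide +kernel

def wt71 : Q7 :=
  ![![E8.e 1, E8.e 0, E8.e 0, E8.e 0, E8.e 0, E8.e 0, E8.e 0],
    ![E8.e 0, E8.e 7, E8.e 0, E8.e 0, E8.e 0, E8.e 0, E8.e 4],
    ![E8.e 0, E8.e 0, E8.e 7, E8.e 0, E8.e 0, E8.e 2, E8.e 0],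
    ![E8.e 0, E8.e 0, E8.e 0, E8.e 0, E8.e 4, E8.e 0, E8.e 0],
    ![E8.e 0, E8.e 0, E8.e 0, E8.e 7, E8.e 0, E8.e 0, E8.e 0],
    ![E8.e 0, E8.e 0, E8.e 3, E8.e 0, E8.e 0, E8.e 1, E8.e 0],
    ![E8.e 0, E8.e 3, E8.e 0, E8.e 0, E8.e 0, E8.e 0, E8.e 5]]

theorem wt71_eq : ∀ i j, qmul (qYk 3) gt7 i j = wt71 i j := by decide +kernel

def vt71 : Q7 :=
  ![![E8.e 1, E8.e 0, E8.e 0, E8.e 0, E8.e 0, E8.e 0, E8.e 0],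
    ![E8.e 0, E8.e 1, E8.e 0, E8.e 0, E8.e 0, E8.e 0, E8.e 2],
    ![E8.e 0, E8.e 0, E8.e 4, E8.e 0, E8.e 0, E8.e 2, E8.e 0],
    ![E8.e 0, E8.e 0, E8.e 0, E8.e 2, E8.e 0, E8.e 0, E8.e 0],
    ![E8.e 0, E8.e 0, E8.e 0, E8.e 0, E8.e 5, E8.e 0, E8.e 0],
    ![E8.e 0, E8.e 0, E8.e 6, E8.e 0, E8.e 0, E8.e 4, E8.e 0],
    ![E8.e 0, E8.e 5, E8.e 0, E8.e 0, E8.e 0, E8.e 0, E8.e 0]]

theorem vt71_eq : ∀ i j, qmul wt70 wt71 i j = vt71 i j := by decide +kernel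

def vt72 : Q7 :=
  ![![E8.e 1, E8.e 0, E8.e 0, E8.e 0, E8.e 0, E8.e 0, E8.e 0],
    ![E8.e 0, E8.e 0, E8.e 0, E8.e 0, E8.e 0, E8.e 0, E8.e 2],
    ![E8.e 0, E8.e 0, E8.e 1, E8.e 0, E8.e 0, E8.e 0, E8.e 0],
    ![E8.e 0, E8.e 0, E8.e 0, E8.e 4, E8.e 0, E8.e 0, E8.e 0],
    ![E8.e 0, E8.e 0, E8.e 0, E8.e 0, E8.e 7, E8.e 0, E8.e 0],
    ![E8.e 0, E8.e 0, E8.e 0, E8.e 0, E8.e 0, E8.e 1, E8.e 0],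
    ![E8.e 0, E8.e 5, E8.e 0, E8.e 0, E8.e 0, E8.e 0, E8.e 1]]

theorem vt72_eq : ∀ i j, qmul vt71 vt71 i j = vt72 i j := by decide +kernel

def vt74 : Q7 :=
  ![![E8.e 1, E8.e 0, E8.e 0, E8.e 0, E8.e 0, E8.e 0, E8.e 0],
    ![E8.e 0, E8.e 1, E8.e 0, E8.e 0, E8.e 0, E8.e 0, E8.e 2],
    ![E8.e 0, E8.e 0, E8.e 1, E8.e 0, E8.e 0, E8.e 0, E8.e 0],
    ![E8.e 0, E8.e 0, E8.e 0, E8.e 6, E8.e 0, E8.e 0, E8.e 0],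
    ![E8.e 0, E8.e 0, E8.e 0, E8.e 0, E8.e 3, E8.e 0, E8.e 0],
    ![E8.e 0, E8.e 0, E8.e 0, E8.e 0, E8.e 0, E8.e 1, E8.e 0],
    ![E8.e 0, E8.e 5, E8.e 0, E8.e 0, E8.e 0, E8.e 0, E8.e 0]]

theorem vt74_eq : ∀ i j, qmul vt72 vt72 i j = vt74 i j := by decide +kernel

def vt78 : Q7 :=
  ![![E8.e 1, E8.e 0, E8.e 0, E8.e 0, E8.e 0, E8.e 0, E8.e 0],
    ![E8.e 0, E8.e 0, E8.e 0, E8.e 0, E8.e 0, E8.e 0, E8.e 2],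
    ![E8.e 0, E8.e 0, E8.e 1, E8.e 0, E8.e 0, E8.e 0, E8.e 0],
    ![E8.e 0, E8.e 0, E8.e 0, E8.e 2, E8.e 0, E8.e 0, E8.e 0],
    ![E8.e 0, E8.e 0, E8.e 0, E8.e 0, E8.e 5, E8.e 0, E8.e 0],
    ![E8.e 0, E8.e 0, E8.e 0, E8.e 0, E8.e 0, E8.e 1, E8.e 0],
    ![E8.e 0, E8.e 5, E8.e 0, E8.e 0, E8.e 0, E8.e 0, E8.e 1]]

theorem vt78_eq : ∀ i j, qmul vt74 vt74 i j = vt78 i j := by decide +kernel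

def vt716 : Q7 :=
  ![![E8.e 1, E8.e 0, E8.e 0, E8.e 0, E8.e 0, E8.e 0, E8.e 0],
    ![E8.e 0, E8.e 1, E8.e 0, E8.e 0, E8.e 0, E8.e 0, E8.e 2],
    ![E8.e 0, E8.e 0, E8.e 1, E8.e 0, E8.e 0, E8.e 0, E8.e 0],
    ![E8.e 0, E8.e 0, E8.e 0, E8.e 4, E8.e 0, E8.e 0, E8.e 0],
    ![E8.e 0, E8.e 0, E8.e 0, E8.e 0, E8.e 7, E8.e 0, E8.e 0],
    ![E8.e 0, E8.e 0, E8.e 0, E8.e 0, E8.e 0, E8.e 1, E8.e 0],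
    ![E8.e 0, E8.e 5, E8.e 0, E8.e 0, E8.e 0, E8.e 0, E8.e 0]]

theorem vt716_eq : ∀ i j, qmul vt78 vt78 i j = vt716 i j := by decide +kernel

def ut720 : Q7 :=
  ![![E8.e 1, E8.e 0, E8.e 0, E8.e 0, E8.e 0, E8.e 0, E8.e 0],
    ![E8.e 0, E8.e 0, E8.e 0, E8.e 0, E8.e 0, E8.e 0, E8.e 2],
    ![E8.e 0, E8.e 0, E8.e 1, E8.e 0, E8.e 0, E8.e 0, E8.e 0],
    ![E8.e 0, E8.e 0, E8.e 0, E8.e 5, E8.e 0, E8.e 0, E8.e 0],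
    ![E8.e 0, E8.e 0, E8.e 0, E8.e 0, E8.e 2, E8.e 0, E8.e 0],
    ![E8.e 0, E8.e 0, E8.e 0, E8.e 0, E8.e 0, E8.e 1, E8.e 0],
    ![E8.e 0, E8.e 5, E8.e 0, E8.e 0, E8.e 0, E8.e 0, E8.e 1]]

theorem ut720_eq : ∀ i j, qmul vt716 vt74 i j = ut720 i j := by decide +kernel

def ut721 : Q7 :=
  ![![E8.e 1, E8.e 0, E8.e 0, E8.e 0, E8.e 0, E8.e 0, E8.e 0],
    ![E8.e 0, E8.e 1, E8.e 0, E8.e 0, E8.e 0, E8.e 0, E8.e 0],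
    ![E8.e 0, E8.e 0, E8.e 4, E8.e 0, E8.e 0, E8.e 2, E8.e 0],
    ![E8.e 0, E8.e 0, E8.e 0, E8.e 1, E8.e 0, E8.e 0, E8.e 0],
    ![E8.e 0, E8.e 0, E8.e 0, E8.e 0, E8.e 1, E8.e 0, E8.e 0],
    ![E8.e 0, E8.e 0, E8.e 6, E8.e 0, E8.e 0, E8.e 4, E8.e 0],
    ![E8.e 0, E8.e 0, E8.e 0, E8.e 0, E8.e 0, E8.e 0, E8.e 1]]

theorem ut721_eq : ∀ i j, qmul ut720 vt71 i j = ut721 i j := by decide +kernel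

theorem t7_final : ut721 = b_0 := by decide +kernel

theorem word_t7 (hC : Cubic ω) (hG : Gen8 ω X) (hq : InX X (toF ω gt7)) :
    specialLinear (Fin 7) F ≤ X := by
  have hg := hq
  have hx := hg
  have hw0 := step hC (inX_Yk1 hC hG) hx wt70_eq
  have hw1 := step hC (inX_Yk3 hC hG) hx wt71_eq
  have hv1 := step hC hw0 hw1 vt71_eq
  have hv2 := step hC hv1 hv1 vt72_eq
  have hv4 := step hC hv2 hv2 vt74_eq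
  have hv8 := step hC hv4 hv4 vt78_eq
  have hv16 := step hC hv8 hv8 vt716_eq
  have hu20 := step hC hv16 hv4 ut720_eq
  have hu21 := step hC hu20 hv1 ut721_eq
  rw [t7_final] at hu21
  exact sl_b hC hG hu21

def gl : Q7 :=
  ![![E8.e 1, E8.e 0, E8.e 0, E8.e 0, E8.e 0, E8.e 0, E8.e 0],
    ![E8.e 1, E8.e 1, E8.e 1, E8.e 0, E8.e 0, E8.e 1, E8.e 0],
    ![E8.e 1, E8.e 0, E8.e 1, E8.e 1, E8.e 1, E8.e 0, E8.e 0],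
    ![E8.e 1, E8.e 1, E8.e 0, E8.e 1, E8.e 0, E8.e 0, E8.e 1],
    ![E8.e 1, E8.e 1, E8.e 0, E8.e 0, E8.e 1, E8.e 0, E8.e 1],
    ![E8.e 1, E8.e 0, E8.e 0, E8.e 1, E8.e 1, E8.e 1, E8.e 0],
    ![E8.e 1, E8.e 0, E8.e 1, E8.e 0, E8.e 0, E8.e 1, E8.e 1]]

def pl : Q7 :=
  ![![E8.e 0, E8.e 0, E8.e 0, E8.e 0, E8.e 0, E8.e 0, E8.e 1],
    ![E8.e 1, E8.e 1, E8.e 0, E8.e 0, E8.e 1, E8.e 0, E8.e 1],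
    ![E8.e 0, E8.e 1, E8.e 1, E8.e 1, E8.e 0, E8.e 0, E8.e 1],
    ![E8.e 1, E8.e 0, E8.e 1, E8.e 0, E8.e 0, E8.e 1, E8.e 1],
    ![E8.e 1, E8.e 0, E8.e 0, E8.e 1, E8.e 0, E8.e 1, E8.e 1],
    ![E8.e 0, E8.e 0, E8.e 1, E8.e 1, E8.e 1, E8.e 0, E8.e 1],
    ![E8.e 0, E8.e 1, E8.e 0, E8.e 0, E8.e 1, E8.e 1, E8.e 1]]

def rl : Q7 :=
  ![![E8.e 0, E8.e 1, E8.e 0, E8.e 0, E8.e 0, E8.e 0, E8.e 0],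
    ![E8.e 0, E8.e 1, E8.e 1, E8.e 1, E8.e 0, E8.e 0, E8.e 1],
    ![E8.e 0, E8.e 1, E8.e 0, E8.e 1, E8.e 1, E8.e 1, E8.e 0],
    ![E8.e 1, E8.e 1, E8.e 1, E8.e 0, E8.e 1, E8.e 0, E8.e 0],
    ![E8.e 1, E8.e 1, E8.e 1, E8.e 0, E8.e 0, E8.e 1, E8.e 0],
    ![E8.e 0, E8.e 1, E8.e 0, E8.e 0, E8.e 1, E8.e 1, E8.e 1],
    ![E8.e 1, E8.e 1, E8.e 0, E8.e 1, E8.e 0, E8.e 0, E8.e 1]]

def dl : Q7 :=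
  ![![E8.e 1, E8.e 1, E8.e 0, E8.e 1, E8.e 0, E8.e 0, E8.e 1],
    ![E8.e 0, E8.e 0, E8.e 0, E8.e 0, E8.e 0, E8.e 1, E8.e 0],
    ![E8.e 0, E8.e 0, E8.e 0, E8.e 1, E8.e 0, E8.e 1, E8.e 0],
    ![E8.e 1, E8.e 0, E8.e 0, E8.e 0, E8.e 0, E8.e 0, E8.e 0],
    ![E8.e 0, E8.e 0, E8.e 1, E8.e 1, E8.e 0, E8.e 1, E8.e 0],
    ![E8.e 1, E8.e 0, E8.e 0, E8.e 0, E8.e 0, E8.e 0, E8.e 1],
    ![E8.e 0, E8.e 0, E8.e 0, E8.e 0, E8.e 1, E8.e 0, E8.e 1]]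

def dl2 : Q7 :=
  ![![E8.e 0, E8.e 1, E8.e 0, E8.e 1, E8.e 1, E8.e 1, E8.e 0],
    ![E8.e 1, E8.e 0, E8.e 0, E8.e 0, E8.e 0, E8.e 0, E8.e 1],
    ![E8.e 0, E8.e 0, E8.e 0, E8.e 0, E8.e 0, E8.e 0, E8.e 1],
    ![E8.e 1, E8.e 1, E8.e 0, E8.e 1, E8.e 0, E8.e 0, E8.e 1],
    ![E8.e 0, E8.e 0, E8.e 0, E8.e 1, E8.e 0, E8.e 1, E8.e 1],
    ![E8.e 1, E8.e 1, E8.e 0, E8.e 1, E8.e 1, E8.e 0, E8.e 0],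
    ![E8.e 0, E8.e 0, E8.e 1, E8.e 1, E8.e 1, E8.e 1, E8.e 1]]

def dl3 : Q7 :=
  ![![E8.e 0, E8.e 0, E8.e 1, E8.e 1, E8.e 0, E8.e 0, E8.e 1],
    ![E8.e 1, E8.e 1, E8.e 0, E8.e 1, E8.e 1, E8.e 0, E8.e 0],
    ![E8.e 0, E8.e 0, E8.e 0, E8.e 0, E8.e 1, E8.e 0, E8.e 1],
    ![E8.e 0, E8.e 1, E8.e 0, E8.e 1, E8.e 1, E8.e 1, E8.e 0],
    ![E8.e 0, E8.e 0, E8.e 0, E8.e 0, E8.e 1, E8.e 0, E8.e 0],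
    ![E8.e 0, E8.e 1, E8.e 1, E8.e 0, E8.e 0, E8.e 0, E8.e 1],
    ![E8.e 0, E8.e 0, E8.e 1, E8.e 0, E8.e 1, E8.e 0, E8.e 0]]

def dl6 : Q7 :=
  ![![E8.e 0, E8.e 1, E8.e 1, E8.e 1, E8.e 1, E8.e 1, E8.e 1],
    ![E8.e 1, E8.e 0, E8.e 1, E8.e 1, E8.e 1, E8.e 1, E8.e 1],
    ![E8.e 0, E8.e 0, E8.e 1, E8.e 0, E8.e 0, E8.e 0, E8.e 0],
    ![E8.e 1, E8.e 1, E8.e 1, E8.e 0, E8.e 1, E8.e 1, E8.e 1],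
    ![E8.e 0, E8.e 0, E8.e 0, E8.e 0, E8.e 1, E8.e 0, E8.e 0],
    ![E8.e 1, E8.e 1, E8.e 1, E8.e 1, E8.e 1, E8.e 0, E8.e 1],
    ![E8.e 0, E8.e 0, E8.e 0, E8.e 0, E8.e 0, E8.e 0, E8.e 1]]

theorem pl_eq : ∀ i j, qmul gl qX i j = pl i j := by decide +kernel

theorem rl_eq : ∀ i j, qmul gl (qperm fun j => j + 6) i j = rl i j := by decide +kernel

theorem dl_eq : ∀ i j, qmul pl rl i j = dl i j := by decide +kernel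

theorem dl2_eq : ∀ i j, qmul dl dl i j = dl2 i j := by decide +kernel

theorem dl3_eq : ∀ i j, qmul dl2 dl i j = dl3 i j := by decide +kernel

theorem dl6_eq : ∀ i j, qmul dl3 dl3 i j = dl6 i j := by decide +kernel

theorem l_final : dl6 = l_0 := by decide +kernel

theorem word_l (hC : Cubic ω) (hG : Gen8 ω X) (hq : InX X (toF ω gl)) :
    specialLinear (Fin 7) F ≤ X := by
  have hp := step hC hq (inX_qX hC hG) pl_eq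
  have hr := step hC hq (inX_Xinv hC hG) rl_eq
  have hd := step hC hp hr dl_eq
  have hd2 := step hC hd hd dl2_eq
  have hd3 := step hC hd2 hd dl3_eq
  have hd6 := step hC hd3 hd3 dl6_eq
  rw [l_final] at hd6
  exact sl_l hC hG hd6

end Cert

end Cfsg.Agent.CSixSevenGFEight
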