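import Cfsg.Agent.CSixSevenGFEight.Cert
import Cfsg.Agent.GeoClasses.Basic

/-!
# The centraliser of the parity involution: rational coordinates, realised matrices, kernel elements
-/

set_option autoImplicit false
set_option linter.unusedSectionVars false

namespace Cfsg.Agent.CSixSevenGFEight

open Cfsg Cfsg.Geo Matrix Cfsg.Agent.CSixSeven

/-- The rational basis in the model. -/
def qQi : Fin 3 → Fin 3 → E8 :=
  ![![E8.e 1, E8.e 2, E8.e 4], ![E8.e 1, E8.e 6, E8.e 2], ![E8.e 1, E8.e 4, E8.e 6]]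

/-- The inverse of the rational basis in the model. -/
def qQv : Fin 3 → Fin 3 → E8 :=
  ![![E8.e 1, E8.e 1, E8.e 1], ![E8.e 4, E8.e 2, E8.e 6], ![E8.e 2, E8.e 6, E8.e 4]]

/-- Product of small model matrices. -/
def qmul3 (A B : Fin 3 → Fin 3 → E8) : Fin 3 → Fin 3 → E8 := fun i j =>
  E8.add (E8.mul (A i 0) (B 0 j)) (E8.add (E8.mul (A i 1) (B 1 j)) (E8.mul (A i 2) (B 2 j)))

/-- The block of the odd vectors in the model. -/
def qBm (A : Q7) : Fin 3 → Fin 3 → E8 := fun r s =>
  E8.add (A (kb r) (kb s)) (A (kb r) (-kb s))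

/-- A rational matrix in the model. -/
def qi2 (N : Matrix (Fin 3) (Fin 3) (ZMod 2)) : Fin 3 → Fin 3 → E8 := fun r s =>
  if N r s = 1 then E8.e 1 else E8.e 0

abbrev R3 := Matrix (Fin 3) (Fin 3) (ZMod 2)

def rU : R3 := !![0, 0, 1; 1, 0, 1; 0, 1, 0]
def rS : R3 := !![1, 0, 0; 0, 0, 1; 0, 1, 1]
def rF : R3 := !![1, 0, 0; 0, 1, 0; 0, 1, 1]

variable {F : Type*} [Field F] {ω : F} {X : Subgroup (GL (Fin 7) F)}

/-- A bit of the prime field. -/
def i2 (F : Type*) [Field F] (a : ZMod 2) : F := if a = 1 then 1 else 0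

/-- A rational matrix over the field. -/
def ι2 (F : Type*) [Field F] (N : R3) : Matrix (Fin 3) (Fin 3) F := N.map (i2 F)

/-- A small model matrix over the field. -/
def toF3 (ω : F) (A : Fin 3 → Fin 3 → E8) : Matrix (Fin 3) (Fin 3) F :=
  Matrix.of fun i j => ev ω (A i j)

/-- The rational basis. -/
def Qi (ω : F) : Matrix (Fin 3) (Fin 3) F := toF3 ω qQi

/-- The inverse of the rational basis. -/
def Qv (ω : F) : Matrix (Fin 3) (Fin 3) F := toF3 ω qQv

/-- A rational matrix induced by an element of the centraliser fixing the fixed vector modulo the odd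
vectors. -/
def Real (ω : F) (X : Subgroup (GL (Fin 7) F)) (N : R3) : Prop :=
  ∃ M : M7 F, InX X M ∧ Sym M ∧ M 0 0 = 1 ∧ Bm M * Qi ω = Qi ω * ι2 F N

/-- An element of the kernel of the action on the odd vectors. -/
structure Ker (X : Subgroup (GL (Fin 7) F)) (M : M7 F) : Prop where
  inX : InX X M
  sym : Sym M
  bm : Bm M = 1

section Trans

variable (hC : Cubic ω)
include hC

theorem i2_add (a b : ZMod 2) : i2 F (a + b) = i2 F a + i2 F b := by
  have h : ∀ a : ZMod 2, a = 0 ∨ a = 1 := by decide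
  rcases h a with rfl | rfl <;> rcases h b with rfl | rfl <;>
    simp +decide [i2, show (1 : ZMod 2) + 1 = 0 from by decide, hC.eight.add_self]

theorem i2_mul (a b : ZMod 2) : i2 F (a * b) = i2 F a * i2 F b := by
  have h : ∀ a : ZMod 2, a = 0 ∨ a = 1 := by decide
  rcases h a with rfl | rfl <;> rcases h b with rfl | rfl <;> simp +decide [i2]

theorem ι2_mul (A B : R3) : ι2 F (A * B) = ι2 F A * ι2 F B := by
  refine Matrix.ext fun i j => ?_
  simp [ι2, Matrix.mul_apply, Fin.sum_univ_three, i2_add hC, i2_mul hC]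

theorem ι2_one : ι2 F (1 : R3) = 1 := by
  refine Matrix.ext fun i j => ?_
  by_cases h : i = j <;> simp +decide [ι2, i2, Matrix.one_apply, h]

theorem toF3_mul (A B : Fin 3 → Fin 3 → E8) : toF3 ω (qmul3 A B) = toF3 ω A * toF3 ω B := by
  refine Matrix.ext fun i j => ?_
  simp only [toF3, qmul3, Matrix.of_apply, Matrix.mul_apply, Fin.sum_univ_three, ev_add hC,
    ev_mul hC]
  ring

theorem toF3_qi2 (N : R3) : toF3 ω (qi2 N) = ι2 F N := by
  refine Matrix.ext fun i j => ?_
  by_cases h : N i j = 1 <;> simp [toF3, qi2, ι2, i2, h, ev_one hC, ev_zero hC]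

theorem bm_toF (A : Q7) : Bm (toF ω A) = toF3 ω (qBm A) := by
  refine Matrix.ext fun r s => ?_
  simp [Bm, toF, toF3, qBm, ev_add hC, hC.eight.sub]

theorem qi_qv : Qi ω * Qv ω = 1 := by
  rw [Qi, Qv, ← toF3_mul hC, show qmul3 qQi qQv = qi2 1 by decide +kernel, toF3_qi2 hC, ι2_one hC]

theorem qv_qi : Qv ω * Qi ω = 1 := by
  rw [Qi, Qv, ← toF3_mul hC, show qmul3 qQv qQi = qi2 1 by decide +kernel, toF3_qi2 hC, ι2_one hC]

theorem sym_toF {A : Q7} (h : ∀ i j, A (-i) (-j) = A i j) : Sym (toF ω A) := fun i j => by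
  simp [toF, h]

theorem real_of_model {A : Q7} {N : R3} (hX : InX X (toF ω A))
    (hs : ∀ i j, A (-i) (-j) = A i j) (h0 : A 0 0 = E8.e 1)
    (hb : qmul3 (qBm A) qQi = qmul3 qQi (qi2 N)) : Real ω X N := by
  refine ⟨toF ω A, hX, sym_toF hC hs, by simp [toF, h0, ev_one hC], ?_⟩
  rw [bm_toF hC, Qi, ← toF3_mul hC, hb, toF3_mul hC, toF3_qi2 hC]

theorem Real.mul {A B : R3} (hA : Real ω X A) (hB : Real ω X B) : Real ω X (A * B) := by
  obtain ⟨M, hM, sM, oM, bM⟩ := hA
  obtain ⟨N, hN, sN, oN, bN⟩ := hB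
  refine ⟨M * N, hM.mul hN, sym_mul sM sN, by rw [mul_00 hC.eight sM sN, oM, oN, one_mul], ?_⟩
  rw [bm_mul sM sN, Matrix.mul_assoc, bN, ← Matrix.mul_assoc, bM, Matrix.mul_assoc, ι2_mul hC]

variable (hG : Gen8 ω X)
include hG

theorem real_rU : Real ω X rU :=
  real_of_model hC (A := qG) (by rw [toF_qG hC]; exact hG.g) (by decide +kernel) (by decide +kernel)
    (by decide +kernel)

theorem real_rS : Real ω X rS :=
  real_of_model hC (A := qS) (by rw [toF_qS hC]; exact hG.s) (by decide +kernel) (by decide +kernel)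
    (by decide +kernel)

theorem real_rF : Real ω X rF :=
  real_of_model hC (A := qF) (by rw [toF_qF hC]; exact hG.f) (by decide +kernel) (by decide +kernel)
    (by decide +kernel)

theorem real_word (l : List (Fin 3)) :
    Real ω X ((l.map ![rU, rS, rF]).prod) := by
  induction l with
  | nil =>
    refine ⟨1, InX.one, sym_one, by simp, ?_⟩
    simp [ι2_one hC]
  | cons a l ih =>
    rw [List.map_cons, List.prod_cons]
    refine Real.mul hC ?_ ih
    fin_cases a
    · exact real_rU hC hG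
    · exact real_rS hC hG
    · exact real_rF hC hG

omit hG in
theorem det_inX {M : M7 F} (hle : X ≤ specialLinear (Fin 7) F) (hM : InX X M) : M.det = 1 := by
  obtain ⟨h, hh, rfl⟩ := hM
  exact GeoClasses.mem_specialLinear_iff.1 (hle hh)

end Trans

/-- The elementary rational transvections and the permutations used. -/
def x12 : R3 := !![1, 1, 0; 0, 1, 0; 0, 0, 1]
def x23 : R3 := !![1, 0, 0; 0, 1, 1; 0, 0, 1]
def x13 : R3 := !![1, 0, 1; 0, 1, 0; 0, 0, 1]
def x31 : R3 := !![1, 0, 0; 0, 1, 0; 1, 0, 1]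
def p021 : R3 := !![1, 0, 0; 0, 0, 1; 0, 1, 0]
def p102 : R3 := !![0, 1, 0; 1, 0, 0; 0, 0, 1]
def p120 : R3 := !![0, 1, 0; 0, 0, 1; 1, 0, 0]
def p201 : R3 := !![0, 0, 1; 1, 0, 0; 0, 1, 0]
def p210 : R3 := !![0, 0, 1; 0, 1, 0; 1, 0, 0]

section Words

variable (hC : Cubic ω) (hG : Gen8 ω X)
include hC hG

theorem real_x12 : Real ω X x12 := by
  have := real_word hC hG [1, 0, 0, 0, 2, 0]
  rwa [show ([1, 0, 0, 0, 2, 0].map ![rU, rS, rF]).prod = x12 by decide +kernel] at this

theorem real_x23 : Real ω X x23 := by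
  have := real_word hC hG [1, 2]
  rwa [show ([1, 2].map ![rU, rS, rF]).prod = x23 by decide +kernel] at this

theorem real_x13 : Real ω X x13 := by
  have := real_word hC hG [0, 0, 0, 2, 0, 1]
  rwa [show ([0, 0, 0, 2, 0, 1].map ![rU, rS, rF]).prod = x13 by decide +kernel] at this

theorem real_x31 : Real ω X x31 := by
  have := real_word hC hG [0, 2, 0, 1, 0, 1]
  rwa [show ([0, 2, 0, 1, 0, 1].map ![rU, rS, rF]).prod = x31 by decide +kernel] at this

theorem real_p021 : Real ω X p021 := by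
  have := real_word hC hG [2, 1]
  rwa [show ([2, 1].map ![rU, rS, rF]).prod = p021 by decide +kernel] at this

theorem real_p102 : Real ω X p102 := by
  have := real_word hC hG [0, 0, 0, 0, 2, 0, 2]
  rwa [show ([0, 0, 0, 0, 2, 0, 2].map ![rU, rS, rF]).prod = p102 by decide +kernel] at this

theorem real_p120 : Real ω X p120 := by
  have := real_word hC hG [2, 0, 1, 2, 0, 2]
  rwa [show ([2, 0, 1, 2, 0, 2].map ![rU, rS, rF]).prod = p120 by decide +kernel] at this

theorem real_p201 : Real ω X p201 := by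
  have := real_word hC hG [0, 0, 0, 0, 2, 0, 1]
  rwa [show ([0, 0, 0, 0, 2, 0, 1].map ![rU, rS, rF]).prod = p201 by decide +kernel] at this

theorem real_p210 : Real ω X p210 := by
  have := real_word hC hG [2, 0, 1, 2, 0, 1]
  rwa [show ([2, 0, 1, 2, 0, 1].map ![rU, rS, rF]).prod = p210 by decide +kernel] at this

end Words

section KerOps

variable (hC : Cubic ω) (hle : X ≤ specialLinear (Fin 7) F)
include hC hle

theorem Ker.zero_zero {q : M7 F} (hq : Ker X q) : q 0 0 = 1 := by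
  have hF := hC.eight
  have hμ : q 0 0 ≠ 0 := by
    intro h
    have hd := det_inX hC hle hq.inX
    obtain ⟨h', _, he⟩ := hq.inX
    obtain ⟨v, hv⟩ : ∃ v : M7 F, v * q = 1 ∧ Sym v := by
      refine ⟨((h'⁻¹ : GL (Fin 7) F) : M7 F), by rw [← he, Units.inv_mul], ?_⟩
      exact sym_iff_commute.2 ((he ▸ sym_iff_commute.1 hq.sym).units_inv_left)
    have := mul_00 hF hv.2 hq.sym
    rw [hv.1, h, mul_zero] at this
    simp at this
  set D : M7 F := Matrix.diagonal fun i : Fin 7 => if i = 0 then (q 0 0)⁻¹ else 1 with hD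
  have sD : Sym D := by
    intro i j
    by_cases h : i = j
    · subst h; simp [hD, neg_eq_zero]
    · simp [hD, h, Matrix.diagonal_apply_ne]
  have hk : ∀ r, kb r ≠ 0 := by decide
  have hkn : ∀ r s, kb r ≠ -kb s := by decide
  have hkk : ∀ r s, kb r = kb s ↔ r = s := by decide
  have bD : Bm D = 1 := Matrix.ext fun r s => by
    simp [bm_apply hF, hD, Matrix.diagonal_apply, Matrix.one_apply, hk, hkn, hkk]
  have pD : Sp D = 0 := Matrix.ext fun r s => by
    simp [Sp, hD, Matrix.diagonal_apply, hkn]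
  have mD : mv D = 0 := funext fun r => by simp [mv, hD, Matrix.diagonal_apply, hk]
  set U := D * q with hU
  have sU : Sym U := sym_mul sD hq.sym
  have bU : Bm U = 1 := by rw [hU, bm_mul sD hq.sym, bD, hq.bm, one_mul]
  have oU : U 0 0 = 1 := by
    rw [hU, mul_00 hF sD hq.sym, hD, Matrix.diagonal_apply_eq, if_pos rfl, inv_mul_cancel₀ hμ]
  have s2 : Sym (U * U) := sym_mul sU sU
  have b2 : Bm (U * U) = 1 := by rw [bm_mul sU sU, bU, one_mul]
  have o2 : (U * U) 0 0 = 1 := by rw [mul_00 hF sU sU, oU, one_mul]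
  have m2 : mv (U * U) = 0 := by
    rw [mv_mul hF sU sU, oU, bU, one_smul, Matrix.one_mulVec]
    funext r; simp [hF.add_self]
  have l2 : lv (U * U) = 0 := by
    rw [lv_mul hF sU sU, oU, bU, one_smul, Matrix.vecMul_one]
    funext r; simp [hF.add_self]
  have h4 : U * U * (U * U) = 1 := by
    refine ext_coords hF (sym_mul s2 s2) sym_one ?_ ?_ ?_ ?_ ?_
    · rw [bm_mul s2 s2, b2, one_mul, bm_one]
    · rw [sp_mul hF s2 s2, b2, m2, one_mul, mul_one, sp_one]
      refine Matrix.ext fun r s => ?_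
      simp [Matrix.vecMulVec, hF.add_self]
    · rw [mv_mul hF s2 s2, o2, b2, m2, mv_one]; simp
    · rw [lv_mul hF s2 s2, o2, b2, l2, lv_one]; simp
    · rw [mul_00 hF s2 s2, o2, one_mul, Matrix.one_apply_eq]
  have hd := congrArg Matrix.det h4
  rw [Matrix.det_mul, Matrix.det_mul, Matrix.det_one] at hd
  have hdU : U.det = 1 := hF.eq_one_of_sq (hF.eq_one_of_sq hd)
  rw [hU, Matrix.det_mul, det_inX hC hle hq.inX, mul_one, hD, Matrix.det_diagonal,
    Finset.prod_ite_eq'] at hdU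
  simpa using hdU

theorem Ker.mul {p q : M7 F} (hp : Ker X p) (hq : Ker X q) :
    Ker X (p * q) ∧ mv (p * q) = mv p + mv q ∧ lv (p * q) = lv p + lv q ∧
      Sp (p * q) = Sp p + Sp q + Matrix.vecMulVec (mv p) (lv q) := by
  have hF := hC.eight
  refine ⟨⟨hp.inX.mul hq.inX, sym_mul hp.sym hq.sym, by rw [bm_mul hp.sym hq.sym, hp.bm, hq.bm, one_mul]⟩,
    ?_, ?_, ?_⟩
  · rw [mv_mul hF hp.sym hq.sym, hq.zero_zero hC hle, hp.bm, one_smul, Matrix.one_mulVec]
  · rw [lv_mul hF hp.sym hq.sym, hp.zero_zero hC hle, hq.bm, one_smul, Matrix.vecMul_one, add_comm]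
  · rw [sp_mul hF hp.sym hq.sym, hp.bm, hq.bm, one_mul, mul_one]
    abel

/-- Conjugation of a kernel element by an element of the centraliser. -/
theorem Ker.conj {q : M7 F} (hq : Ker X q) {M : M7 F} (hM : InX X M) (sM : Sym M)
    (oM : M 0 0 = 1) :
    ∃ N : M7 F, Ker X N ∧ mv N = Bm M *ᵥ mv q ∧ lv N ᵥ* Bm M = lv q ∧
      Sp N * Bm M = Bm M * Sp q + Matrix.vecMulVec (mv M) (lv q) +
        Matrix.vecMulVec (mv N) (lv M) := by
  have hF := hC.eight
  obtain ⟨h, hh, rfl⟩ := hM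
  obtain ⟨k, hk, he⟩ := hq.inX
  set v : M7 F := ((h⁻¹ : GL (Fin 7) F) : M7 F) with hv
  have sv : Sym v := sym_iff_commute.2 (sym_iff_commute.1 sM).units_inv_left
  set N : M7 F := (h : M7 F) * q * v with hN
  have sN : Sym N := sym_mul (sym_mul sM hq.sym) sv
  have eN : N * (h : M7 F) = (h : M7 F) * q := by
    rw [hN, Matrix.mul_assoc _ v, hv, Units.inv_mul, mul_one]
  have bN : Bm N = 1 := by
    rw [hN, bm_mul (sym_mul sM hq.sym) sv, bm_mul sM hq.sym, hq.bm, mul_one, ← bm_mul sM sv, hv,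
      Units.mul_inv, bm_one]
  have kN : Ker X N := ⟨⟨h * k * h⁻¹, mul_mem (mul_mem hh hk) (inv_mem hh), by simp [hN, hv, he]⟩,
    sN, bN⟩
  refine ⟨N, kN, ?_, ?_, ?_⟩
  · have := congrArg mv eN
    rw [mv_mul hF sN sM, mv_mul hF sM hq.sym, oM, hq.zero_zero hC hle, bN, one_smul, one_smul,
      Matrix.one_mulVec, add_comm (mv N)] at this
    exact add_left_cancel this
  · have := congrArg lv eN
    rw [lv_mul hF sN sM, lv_mul hF sM hq.sym, oM, kN.zero_zero hC hle, hq.bm, one_smul, one_smul,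
      Matrix.vecMul_one, add_comm (lv q)] at this
    exact add_left_cancel this
  · have := congrArg Sp eN
    rw [sp_mul hF sN sM, sp_mul hF sM hq.sym, bN, hq.bm, one_mul, mul_one] at this
    refine Matrix.ext fun r s => ?_
    have h' := congrFun (congrFun this r) s
    simp only [Matrix.add_apply] at h' ⊢
    linear_combination h' - (Matrix.vecMulVec (mv N) (lv (h : M7 F)) r s) * hF.two

end KerOps

end Cfsg.Agent.CSixSevenGFEight
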