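import Cfsg.Agent.CSixSevenGFEight.Transpose
import Cfsg.Agent.CSixSeven.Finish

/-!
# The image of the centraliser of the parity involution on the odd vectors
-/

set_option autoImplicit false
set_option linter.unusedSectionVars false
set_option maxHeartbeats 1000000

namespace Cfsg.Agent.CSixSevenGFEight

open Cfsg Cfsg.Geo Matrix Cfsg.Agent.CSixSeven

section Abstract

variable {G : Type*} [Group G]

/-- Two involutions with product of odd order are conjugate. -/
theorem conj_of_odd_pow {t r : G} (ht : t * t = 1) (hr : r * r = 1) {k : ℕ}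
    (h : (t * r) ^ (2 * k + 1) = 1) : ∃ q ∈ Subgroup.zpowers (t * r), q * t * q⁻¹ = r := by
  have ht' : t⁻¹ = t := inv_eq_of_mul_eq_one_right ht
  have hr' : r⁻¹ = r := inv_eq_of_mul_eq_one_right hr
  refine ⟨(t * r) ^ k, Subgroup.npow_mem_zpowers _ k, ?_⟩
  have h1 : t * ((t * r) ^ k)⁻¹ * t⁻¹ = (t * r) ^ k := by
    rw [← inv_pow, ← conj_pow, _root_.mul_inv_rev, hr', ht']
    congr 1
    rw [← mul_assoc, mul_assoc (t * r) t t, ht, mul_one]
  calc (t * r) ^ k * t * ((t * r) ^ k)⁻¹
      = (t * r) ^ k * (t * ((t * r) ^ k)⁻¹ * t⁻¹) * t := by group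
    _ = (t * r) ^ (2 * k) * t := by rw [h1, ← pow_add, two_mul]
    _ = (t * r)⁻¹ * t := by
      rw [show (t * r) ^ (2 * k) = (t * r)⁻¹ from eq_inv_of_mul_eq_one_left (by rwa [← pow_succ])]
    _ = r := by rw [_root_.mul_inv_rev, hr', ht', mul_assoc, ht, mul_one]

/-- Two involutions are conjugate or have a common involution commuting with both. -/
theorem conj_or_common [Finite G] {t r : G} (ht : t * t = 1) (hr : r * r = 1) :
    (∃ q : G, q * t * q⁻¹ = r) ∨
      ∃ c : G, c * c = 1 ∧ c ≠ 1 ∧ c * t = t * c ∧ c * r = r * c := by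
  rcases Nat.even_or_odd (orderOf (t * r)) with ⟨m, hm⟩ | ⟨k, hk⟩
  · right
    have ht' : t⁻¹ = t := inv_eq_of_mul_eq_one_right ht
    have hr' : r⁻¹ = r := inv_eq_of_mul_eq_one_right hr
    have hpos := orderOf_pos (t * r)
    have h2 : (t * r) ^ m * (t * r) ^ m = 1 := by rw [← pow_add, ← hm, pow_orderOf_eq_one]
    have hinv : ((t * r) ^ m)⁻¹ = (t * r) ^ m := inv_eq_of_mul_eq_one_right h2
    have e1 : t * (t * r) ^ m * t⁻¹ = (t * r) ^ m := by
      rw [← conj_pow, ← mul_assoc t t r, ht, one_mul, ht']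
      conv_rhs => rw [← hinv, ← inv_pow, _root_.mul_inv_rev, ht', hr']
    have e2 : r * (t * r) ^ m * r⁻¹ = (t * r) ^ m := by
      rw [← conj_pow, hr', mul_assoc r (t * r), mul_assoc t r r, hr, mul_one]
      conv_rhs => rw [← hinv, ← inv_pow, _root_.mul_inv_rev, ht', hr']
    exact ⟨_, h2, pow_ne_one_of_lt_orderOf (by omega) (by omega), (mul_inv_eq_iff_eq_mul.1 e1).symm,
      (mul_inv_eq_iff_eq_mul.1 e2).symm⟩
  · left
    obtain ⟨q, -, hq⟩ := conj_of_odd_pow ht hr (k := k) (by rw [← hk, pow_orderOf_eq_one])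
    exact ⟨q, hq⟩

/-- Three elements squaring to a central involution cannot have all short products do so. -/
theorem no_three {z g h k : G} (hz : z * z = 1) (hz1 : z ≠ 1) (hc : ∀ a : G, z * a = a * z)
    (hg : g * g = z) (hh : h * h = z) (hk : k * k = z) (hgh : g * h * (g * h) = z)
    (hghk : g * h * k * (g * h * k) = z) (hgk : g * k * (g * k) = z)
    (hhk : h * k * (h * k) = z) : False := by
  have sw : ∀ a b : G, a * a = z → b * b = z → a * b * (a * b) = z → b * a = a * b * z := by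
    intro a b ha hb hab
    have hai : a⁻¹ = a * z := inv_eq_of_mul_eq_one_right (by rw [← mul_assoc, ha, hz])
    have hbi : b⁻¹ = b * z := inv_eq_of_mul_eq_one_right (by rw [← mul_assoc, hb, hz])
    calc b * a = a⁻¹ * (a * b * (a * b)) * b⁻¹ := by group
      _ = a * b * z := by
        rw [hab, hai, hbi, mul_assoc a z z, hz, mul_one, ← mul_assoc]
  have e1 := sw g k hg hk hgk
  have e2 := sw h k hh hk hhk
  have e : k * (g * h) = g * h * k := by
    rw [← mul_assoc, e1, mul_assoc (g * k), hc h, ← mul_assoc, mul_assoc g k h, e2]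
    simp only [mul_assoc, hz, mul_one]
  refine hz1 ?_
  calc z = g * h * k * (g * h * k) := hghk.symm
    _ = g * h * (k * (g * h)) * k := by simp only [mul_assoc]
    _ = g * h * (g * h) * (k * k) := by rw [e]; simp only [mul_assoc]
    _ = 1 := by rw [hgh, hk, hz]

end Abstract

variable {F : Type*} [Field F] {ω : F} {X : Subgroup (GL (Fin 7) F)}

/-- The root element in the corner. -/
def E13 (a : F) : Matrix (Fin 3) (Fin 3) F := !![1, 0, a; 0, 1, 0; 0, 0, 1]

/-- Repeated product in the model. -/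
def qpow3 (A : Fin 3 → Fin 3 → E8) : ℕ → Fin 3 → Fin 3 → E8
  | 0 => qi2 1
  | n + 1 => qmul3 (qpow3 A n) A

/-- The product of a corner root element with an opposite one. -/
def qTr (b : E8) : Fin 3 → Fin 3 → E8 :=
  ![![E8.add (E8.e 1) b, E8.e 0, b], ![E8.e 0, E8.e 1, E8.e 0], ![E8.e 1, E8.e 0, E8.e 1]]

theorem qTr_order : ∀ n : Fin 8, n ≠ 0 →
    qpow3 (qTr (E8.e n.val)) 7 = qi2 1 ∨ qpow3 (qTr (E8.e n.val)) 9 = qi2 1 := by decide +kernel

variable (hC : Cubic ω) (X)

/-- The action on the odd vectors in rational coordinates. -/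
def rho : Kz X →* GL (Fin 3) F :=
  MonoidHom.toHomUnits
    { toFun := fun h => Qv ω * Bm ((h : GL (Fin 7) F) : M7 F) * Qi ω
      map_one' := by simp [qv_qi hC]
      map_mul' := fun a b => by
        rw [Subgroup.coe_mul, Units.val_mul, bm_mul (sym_of_mem a.2) (sym_of_mem b.2)]
        calc Qv ω * (Bm _ * Bm _) * Qi ω = Qv ω * (Bm _ * (Qi ω * Qv ω) * Bm _) * Qi ω := by
              rw [qi_qv hC, mul_one]
          _ = _ := by simp only [Matrix.mul_assoc] }

variable {X}

@[simp] theorem rho_val (h : Kz X) :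
    ((rho X hC h : GL (Fin 3) F) : Matrix (Fin 3) (Fin 3) F) =
      Qv ω * Bm ((h : GL (Fin 7) F) : M7 F) * Qi ω := rfl

/-- A matrix in the image. -/
def InH (hC : Cubic ω) (X : Subgroup (GL (Fin 7) F)) (N : Matrix (Fin 3) (Fin 3) F) : Prop :=
  ∃ r ∈ (rho X hC).range, (r : Matrix (Fin 3) (Fin 3) F) = N

include hC

theorem InH.mul {A B : Matrix (Fin 3) (Fin 3) F} (hA : InH hC X A) (hB : InH hC X B) :
    InH hC X (A * B) := by
  obtain ⟨a, ha, rfl⟩ := hA
  obtain ⟨b, hb, rfl⟩ := hB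
  exact ⟨a * b, mul_mem ha hb, rfl⟩

variable (hG : Gen8 ω X) (hN : ¬ specialLinear (Fin 7) F ≤ X)
include hG

theorem inH_real {x : R3} (hx : Real ω X x) : InH hC X (ι2 F x) := by
  obtain ⟨M, ⟨h, hh, he⟩, sM, -, bM⟩ := hx
  refine ⟨rho X hC ⟨h, hh, he ▸ sym_iff_commute.1 sM⟩, ⟨_, rfl⟩, ?_⟩
  simp only [rho_val, he]
  rw [Matrix.mul_assoc, bM, ← Matrix.mul_assoc, qv_qi hC, one_mul]

theorem inH_e13_one : InH hC X (E13 1) := by
  have h := inH_real hC hG (real_x13 hC hG)
  rwa [show ι2 F x13 = E13 (1 : F) from Matrix.ext fun i j => by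
    fin_cases i <;> fin_cases j <;> simp +decide [ι2, i2, x13, E13]] at h

omit hG in
theorem e13_mul (a b : F) : E13 a * E13 b = E13 (a + b) := by
  refine Matrix.ext fun i j => ?_
  fin_cases i <;> fin_cases j <;> simp [E13, Matrix.mul_apply, Fin.sum_univ_three, add_comm]

omit hG in
theorem e13_sq (a : F) : E13 a * E13 a = 1 := by
  rw [e13_mul hC, hC.eight.add_self]
  refine Matrix.ext fun i j => ?_
  fin_cases i <;> fin_cases j <;> simp [E13]

theorem inH_e13_mul {a b : F} (ha : InH hC X (E13 a)) (hb : InH hC X (E13 b)) :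
    InH hC X (E13 (a * b)) := by
  have p := inH_real hC hG (real_p021 hC hG)
  have q := inH_real hC hG (real_p102 hC hG)
  have hA := (p.mul hC ha).mul hC p
  have hB := (q.mul hC hb).mul hC q
  have := ((hA.mul hC hB).mul hC hA).mul hC hB
  convert this using 1
  refine Matrix.ext fun i j => ?_
  fin_cases i <;> fin_cases j <;>
    simp +decide [E13, ι2, i2, p021, p102, Matrix.mul_apply, Fin.sum_univ_three] <;>
    grind [hC.eight.two]

variable [Finite F]

/-- A conjugate of the corner element. -/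
def ConjR (hC : Cubic ω) (X : Subgroup (GL (Fin 7) F)) (N : Matrix (Fin 3) (Fin 3) F) : Prop :=
  ∃ t ∈ (rho X hC).range, (t : Matrix (Fin 3) (Fin 3) F) = N ∧
    ∃ q ∈ (rho X hC).range, ((q * t * q⁻¹ : GL (Fin 3) F) : Matrix (Fin 3) (Fin 3) F) = E13 1

omit hG in
theorem conjR_of_conj {N P Q : Matrix (Fin 3) (Fin 3) F} (hN' : ConjR hC X N) (hP : InH hC X P)
    (hQ : InH hC X Q) (hPQ : P * Q = 1) : ConjR hC X (P * N * Q) := by
  obtain ⟨t, ht, rfl, q, hq, e⟩ := hN'
  obtain ⟨p, hp, rfl⟩ := hP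
  obtain ⟨p', hp', rfl⟩ := hQ
  have : p' = p⁻¹ := eq_inv_of_mul_eq_one_right (Units.ext (by simpa using hPQ))
  subst this
  refine ⟨p * t * p⁻¹, mul_mem (mul_mem hp ht) hp', by simp, q * p⁻¹,
    mul_mem hq (inv_mem hp), ?_⟩
  rw [show q * p⁻¹ * (p * t * p⁻¹) * (q * p⁻¹)⁻¹ = q * t * q⁻¹ by group]
  exact e

theorem conjR_e13_one : ConjR hC X (E13 1) := by
  obtain ⟨t, ht, e⟩ := inH_e13_one hC hG
  exact ⟨t, ht, e, 1, one_mem _, by simp [e]⟩

theorem conjR_x31 : ConjR hC X (ι2 F x31) := by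
  have p := inH_real hC hG (real_p210 hC hG)
  have h := conjR_of_conj hC (conjR_e13_one hC hG) p p
    (by rw [← ι2_mul hC, show p210 * p210 = 1 by decide, ι2_one hC])
  convert h using 1
  refine Matrix.ext fun i j => ?_
  fin_cases i <;> fin_cases j <;>
    simp +decide [E13, ι2, i2, p210, x31, Matrix.mul_apply, Fin.sum_univ_three]

theorem conjR_e13 {a : F} (ha : InH hC X (E13 a)) (h0 : a ≠ 0) : ConjR hC X (E13 a) := by
  obtain ⟨t, htm, et⟩ := ha
  obtain ⟨r, hrm, er, q, hqm, eq'⟩ := conjR_x31 hC hG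
  obtain ⟨n, hn⟩ := ev_surj hC hG a
  have hn0 : n ≠ 0 := by
    rintro rfl
    exact h0 (hn.trans (ev_zero hC))
  have hpow : ∀ m, ((t * r) ^ m : GL (Fin 3) F).val = toF3 ω (qpow3 (qTr (E8.e n.val)) m) := by
    intro m
    induction m with
    | zero => simp [qpow3, toF3_qi2 hC, ι2_one hC]
    | succ m ih =>
      rw [pow_succ, Units.val_mul, ih, qpow3, toF3_mul hC]
      congr 1
      rw [Units.val_mul, et, er, hn]
      refine Matrix.ext fun i j => ?_
      fin_cases i <;> fin_cases j <;>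
        simp +decide [toF3, qTr, E13, ι2, i2, x31, Matrix.mul_apply, Fin.sum_univ_three, ev_add hC,
          ev_one hC, ev_zero hC]
  have ht2 : t * t = 1 := Units.ext (by simp [et, e13_sq hC])
  have hr2 : r * r = 1 := Units.ext (by
    rw [Units.val_mul, er, ← ι2_mul hC, show x31 * x31 = 1 by decide, ι2_one hC]; rfl)
  obtain ⟨k, hk⟩ : ∃ k, (t * r) ^ (2 * k + 1) = 1 := by
    rcases qTr_order n hn0 with h | h
    · exact ⟨3, Units.ext (by rw [hpow, h, toF3_qi2 hC, ι2_one hC]; rfl)⟩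
    · exact ⟨4, Units.ext (by rw [hpow, h, toF3_qi2 hC, ι2_one hC]; rfl)⟩
  obtain ⟨p, hp, e⟩ := conj_of_odd_pow ht2 hr2 hk
  refine ⟨t, htm, et, q * p, mul_mem hqm ((Subgroup.zpowers_le.2 (mul_mem htm hrm)) hp), ?_⟩
  rw [show q * p * t * (q * p)⁻¹ = q * (p * t * p⁻¹) * q⁻¹ by group, e]
  exact eq'

include hN

omit [Finite F] in
/-- The parity involution in its centraliser. -/
theorem exists_tz : ∃ tz : Kz X, ((tz : GL (Fin 7) F) : M7 F) = Zm ∧ tz * tz = 1 ∧ tz ≠ 1 ∧
    (∀ a : Kz X, tz * a = a * tz) ∧ ∀ a : Kz X, rho X hC a = 1 → a = 1 ∨ a = tz := by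
  obtain ⟨z, hz, he⟩ := hG.z
  have hzm : (z : GL (Fin 7) F) ∈ Kz X := ⟨hz, he ▸ Commute.refl _⟩
  refine ⟨⟨z, hzm⟩, he, Subtype.ext (Units.ext (by simp [he, Zm_sq])), ?_, ?_, ?_⟩
  · intro h
    have h' : (z : M7 F) = 1 := by
      simpa using congrArg (fun a : Kz X => ((a : GL (Fin 7) F) : M7 F)) h
    exact Zm_ne_one (he ▸ h')
  · intro a
    refine Subtype.ext (Units.ext ?_)
    simpa [he] using a.2.2.eq.symm
  · intro a ha
    have hb : Bm ((a : GL (Fin 7) F) : M7 F) = 1 := by
      have h := congrArg (fun u : GL (Fin 3) F => Qi ω * (u : Matrix (Fin 3) (Fin 3) F) * Qv ω) ha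
      simp only [rho_val, Units.val_one, mul_one, qi_qv hC] at h
      rw [← h]
      simp only [← Matrix.mul_assoc, qi_qv hC, one_mul]
      rw [Matrix.mul_assoc, qi_qv hC, mul_one]
    rcases ker_cases hC hG hN ⟨⟨a, a.2.1, rfl⟩, sym_of_mem a.2, hb⟩ with h | h
    · exact Or.inl (Subtype.ext (Units.ext h))
    · exact Or.inr (Subtype.ext (Units.ext (h.trans he.symm)))

/-- Lifts of conjugates of the corner element square to the parity involution. -/
theorem sq_of_conjR {N : Matrix (Fin 3) (Fin 3) F} (hN' : ConjR hC X N) {h : Kz X}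
    (hh : ((rho X hC h : GL (Fin 3) F) : Matrix (Fin 3) (Fin 3) F) = N) :
    (((h * h : Kz X) : GL (Fin 7) F) : M7 F) = Zm := by
  obtain ⟨tz, htz, hzz, -, hcz, hker⟩ := exists_tz hC hG hN
  obtain ⟨f, hf, hfe⟩ := hG.f
  set fk : Kz X := ⟨f, hf, hfe ▸ sym_iff_commute.1 sym_fm⟩ with hfk
  have hsq : fk * fk = tz := Subtype.ext (Units.ext (by
    simp [hfk, hfe, htz, fm_mul_fm hC.eight.omega, hC.eight.seven, hC.eight.neg]))
  -- the Fourier element lies over a conjugate of the corner element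
  have p := inH_real hC hG (real_p210 hC hG)
  have p1 := inH_real hC hG (real_p102 hC hG)
  have hF32 : ConjR hC X ((rho X hC fk : GL (Fin 3) F) : Matrix (Fin 3) (Fin 3) F) := by
    have h2 := conjR_of_conj hC (conjR_x31 hC hG) p1 p1
      (by rw [← ι2_mul hC, show p102 * p102 = 1 by decide, ι2_one hC])
    rw [← ι2_mul hC, ← ι2_mul hC, show p102 * x31 * p102 = rF by decide] at h2
    have e : Bm (Fm ω) * Qi ω = Qi ω * ι2 F rF := by
      rw [← toF_qF hC, bm_toF hC, Qi, ← toF3_mul hC,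
        show qmul3 (qBm qF) qQi = qmul3 qQi (qi2 rF) by decide +kernel, toF3_mul hC, toF3_qi2 hC]
    rw [rho_val]
    simp only [hfk, hfe]
    rwa [Matrix.mul_assoc, e, ← Matrix.mul_assoc, qv_qi hC, one_mul]
  obtain ⟨t, -, et, q, ⟨qq, rfl⟩, eq1⟩ := hN'
  obtain ⟨t', -, et', q', ⟨qq', rfl⟩, eq2⟩ := hF32
  obtain rfl : t = rho X hC h := Units.ext (et.trans hh.symm)
  obtain rfl : t' = rho X hC fk := Units.ext et'
  have e : rho X hC (qq * h * qq⁻¹) = rho X hC (qq' * fk * qq'⁻¹) := by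
    simp only [map_mul, map_inv]
    exact Units.ext (eq1.trans eq2.symm)
  set a := qq * h * qq⁻¹ with ha
  set b := qq' * fk * qq'⁻¹ with hb
  have hbb : b * b = tz := by
    rw [hb, show qq' * fk * qq'⁻¹ * (qq' * fk * qq'⁻¹) = qq' * (fk * fk) * qq'⁻¹ by group, hsq,
      ← hcz, mul_inv_cancel_right]
  have haa : a * a = tz := by
    rcases hker (a * b⁻¹) (by rw [map_mul, map_inv, e, mul_inv_cancel]) with h1 | h1
    · rwa [mul_inv_eq_one.1 h1]
    · rw [mul_inv_eq_iff_eq_mul.1 h1, mul_assoc tz, ← mul_assoc b, ← hcz b, mul_assoc tz b, hbb,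
        ← mul_assoc, hzz, one_mul]
  have : h * h = tz := by
    have e' : h * h = qq⁻¹ * (a * a) * qq := by rw [ha]; group
    rw [e', haa, mul_assoc, hcz, ← mul_assoc, inv_mul_cancel, one_mul]
  rw [this, htz]

theorem lam_eq {a : F} (ha : InH hC X (E13 a)) : a = 0 ∨ a = 1 := by
  have hF := hC.eight
  by_contra hcon
  push Not at hcon
  obtain ⟨h0, h1⟩ := hcon
  obtain ⟨tz, htz, hzz, hz1, hcz, -⟩ := exists_tz hC hG hN
  have hone := inH_e13_one hC hG
  have ha2 := inH_e13_mul hC hG ha ha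
  have lift : ∀ {b : F}, InH hC X (E13 b) → ∃ g : Kz X,
      ((rho X hC g : GL (Fin 3) F) : Matrix (Fin 3) (Fin 3) F) = E13 b := by
    rintro b ⟨r, ⟨g, rfl⟩, e⟩
    exact ⟨g, e⟩
  have sq : ∀ {b : F} {g : Kz X}, InH hC X (E13 b) → b ≠ 0 →
      ((rho X hC g : GL (Fin 3) F) : Matrix (Fin 3) (Fin 3) F) = E13 b → g * g = tz := by
    intro b g hb hb0 e
    exact Subtype.ext (Units.ext ((sq_of_conjR hC hG hN (conjR_e13 hC hG hb hb0) e).trans htz.symm))
  obtain ⟨g, eg⟩ := lift hone
  obtain ⟨h, eh⟩ := lift ha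
  obtain ⟨k, ek⟩ := lift ha2
  have add : ∀ {b c : F}, InH hC X (E13 b) → InH hC X (E13 c) → InH hC X (E13 (b + c)) := by
    intro b c hb hc
    rw [← e13_mul hC]; exact hb.mul hC hc
  have emul : ∀ {b c : F} {u v : Kz X},
      ((rho X hC u : GL (Fin 3) F) : Matrix (Fin 3) (Fin 3) F) = E13 b →
      ((rho X hC v : GL (Fin 3) F) : Matrix (Fin 3) (Fin 3) F) = E13 c →
      ((rho X hC (u * v) : GL (Fin 3) F) : Matrix (Fin 3) (Fin 3) F) = E13 (b + c) := by
    intro b c u v eu ev'
    rw [map_mul, Units.val_mul, eu, ev', e13_mul hC]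
  have n1 : 1 + a ≠ 0 := fun e => h1 (hF.eq_of_add e).symm
  have n2 : 1 + a * a ≠ 0 := fun e => h1 (hF.eq_one_of_sq (hF.eq_of_add e).symm)
  have n3 : a + a * a ≠ 0 := fun e => by
    have : a * (1 + a) = 0 := by linear_combination e
    exact n1 ((mul_eq_zero.1 this).resolve_left h0)
  have n4 : 1 + a + a * a ≠ 0 := fun e => by
    have h3 : a ^ 3 = 1 := by linear_combination (a - 1) * e
    have h7 := hF.pow_seven h0
    exact h1 (by linear_combination h7 - (a ^ 4 + a) * h3)
  exact no_three hzz hz1 hcz (sq hone one_ne_zero eg) (sq ha h0 eh) (sq ha2 (mul_ne_zero h0 h0) ek)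
    (sq (add hone ha) n1 (emul eg eh)) (sq (add (add hone ha) ha2) n4 (emul (emul eg eh) ek))
    (sq (add hone ha2) n2 (emul eg ek)) (sq (add ha ha2) n3 (emul eh ek))

omit [Finite F] hN in
theorem e13_commute {s : Matrix (Fin 3) (Fin 3) F} (h : s * E13 1 = E13 1 * s) :
    s 1 0 = 0 ∧ s 2 0 = 0 ∧ s 2 1 = 0 ∧ s 2 2 = s 0 0 := by
  have e01 := congrFun (congrFun h 0) 1
  have e12 := congrFun (congrFun h 1) 2
  have e22 := congrFun (congrFun h 2) 2
  have e02 := congrFun (congrFun h 0) 2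
  simp [E13, Matrix.mul_apply, Fin.sum_univ_three] at e01 e12 e22 e02
  exact ⟨e12, e22, e01, by linear_combination -e02⟩

/-- The involutions of the image commuting with the corner element. -/
theorem comm_corner {N : Matrix (Fin 3) (Fin 3) F} (hN' : InH hC X N) (h2 : N * N = 1) (h1 : N ≠ 1)
    (hc : N * E13 1 = E13 1 * N) :
    ∃ x ∈ [x13, x12, x23, x12 * x13, x23 * x13], N = ι2 F x := by
  have hF := hC.eight
  obtain ⟨z10, z20, z21, z22⟩ := e13_commute hC hG hc
  have q00 := congrFun (congrFun h2 0) 0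
  have q11 := congrFun (congrFun h2 1) 1
  have q02 := congrFun (congrFun h2 0) 2
  simp [Matrix.mul_apply, Matrix.vecMul, dotProduct, Fin.sum_univ_three, z10, z20, z21, z22] at q00 q11 q02
  have a1 := hF.eq_one_of_sq q00
  have d1 := hF.eq_one_of_sq q11
  rw [a1] at z22 q02
  have hpy : N 0 1 * N 1 2 = 0 := by linear_combination q02 - (N 0 2) * hF.two
  have form : N = !![1, N 0 1, N 0 2; 0, 1, N 1 2; 0, 0, 1] := by
    refine Matrix.ext fun i j => ?_
    fin_cases i <;> fin_cases j <;> simp [z10, z20, z21, z22, a1, d1]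
  generalize N 0 1 = p at form hpy
  generalize N 1 2 = y at form hpy
  generalize N 0 2 = w at form
  subst form
  have A := inH_real hC hG (real_x12 hC hG)
  have B := inH_real hC hG (real_x23 hC hG)
  have hy : y = 0 ∨ y = 1 := by
    refine lam_eq hC hG hN ?_
    have := ((InH.mul hC hN' A).mul hC hN').mul hC A
    convert this using 1
    refine Matrix.ext fun i j => ?_
    fin_cases i <;> fin_cases j <;>
      simp +decide [E13, ι2, i2, x12, Matrix.mul_apply, Matrix.vecMul, dotProduct, Fin.sum_univ_three] <;> grind [hF.two]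
  have hp : p = 0 ∨ p = 1 := by
    refine lam_eq hC hG hN ?_
    have := ((InH.mul hC hN' B).mul hC hN').mul hC B
    convert this using 1
    refine Matrix.ext fun i j => ?_
    fin_cases i <;> fin_cases j <;>
      simp +decide [E13, ι2, i2, x23, Matrix.mul_apply, Matrix.vecMul, dotProduct, Fin.sum_univ_three] <;> grind [hF.two]
  have hw : ∀ M : Matrix (Fin 3) (Fin 3) F, InH hC X M → M = E13 (w) →
      w = 0 ∨ w = 1 := fun M hM e => lam_eq hC hG hN (e ▸ hM)
  rcases hp with hp | hp <;> rcases hy with hy | hy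
  · rcases hw _ hN' (by simp [hp, hy, E13]) with h | h
    · exact absurd (by rw [hp, hy, h]; ext i j; fin_cases i <;> fin_cases j <;> simp) h1
    · refine ⟨x13, by simp, ?_⟩
      rw [hp, hy, h]
      refine Matrix.ext fun i j => ?_
      fin_cases i <;> fin_cases j <;> simp +decide [ι2, i2, x13]
  · have e : ι2 F x23 * !![1, p, w; 0, 1, y; 0, 0, 1] = E13 w := by
      refine Matrix.ext fun i j => ?_
      fin_cases i <;> fin_cases j <;>
        simp +decide [E13, ι2, i2, x23, Matrix.mul_apply, Matrix.vecMul, dotProduct, Fin.sum_univ_three, hp, hy, hF.add_self]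
    rcases hw _ (B.mul hC hN') e with h | h
    · refine ⟨x23, by simp, ?_⟩
      rw [hp, hy, h]
      refine Matrix.ext fun i j => ?_
      fin_cases i <;> fin_cases j <;> simp +decide [ι2, i2, x23]
    · refine ⟨x23 * x13, by simp, ?_⟩
      rw [hp, hy, h]
      refine Matrix.ext fun i j => ?_
      fin_cases i <;> fin_cases j <;> simp +decide [ι2, i2]
  · have e : !![1, p, w; 0, 1, y; 0, 0, 1] * ι2 F x12 = E13 w := by
      refine Matrix.ext fun i j => ?_
      fin_cases i <;> fin_cases j <;>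
        simp +decide [E13, ι2, i2, x12, Matrix.mul_apply, Matrix.vecMul, dotProduct, Fin.sum_univ_three, hp, hy, hF.add_self]
    rcases hw _ (InH.mul hC hN' A) e with h | h
    · refine ⟨x12, by simp, ?_⟩
      rw [hp, hy, h]
      refine Matrix.ext fun i j => ?_
      fin_cases i <;> fin_cases j <;> simp +decide [ι2, i2, x12]
    · refine ⟨x12 * x13, by simp, ?_⟩
      rw [hp, hy, h]
      refine Matrix.ext fun i j => ?_
      fin_cases i <;> fin_cases j <;> simp +decide [ι2, i2]
  · simp [hp, hy] at hpy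

theorem conjR_list {x : R3} (hx : x ∈ [x13, x12, x23, x12 * x13, x23 * x13]) :
    ConjR hC X (ι2 F x) := by
  have base : ConjR hC X (ι2 F x13) := by
    rw [show ι2 F x13 = E13 (1 : F) from Matrix.ext fun i j => by
      fin_cases i <;> fin_cases j <;> simp +decide [ι2, i2, x13, E13]]
    exact conjR_e13_one hC hG
  have step : ∀ {a b c : R3}, ConjR hC X (ι2 F a) → Real ω X b → b * b = 1 → b * a * b = c →
      ConjR hC X (ι2 F c) := by
    intro a b c ha hb hbb e
    have := conjR_of_conj hC ha (inH_real hC hG hb) (inH_real hC hG hb)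
      (by rw [← ι2_mul hC, hbb, ι2_one hC])
    rwa [← ι2_mul hC, ← ι2_mul hC, e] at this
  have c12 : ConjR hC X (ι2 F x12) := step base (real_p021 hC hG) (by decide) (by decide)
  have c23 : ConjR hC X (ι2 F x23) := step base (real_p102 hC hG) (by decide) (by decide)
  simp only [List.mem_cons, List.not_mem_nil, or_false] at hx
  rcases hx with rfl | rfl | rfl | rfl | rfl
  · exact base
  · exact c12
  · exact c23
  · exact step c12 (real_x23 hC hG) (by decide) (by decide)
  · exact step c23 (real_x12 hC hG) (by decide) (by decide)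

/-- All involutions of the image are conjugate to the corner element. -/
theorem conjR_invol {t : GL (Fin 3) F} (ht : t ∈ (rho X hC).range) (h2 : t * t = 1) (h1 : t ≠ 1) :
    ConjR hC X (t : Matrix (Fin 3) (Fin 3) F) := by
  obtain ⟨r, hr, er⟩ := inH_e13_one hC hG
  have hr2 : r * r = 1 := Units.ext (by simp [er, e13_sq hC])
  have key : ∀ c ∈ (rho X hC).range, c * c = 1 → c ≠ 1 → c * r = r * c →
      ConjR hC X (c : Matrix (Fin 3) (Fin 3) F) := by
    intro c hc hcc hc1 hcr
    obtain ⟨x, hx, e⟩ := comm_corner hC hG hN ⟨c, hc, rfl⟩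
      (by rw [← Units.val_mul, hcc]; rfl) (fun e => hc1 (Units.ext e))
      (by rw [← er, ← Units.val_mul, hcr]; rfl)
    rw [e]
    exact conjR_list hC hG hN hx
  rcases conj_or_common (G := (rho X hC).range) (t := ⟨t, ht⟩) (r := ⟨r, hr⟩) (Subtype.ext h2)
      (Subtype.ext hr2) with ⟨q, hq⟩ | ⟨c, hcc, hc1, hct, hcr⟩
  · exact ⟨t, ht, rfl, q, q.2, by rw [← er]; exact congrArg (fun a : (rho X hC).range => ((a : GL (Fin 3) F) : Matrix (Fin 3) (Fin 3) F)) hq⟩
  · obtain ⟨c', -, ec, q, hq, eq'⟩ := key c c.2 (congrArg Subtype.val hcc)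
      (fun e => hc1 (Subtype.ext e)) (congrArg Subtype.val hcr)
    obtain rfl : c' = c := Units.ext ec
    have hqc : q * (c : GL (Fin 3) F) * q⁻¹ = r := Units.ext (eq'.trans er.symm)
    have hct' : (c : GL (Fin 3) F) * t = t * c := congrArg Subtype.val hct
    set s := q * t * q⁻¹ with hs
    have hsr : s * r = r * s := by
      rw [← hqc, hs, show q * t * q⁻¹ * (q * c * q⁻¹) = q * (t * c) * q⁻¹ by group, ← hct']
      group
    obtain ⟨s', -, es', p, hp, ep⟩ := key s (mul_mem (mul_mem hq ht) (inv_mem hq))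
      (by rw [hs, show q * t * q⁻¹ * (q * t * q⁻¹) = q * (t * t) * q⁻¹ by group, h2, mul_one, mul_inv_cancel])
      (fun e => h1 (by simpa [hs] using e)) hsr
    obtain rfl : s' = s := Units.ext es'
    refine ⟨t, ht, rfl, p * q, mul_mem hp hq, ?_⟩
    rw [show p * q * t * (p * q)⁻¹ = p * (q * t * q⁻¹) * p⁻¹ by group]
    exact ep

/-- The parity involution is the only involution of its centraliser. -/
theorem uniq : Uniq X := by
  intro h hK ho
  obtain ⟨tz, htz, hzz, hz1, -, hker⟩ := exists_tz hC hG hN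
  set a : Kz X := ⟨h, hK⟩ with ha
  have haa : a * a = 1 := Subtype.ext (by
    have := pow_orderOf_eq_one h; rw [ho, pow_two] at this; exact this)
  by_cases hr : rho X hC a = 1
  · rcases hker a hr with h' | h'
    · have : h = 1 := congrArg Subtype.val h'
      simp [this] at ho
    · have : h = (tz : GL (Fin 7) F) := congrArg Subtype.val h'
      rw [this, htz]
  · have hc := conjR_invol hC hG hN (t := rho X hC a) ⟨a, rfl⟩
      (by rw [← map_mul, haa, map_one]) hr
    have h' := sq_of_conjR hC hG hN hc (h := a) rfl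
    rw [haa] at h'
    exact absurd (by simpa using h'.symm) (Zm_ne_one (F := F))

end Cfsg.Agent.CSixSevenGFEight
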