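import Cfsg.Agent.CSixSevenGFEight.Sigma

/-!
# The kernel of the action on the odd vectors is generated by the parity involution
-/

set_option autoImplicit false
set_option linter.unusedSectionVars false
set_option maxHeartbeats 1000000

namespace Cfsg.Agent.CSixSevenGFEight

open Cfsg Cfsg.Geo Matrix Cfsg.Agent.CSixSeven

variable {F : Type*} [Field F] {ω : F} {X : Subgroup (GL (Fin 7) F)}

variable (hC : Cubic ω) (hG : Gen8 ω X) (hN : ¬ specialLinear (Fin 7) F ≤ X)
include hC hG hN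

theorem mv_or_lv {q : M7 F} (hq : Ker X q) : mv q = 0 ∨ lv q = 0 := by
  obtain ⟨k, m, l, s⟩ := hq.mul hC hG.le_sl hq
  have hm : mv (q * q) = 0 := by rw [m]; funext r; simp [hC.eight.add_self]
  have hl : lv (q * q) = 0 := by rw [l]; funext r; simp [hC.eight.add_self]
  have hs : Sp (q * q) = Matrix.vecMulVec (mv q) (lv q) := by
    rw [s]; refine Matrix.ext fun r t => ?_; simp [hC.eight.add_self]
  by_contra h
  push Not at h
  obtain ⟨r, hr⟩ := Function.ne_iff.1 h.1
  obtain ⟨t, ht⟩ := Function.ne_iff.1 h.2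
  rcases bottom hC hG hN k hm hl with h0 | h0
  · have := congrFun (congrFun (hs.symm.trans h0) r) t
    simp [Matrix.vecMulVec_apply] at this
    exact this.elim hr ht
  · have e := fun a b => congrFun (congrFun (hs.symm.trans h0) a) b
    simp only [Matrix.vecMulVec_apply, Matrix.one_apply] at e
    have e0 := e 0 0
    have e1 := e 1 1
    have e01 := e 0 1
    simp at e0 e1 e01
    rcases e01 with h | h
    · simp [h] at e0
    · simp [h] at e1

theorem mv_all_or_lv_all :
    (∀ q : M7 F, Ker X q → mv q = 0) ∨ (∀ q : M7 F, Ker X q → lv q = 0) := by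
  by_contra h
  push Not at h
  obtain ⟨⟨p, hp, hmp⟩, ⟨q, hq, hlq⟩⟩ := h
  have hlp := (mv_or_lv hC hG hN hp).resolve_left hmp
  have hmq := (mv_or_lv hC hG hN hq).resolve_right hlq
  obtain ⟨k, m, l, _⟩ := hp.mul hC hG.le_sl hq
  rcases mv_or_lv hC hG hN k with h | h
  · exact hmp (by simpa [m, hmq] using h)
  · exact hlq (by simpa [l, hlp] using h)

omit hN in
theorem conj_real {q : M7 F} (hq : Ker X q) {x : R3} (hx : Real ω X x) :
    ∃ N : M7 F, Ker X N ∧ Qv ω *ᵥ mv N = ι2 F x *ᵥ (Qv ω *ᵥ mv q) := by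
  obtain ⟨M, hM, sM, oM, bM⟩ := hx
  obtain ⟨N, kN, mN, _, _⟩ := hq.conj hC hG.le_sl hM sM oM
  refine ⟨N, kN, ?_⟩
  have : Qv ω * Bm M = ι2 F x * Qv ω := by
    calc Qv ω * Bm M = Qv ω * (Bm M * Qi ω) * Qv ω := by
          rw [Matrix.mul_assoc, Matrix.mul_assoc, qi_qv hC, mul_one]
      _ = _ := by rw [bM, ← Matrix.mul_assoc, qv_qi hC, one_mul]
  rw [mN, Matrix.mulVec_mulVec, Matrix.mulVec_mulVec, this]

theorem exists_constant (hl : ∀ q : M7 F, Ker X q → lv q = 0) {q : M7 F} (hq : Ker X q)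
    (hm : mv q ≠ 0) : ∃ p : M7 F, Ker X p ∧ ∃ l : F, l ≠ 0 ∧ mv p = fun _ => l := by
  have hn : Qv ω *ᵥ mv q ≠ 0 := fun h => hm (by
    have := congrArg (Qi ω *ᵥ ·) h
    simpa [Matrix.mulVec_mulVec, qi_qv hC] using this)
  obtain ⟨i, hi⟩ := Function.ne_iff.1 hn
  obtain ⟨p, kp, hp⟩ : ∃ p, Ker X p ∧ (Qv ω *ᵥ mv p) 2 ≠ 0 := by
    fin_cases i
    · obtain ⟨N, kN, e⟩ := conj_real hC hG hq (real_p210 hC hG)
      refine ⟨N, kN, ?_⟩
      rw [e]
      simpa +decide [Matrix.mulVec, dotProduct, Fin.sum_univ_three, ι2, i2, p210] using hi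
    · obtain ⟨N, kN, e⟩ := conj_real hC hG hq (real_p021 hC hG)
      refine ⟨N, kN, ?_⟩
      rw [e]
      simpa +decide [Matrix.mulVec, dotProduct, Fin.sum_univ_three, ι2, i2, p021] using hi
    · exact ⟨q, hq, hi⟩
  set l := (Qv ω *ᵥ mv p) 2 with hldef
  obtain ⟨N, kN, e⟩ := conj_real hC hG kp (real_x13 hC hG)
  obtain ⟨k, m, _, _⟩ := kp.mul hC hG.le_sl kN
  have hmk : Qv ω *ᵥ mv (p * N) = ![l, 0, 0] := by
    rw [m, Matrix.mulVec_add, e]
    rw [hldef]
    generalize Qv ω *ᵥ mv p = v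
    funext r
    fin_cases r <;> simp +decide [Matrix.mulVec, dotProduct, Fin.sum_univ_three, ι2, i2, x13,
      ← add_assoc, hC.eight.add_self]
  refine ⟨p * N, k, l, hp, ?_⟩
  calc mv (p * N) = Qi ω *ᵥ (Qv ω *ᵥ mv (p * N)) := by
        rw [Matrix.mulVec_mulVec, qi_qv hC, Matrix.one_mulVec]
    _ = fun _ => l := by
      rw [hmk]
      funext r
      have h : ∀ r, qQi r 0 = E8.e 1 := by decide
      simp [Matrix.mulVec, dotProduct, Fin.sum_univ_three, Qi, toF3, h, ev_one hC]

/-- Conjugation by a diagonal element of the centraliser. -/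
theorem conj_diag {q : M7 F} (hq : Ker X q) (hl : lv q = 0) (j : Fin 7)
    (hX : InX X (Dm ω fun i => j * (i * i))) :
    ∃ N : M7 F, Ker X N ∧ (∀ r, mv N r = w ω (j * (kb r * kb r)) * mv q r) ∧ lv N = 0 ∧
      ∀ r t, Sp N r t = w ω (j * (kb r * kb r) - j * (kb t * kb t)) * Sp q r t := by
  have hω := hC.eight.omega
  have sM : Sym (Dm ω fun i => j * (i * i)) := sym_dm fun i => by rw [neg_mul_neg]
  have oM : Dm ω (fun i => j * (i * i)) 0 0 = 1 := by simp [Dm]
  have hk : ∀ r, (0 : Fin 7) ≠ kb r := by decide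
  have lM : lv (Dm ω fun i => j * (i * i)) = 0 := funext fun r => by simp [lv, Dm, hk]
  obtain ⟨N, kN, mN, lN, pN⟩ := hq.conj hC hG.le_sl hX sM oM
  rw [bm_dm] at mN lN pN
  refine ⟨N, kN, fun r => ?_, ?_, fun r t => ?_⟩
  · rw [mN, Matrix.mulVec_diagonal]
  · funext r
    have := congrFun lN r
    rw [Matrix.vecMul_diagonal, hl] at this
    exact (mul_eq_zero.1 this).resolve_right (w_ne_zero hω _)
  · rw [hl, lM] at pN
    have := congrFun (congrFun pN r) t
    simp only [Matrix.vecMulVec_zero, add_zero, Matrix.mul_diagonal, Matrix.diagonal_mul] at this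
    refine mul_right_cancel₀ (w_ne_zero hω (j * (kb t * kb t))) ?_
    rw [this, mul_right_comm, ← w_add hω, sub_add_cancel]

/-- The projection onto the eigenvalues of the three-dimensional module. -/
theorem exists_projected {q : M7 F} (hq : Ker X q) (hl : ∀ q : M7 F, Ker X q → lv q = 0) {l : F}
    (hm : mv q = fun _ => l) :
    ∃ p : M7 F, Ker X p ∧ (mv p = fun _ => l) ∧ ∀ r t, t ≠ r + 1 → Sp p r t = 0 := by
  have hω := hC.eight.omega
  have hG1 : InX X (Dm ω fun i => 1 * (i * i)) := by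
    have h := hG.g
    rw [Gm] at h
    rwa [show (fun i : Fin 7 => 1 * (i * i)) = fun i => i * i by decide]
  have hG2 : InX X (Dm ω fun i => 2 * (i * i)) := by
    have h := hG1.mul hG1
    rw [dm_mul hω] at h
    rwa [show (fun i : Fin 7 => 2 * (i * i)) = fun i => 1 * (i * i) + 1 * (i * i) by decide]
  have hG4 : InX X (Dm ω fun i => 4 * (i * i)) := by
    have h := hG2.mul hG2
    rw [dm_mul hω] at h
    rwa [show (fun i : Fin 7 => 4 * (i * i)) = fun i => 2 * (i * i) + 2 * (i * i) by decide]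
  obtain ⟨N1, k1, m1, l1, s1⟩ := conj_diag hC hG hN hq (hl q hq) 1 hG1
  obtain ⟨N2, k2, m2, l2, s2⟩ := conj_diag hC hG hN hq (hl q hq) 2 hG2
  obtain ⟨N4, k4, m4, l4, s4⟩ := conj_diag hC hG hN hq (hl q hq) 4 hG4
  obtain ⟨ka, ma, la, sa⟩ := hq.mul hC hG.le_sl k1
  obtain ⟨kc, mc, lc, sc⟩ := ka.mul hC hG.le_sl k2
  obtain ⟨kd, md, ld, sd⟩ := kc.mul hC hG.le_sl k4
  refine ⟨_, kd, ?_, fun r t hrt => ?_⟩
  · funext r
    have hsum : ∀ r : Fin 3, E8.add (E8.e 1) (E8.add (E8.wq (1 * (kb r * kb r)))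
        (E8.add (E8.wq (2 * (kb r * kb r))) (E8.wq (4 * (kb r * kb r))))) = E8.e 1 := by decide
    have h := congrArg (ev ω) (hsum r)
    simp only [ev_add hC, ev_wq hC, ev_one hC] at h
    rw [md, mc, ma]
    simp only [Pi.add_apply, m1, m2, m4, hm]
    linear_combination l * h
  · have hsum : ∀ r t : Fin 3, t ≠ r + 1 → E8.add (E8.e 1)
        (E8.add (E8.wq (1 * (kb r * kb r) - 1 * (kb t * kb t)))
        (E8.add (E8.wq (2 * (kb r * kb r) - 2 * (kb t * kb t)))
          (E8.wq (4 * (kb r * kb r) - 4 * (kb t * kb t))))) = E8.e 0 := by decide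
    have h := congrArg (ev ω) (hsum r t hrt)
    simp only [ev_add hC, ev_wq hC, ev_one hC, ev_zero hC] at h
    rw [sd, sc, sa, l1, l2, l4]
    simp only [Matrix.vecMulVec_zero, add_zero, Matrix.add_apply, Matrix.zero_apply, s1, s2, s4]
    linear_combination (Sp q r t) * h

/-- The equation of the Fourier element, evaluated in the model. -/
def fouEq (l a : E8) (t : Bool) : Fin 3 → Fin 3 → E8 := fun r s =>
  E8.add
    (qmul3 (fun i j => E8.add (if j = i + 1 then a else E8.e 0)
      (if t ∧ i = j then E8.e 1 else E8.e 0)) (qBm qF) r s)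
    (E8.add (qmul3 (qBm qF) (fun i j => if j = i + 1 then a else E8.e 0) r s) l)

omit hN in
theorem ev_surj (x : F) : ∃ n : Fin 8, x = ev ω (E8.e n.val) := by
  rcases hC.eight.cases x with rfl | ⟨k, rfl⟩
  · exact ⟨0, (ev_zero hC).symm⟩
  · have h : ∀ k : Fin 7, ∃ n : Fin 8, E8.wq k = E8.e n.val := by decide
    obtain ⟨n, hn⟩ := h k
    exact ⟨n, by rw [← hn, ev_wq hC]⟩

theorem mv_zero (hl : ∀ q : M7 F, Ker X q → lv q = 0) {q : M7 F} (hq : Ker X q) : mv q = 0 := by
  have hF := hC.eight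
  have hω := hF.omega
  by_contra hm
  obtain ⟨q1, kq1, l, hl0, hm1⟩ := exists_constant hC hG hN hl hq hm
  obtain ⟨p, kp, hmp, hsp⟩ := exists_projected hC hG hN kq1 hl hm1
  have hlp := hl p kp
  -- symmetry under the dilation
  obtain ⟨Ns, kNs, mNs, lNs, pNs⟩ := kp.conj hC hG.le_sl hG.s sym_sm (by simp [Sm])
  have bS : ∀ r t : Fin 3, Bm (Sm : M7 F) r t = if r = t + 1 then 1 else 0 := by
    intro r t
    have h : ∀ r t : Fin 3, (kb r = 2 * kb t ↔ r = t + 1) ∧ ¬ kb r = -(2 * kb t) := by decide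
    simp [Bm, Sm, (h r t).1, (h r t).2]
  have lS : lv (Sm : M7 F) = 0 := funext fun r => by
    have h : ∀ r : Fin 3, ¬ (0 : Fin 7) = 2 * kb r := by decide
    simp [lv, Sm, h]
  have hmNs : mv Ns = fun _ => l := by
    rw [mNs, hmp]
    funext r
    simp only [Matrix.mulVec, dotProduct, Fin.sum_univ_three, bS]
    fin_cases r <;> simp +decide
  rw [hlp, lS] at pNs
  simp only [Matrix.vecMulVec_zero, add_zero] at pNs
  have hshift : ∀ r t, Sp Ns r (t + 1) = Sp p (r - 1) t := by
    intro r t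
    have := congrFun (congrFun pNs r) t
    simp only [Matrix.mul_apply, Fin.sum_univ_three, bS] at this
    fin_cases r <;> fin_cases t <;> simp +decide at this ⊢ <;> exact this
  obtain ⟨kk, mk, lk, sk⟩ := kp.mul hC hG.le_sl kNs
  have hmk : mv (p * Ns) = 0 := by
    rw [mk, hmp, hmNs]; funext r; simp [hF.add_self]
  have hlk := hl _ kk
  set a := Sp p 0 1 with ha
  have hrot : Sp p 1 2 = a ∧ Sp p 2 0 = a := by
    have hS : ∀ r t, r ≠ t → Sp p r t + Sp Ns r t = 0 := by
      intro r t hrt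
      have e : Sp (p * Ns) r t = Sp p r t + Sp Ns r t := by
        rw [sk, hl _ kNs]; simp
      rcases bottom hC hG hN kk hmk hlk with h | h <;> rw [h] at e <;>
        simpa [Matrix.one_apply, hrt] using e.symm
    have h1 := hS 1 2 (by decide)
    have h2 := hS 2 0 (by decide)
    have e1 := hshift 1 1
    have e2 := hshift 2 2
    simp +decide at e1 e2
    rw [e1] at h1
    rw [e2] at h2
    exact ⟨hF.eq_of_add h1, (hF.eq_of_add h2).trans (hF.eq_of_add h1)⟩
  have hpat : Sp p = Matrix.of fun r t : Fin 3 => if t = r + 1 then a else 0 := by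
    refine Matrix.ext fun r t => ?_
    by_cases h : t = r + 1
    · subst h
      fin_cases r <;> simp +decide [ha, hrot.1, hrot.2]
    · simp [h, hsp r t h]
  -- the Fourier element
  obtain ⟨Nf, kNf, mNf, lNf, pNf⟩ := kp.conj hC hG.le_sl hG.f sym_fm (by simp [Fm])
  have bF : Bm (Fm ω) = toF3 ω (qBm qF) := by rw [← toF_qF hC, bm_toF hC]
  have lF : lv (Fm ω) = fun _ => 1 := funext fun r => by simp [lv, Fm]
  have hrow : ∀ r, E8.add (qBm qF r 0) (E8.add (qBm qF r 1) (qBm qF r 2)) = E8.e 1 := by decide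
  have hmNf : mv Nf = fun _ => l := by
    rw [mNf, hmp, bF]
    funext r
    have h := congrArg (ev ω) (hrow r)
    simp only [ev_add hC, ev_one hC] at h
    simp only [Matrix.mulVec, dotProduct, Fin.sum_univ_three, toF3, Matrix.of_apply]
    linear_combination l * h
  obtain ⟨kg, mg, lg, sg⟩ := kp.mul hC hG.le_sl kNf
  have hmg : mv (p * Nf) = 0 := by rw [mg, hmp, hmNf]; funext r; simp [hF.add_self]
  obtain ⟨t, ht⟩ : ∃ t : Bool, Sp Nf = Sp p + if t then 1 else 0 := by
    have e : Sp (p * Nf) = Sp p + Sp Nf := by rw [sg, hl _ kNf]; simp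
    rcases bottom hC hG hN kg hmg (hl _ kg) with h | h
    · refine ⟨false, ?_⟩
      rw [h] at e
      refine Matrix.ext fun r s => ?_
      have e' := congrFun (congrFun e r) s
      simp only [Matrix.add_apply, Matrix.zero_apply] at e'
      simpa using (hF.eq_of_add e'.symm).symm
    · refine ⟨true, ?_⟩
      rw [h] at e
      refine Matrix.ext fun r s => ?_
      have e' := congrFun (congrFun e r) s
      simp only [Matrix.add_apply] at e'
      simp only [if_true, Matrix.add_apply]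
      linear_combination -e' - (Sp p r s) * hF.two
  obtain ⟨nl, el⟩ := ev_surj hC hG l
  obtain ⟨na, ea⟩ := ev_surj hC hG a
  have heq : ∀ r s, fouEq (E8.e nl.val) (E8.e na.val) t r s = E8.e 0 := by
    intro r s
    refine ev_injective hC ?_
    have h := congrFun (congrFun pNf r) s
    rw [hlp, hmNf, lF, ht, hpat, bF] at h
    simp only [Matrix.vecMulVec_zero, Matrix.add_apply, Matrix.mul_apply, Fin.sum_univ_three,
      Matrix.vecMulVec_apply, toF3, Matrix.of_apply, Matrix.zero_apply, add_zero, mul_one, el, ea] at h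
    cases t <;>
      simp only [fouEq, qmul3, ev_add hC, ev_mul hC, apply_ite (ev ω), ev_zero hC, ev_one hC,
        if_true, if_false, Bool.false_eq_true, Matrix.zero_apply, Matrix.one_apply, false_and,
        true_and] at h ⊢ <;>
      grind [hF.two]
  have hsol : ∀ nl na : Fin 8, ∀ t : Bool, (∀ r s, fouEq (E8.e nl.val) (E8.e na.val) t r s = E8.e 0) →
      (nl = 0 ∨ (nl = 1 ∧ na = 1)) := by decide +kernel
  rcases hsol nl na t heq with h | ⟨h1, h2⟩
  · exact hl0 (by rw [el, h]; exact ev_zero hC)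
  have hl1 : l = 1 := by rw [el, h1]; exact ev_one hC
  have ha1 : a = 1 := by rw [ea, h2]; exact ev_one hC
  have hgl : InX X (toF ω Cert.gl) := by
    have : p = toF ω Cert.gl := by
      refine ext_coords hF kp.sym (sym_toF hC (by decide +kernel)) ?_ ?_ ?_ ?_ ?_
      · rw [kp.bm, bm_toF hC, show qBm Cert.gl = qi2 1 by decide +kernel, toF3_qi2 hC, ι2_one hC]
      · rw [hpat, ha1]
        have h : ∀ r t : Fin 3, Cert.gl (kb r) (-kb t) = if t = r + 1 then E8.e 1 else E8.e 0 := by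
          decide +kernel
        refine Matrix.ext fun r t => ?_
        by_cases e : t = r + 1 <;> simp [Sp, toF, h, e, ev_one hC, ev_zero hC]
      · rw [hmp, hl1]
        have h : ∀ r : Fin 3, Cert.gl (kb r) 0 = E8.e 1 := by decide +kernel
        funext r; simp [mv, toF, h, ev_one hC]
      · rw [hlp]
        have h : ∀ r : Fin 3, Cert.gl 0 (kb r) = E8.e 0 := by decide +kernel
        funext r; simp [lv, toF, h, ev_zero hC]
      · rw [kp.zero_zero hC hG.le_sl]
        simp [toF, show Cert.gl 0 0 = E8.e 1 by decide +kernel, ev_one hC]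
    exact this ▸ kp.inX
  exact hN (Cert.word_l hC hG hgl)

end Cfsg.Agent.CSixSevenGFEight
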