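import Cfsg.Agent.CSixSevenGFEight.Odd
import Cfsg.Agent.CSixSeven.Standard

/-!
# Maximality in `SL₇(8)` of the normaliser of the group of order 343
-/

set_option autoImplicit false
set_option linter.unusedSectionVars false

namespace Cfsg.Agent.CSixSevenGFEight

open Cfsg Cfsg.Geo Matrix Cfsg.Agent.CSixSeven
open scoped Fin.CommRing commutatorElement MatrixGroups

variable {F : Type*} [Field F] {ω : F}

/-- An overgroup, inside `SL₇`, of the normaliser of the standard group contains the generators. -/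
theorem gen8_of_normalizer (h8 : Eight ω)
    {X : Subgroup (GL (Fin 7) F)} (hX : X ≤ specialLinear (Fin 7) F)
    (hle : Subgroup.normalizer (Rs h8.omega : Set (GL (Fin 7) F)) ⊓ specialLinear (Fin 7) F ≤ X) :
    Gen8 ω X := by
  have h2 := h8.two
  have h7 : (7 : F) ≠ 0 := by rw [h8.seven]; exact one_ne_zero
  have hω := h8.omega
  have key : ∀ M : M7 F, M.det = 1 → ∀ a b a' b' c c' : Fin 7,
      M * Ym ω = El ω c a b * M → M * Xm = El ω c' a' b' * M → InX X M := by
    intro M hd a b a' b' c c' e e'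
    let g : GL (Fin 7) F := ((Matrix.isUnit_iff_isUnit_det M).2 (hd ▸ isUnit_one)).unit
    refine ⟨g, hle ⟨mem_normalizer_of_normR hω ⟨_, _, (inR_iff hω).2 ⟨c, a, b, rfl⟩,
      (inR_iff hω).2 ⟨c', a', b', rfl⟩, e, e'⟩, GeoClasses.mem_specialLinear_iff.2 hd⟩, rfl⟩
  have hmulY : ∀ (M : M7 F) i j, (M * Ym ω) i j = M i j * w ω j := fun M i j => by
    rw [Ym, Dm, Matrix.mul_diagonal]
  have hmulX : ∀ (M : M7 F) i j, (M * (Xm : M7 F)) i j = M i (j + 1) := fun M i j => by
    rw [Matrix.mul_apply, Finset.sum_eq_single (j + 1)]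
    · simp [Xm]
    · intro c _ hc; simp [Xm, hc]
    · simp
  have helmul : ∀ (c a b : Fin 7) (M : M7 F) i j,
      (El ω c a b * M) i j = w ω (c + a * i) * M (i - b) j := fun c a b M i j => by
    rw [Matrix.mul_apply, Finset.sum_eq_single (i - b)]
    · simp [El]
    · intro k _ hk
      simp [El, show i ≠ k + b from fun h => hk (by rw [h]; simp)]
    · simp
  refine ⟨h8, hX, ?_, ?_, ?_, ?_, ?_, ?_⟩
  · have hy : yG hω ∈ Subgroup.normalizer (Rs hω : Set (GL (Fin 7) F)) :=
      Subgroup.le_normalizer (elG_mem hω _ _ _)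
    refine ⟨yG hω, hle ⟨hy, GeoClasses.mem_specialLinear_iff.2 ?_⟩, val_yG hω⟩
    rw [val_yG, Ym]
    simpa using det_Dm_linear hω 1
  · have hx : xG hω ∈ Subgroup.normalizer (Rs hω : Set (GL (Fin 7) F)) :=
      Subgroup.le_normalizer (elG_mem hω _ _ _)
    refine ⟨xG hω, hle ⟨hx, GeoClasses.mem_specialLinear_iff.2 ?_⟩, val_xG hω⟩
    rw [val_xG, det_Xm]
  · refine key _ (det_Dm_quad hω) 1 0 2 1 0 6 ?_ ?_
    · ext i j
      rw [hmulY, helmul, Gm, Dm, Matrix.diagonal_apply, sub_zero, zero_add, one_mul,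
        Matrix.diagonal_apply]
      by_cases h : i = j <;> simp [h, mul_comm]
    · ext i j
      rw [hmulX, helmul, Gm, Dm, Matrix.diagonal_apply, Matrix.diagonal_apply]
      by_cases h : i = j + 1
      · rw [if_pos h, if_pos (by rw [h]; simp), ← w_add hω, h]
        congr 1
        clear h; revert j; decide
      · rw [if_neg h, if_neg (fun e => h (by rw [← e]; simp)), mul_zero]
  · refine key _ det_Sm 4 0 0 2 0 0 ?_ ?_
    · ext i j
      rw [hmulY, helmul]
      simp only [Sm, Matrix.of_apply, sub_zero, zero_add]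
      by_cases h : i = 2 * j
      · rw [if_pos h, one_mul, mul_one, h]
        congr 1
        clear h; revert j; decide
      · rw [if_neg h, mul_zero, zero_mul]
    · ext i j
      rw [hmulX, helmul]
      simp only [Sm, Matrix.of_apply, zero_mul, add_zero, w_zero, one_mul]
      exact if_congr ⟨fun h => by rw [h]; ring, fun h => by linear_combination h⟩ rfl rfl
  · refine key _ det_Zm 6 0 0 6 0 0 ?_ ?_
    · ext i j
      rw [hmulY, helmul]
      simp only [Zm, Matrix.of_apply, sub_zero, zero_add]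
      by_cases h : i = -j
      · rw [if_pos h, h, show (6 : Fin 7) * -j = j by clear h; revert j; decide, mul_comm]
      · rw [if_neg h, zero_mul, mul_zero]
    · ext i j
      rw [hmulX, helmul]
      simp only [Zm, Matrix.of_apply, zero_mul, add_zero, w_zero, one_mul]
      refine if_congr ⟨fun h => ?_, fun h => ?_⟩ rfl rfl <;>
        (revert h; revert i j; decide)
  · have hd : (Fm ω).det = 1 := h8.eq_one_of_sq (by
      rw [← Matrix.det_mul, fm_mul_fm hω, Matrix.det_smul, det_Zm, h8.neg, h8.seven, one_pow, one_mul])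
    refine key _ hd 0 6 1 0 0 0 ?_ ?_
    · ext i j
      rw [hmulY, helmul]
      simp only [Fm, Matrix.of_apply, zero_add]
      rw [← w_add hω, ← w_add hω]
      congr 1
      revert i j; decide
    · ext i j
      rw [hmulX, helmul]
      simp only [Fm, Matrix.of_apply, sub_zero, zero_add]
      rw [← w_add hω]
      congr 1
      ring

variable [Finite F] {X : Subgroup (GL (Fin 7) F)}

/-- If the parity involution is the only involution of its centraliser and the odd normal subgroups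
of that centraliser are scalar, the overgroup normalises the group of order 343. -/
theorem normR_of_uniq (hG : Gen8 ω X) (hu : Uniq X)
    (hO : ∀ N ≤ Kz X, Odd (Nat.card N) → (∀ k ∈ Kz X, ∀ n ∈ N, k * n * k⁻¹ ∈ N) →
      N ≤ scalars (Fin 7) F) :
    ∀ h ∈ X, NormR ω (h : M7 F) := by
  have : Fact (Nat.Prime 2) := ⟨Nat.prime_two⟩
  have hω := hG.eight.omega
  obtain ⟨tz, htX, etz⟩ := hG.z
  obtain ⟨gy, hyX, ey⟩ := hG.y
  obtain ⟨gx, hxX, ex⟩ := hG.x
  set t : X := ⟨tz, htX⟩ with ht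
  have htt : t * t = 1 := Subtype.ext (Units.ext (by simp [ht, etz, Zm_sq]))
  have ht2 : orderOf t = 2 := by
    refine orderOf_eq_prime (by rw [pow_two, htt]) fun h => ?_
    have h' : (tz : M7 F) = 1 := by
      rw [show tz = 1 from congrArg Subtype.val h, Units.val_one]
    exact Zm_ne_one (etz ▸ h')
  have hiso : Invol.IsIsolatedInv t := by
    refine ⟨ht2, fun g hg => Subtype.ext (Units.ext ?_)⟩
    have h2 : orderOf (((g * t * g⁻¹ : X)) : GL (Fin 7) F) = 2 := by
      rw [Subgroup.orderOf_coe, ← ht2, ← MulEquiv.orderOf_eq (MulAut.conj g) t, MulAut.conj_apply]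
    have hk : ((g * t * g⁻¹ : X) : GL (Fin 7) F) ∈ Kz X := by
      refine ⟨(g * t * g⁻¹).2, ?_⟩
      have := congrArg (fun x : X => ((x : GL (Fin 7) F) : M7 F)) hg.eq
      show _ * _ = _ * _
      simpa [ht, etz] using this
    rw [hu _ hk h2]
    exact etz.symm
  set O := pPrimeCore 2 X with hOdef
  have hodd : Odd (Nat.card O) :=
    Nat.odd_iff.2 (Nat.two_dvd_ne_zero.1 Cores.not_dvd_card_pPrimeCore)
  have hcomm : ∀ g : X, ⁅t, g⁆ ∈ O := fun g => Invol.zStar_theorem X t hiso g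
  have htinv : t⁻¹ = t := inv_eq_of_mul_eq_one_right htt
  -- the generators lie in the core
  have hmem : ∀ g : X, g ^ 7 = 1 → t * g * t * g = 1 → g ∈ O := by
    intro g h7 hinv
    have e : ⁅t, g⁆ = (g ^ 2)⁻¹ := by
      rw [commutatorElement_def, htinv, pow_two, _root_.mul_inv_rev,
        show t * g * t = g⁻¹ from eq_inv_of_mul_eq_one_left hinv]
    have h2 : g ^ 2 ∈ O := inv_mem_iff.1 (e ▸ hcomm g)
    have h8 : g = (g ^ 2) ^ 4 := by rw [← pow_mul, pow_succ, h7, one_mul]
    rw [h8]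
    exact pow_mem h2 4
  have hpow7 : ∀ (g : GL (Fin 7) F), (g : M7 F) ^ 7 = 1 → g ^ 7 = 1 := fun g h =>
    Units.ext (by rw [Units.val_pow_eq_pow_val, h, Units.val_one])
  set y : X := ⟨gy, hyX⟩ with hy
  set x : X := ⟨gx, hxX⟩ with hx
  have hyO : y ∈ O := by
    refine hmem y (Subtype.ext (hpow7 gy ?_)) (Subtype.ext (Units.ext ?_))
    · rw [ey, Ym, Dm, Matrix.diagonal_pow, ← Matrix.diagonal_one]
      congr 1; funext i
      show w ω i ^ 7 = 1
      rw [w, ← pow_mul, mul_comm, pow_mul, hω.pow_seven, one_pow]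
    · simp [ht, hy, etz, ey, Ym_Zm_inv hω]
  have hxO : x ∈ O := by
    refine hmem x (Subtype.ext (hpow7 gx ?_)) (Subtype.ext (Units.ext ?_))
    · rw [ex]
      ext i j
      rw [Xm_pow_apply, Matrix.one_apply, show ((7 : ℕ) : Fin 7) = 0 from rfl, add_zero]
    · simp [ht, hx, etz, ex, Xm_Zm_inv]
  -- the fixed points of `t` in the core are scalar
  set S : Subgroup X := (scalars (Fin 7) F).subgroupOf X with hSdef
  have hS : ∀ s ∈ S, ∀ g : X, s * g = g * s := by
    intro s hs g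
    obtain ⟨c, hc⟩ := (mem_scalars_iff _).1 (Subgroup.mem_subgroupOf.1 hs)
    refine Subtype.ext (Units.ext ?_)
    rw [Subgroup.coe_mul, Subgroup.coe_mul, Units.val_mul, Units.val_mul, hc, Matrix.smul_mul,
      Matrix.one_mul, Matrix.mul_smul, Matrix.mul_one]
  have hfix : ∀ s ∈ O, t * s * t = s → s ∈ S := by
    intro s hs hts
    have hN : O.map X.subtype ⊓ Kz X ≤ scalars (Fin 7) F := by
      refine hO _ inf_le_right ?_ ?_
      · refine hodd.of_dvd_nat ?_
        rw [← Subgroup.card_subtype]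
        exact Subgroup.card_dvd_of_le inf_le_left
      · intro k hk n hn
        obtain ⟨⟨n', hn', e'⟩, hnk⟩ := hn
        refine ⟨⟨⟨k, hk.1⟩ * n' * ⟨k, hk.1⟩⁻¹, (inferInstance : O.Normal).conj_mem n' hn' _, ?_⟩,
          (Kz X).mul_mem ((Kz X).mul_mem hk hnk) ((Kz X).inv_mem hk)⟩
        rw [← e', map_mul, map_mul, map_inv]
        rfl
    have hsk : (s : GL (Fin 7) F) ∈ Kz X := by
      refine ⟨s.2, ?_⟩
      have h : s * t = t * s := by
        calc s * t = t * s * t * t := by rw [hts]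
          _ = t * s := by rw [mul_assoc (t * s), htt, mul_one]
      have := congrArg (fun x : X => ((x : GL (Fin 7) F) : M7 F)) h
      simp only [Subgroup.coe_mul, Units.val_mul, ht, etz] at this
      exact this
    exact Subgroup.mem_subgroupOf.2 (hN ⟨⟨s, hs, rfl⟩, hsk⟩)
  -- members of the core commute up to scalars
  have hab : ∀ o ∈ O, ∀ u ∈ O, ∃ k : F, ((o : GL (Fin 7) F) : M7 F) * ((u : GL (Fin 7) F) : M7 F) =
      k • (((u : GL (Fin 7) F) : M7 F) * ((o : GL (Fin 7) F) : M7 F)) := by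
    intro o ho u hu
    obtain ⟨s, hs, e⟩ := comm_mod_central htt O hodd S hS hfix ho hu
    obtain ⟨c, hc⟩ := (mem_scalars_iff _).1 (Subgroup.mem_subgroupOf.1 hs)
    refine ⟨c, ?_⟩
    rw [← Units.val_mul, ← Units.val_mul, ← Subgroup.coe_mul, ← Subgroup.coe_mul, e, Subgroup.coe_mul,
      Units.val_mul, hc, Matrix.smul_mul, Matrix.one_mul]
  have hR : ∀ o ∈ O, InR ω ((o : GL (Fin 7) F) : M7 F) := by
    intro o ho
    obtain ⟨k, hk⟩ := hab o ho y hyO
    obtain ⟨k', hk'⟩ := hab o ho x hxO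
    simp only [hy, hx, ey, ex] at hk hk'
    obtain ⟨v, a, b, hv⟩ := scaled_of_comm hω (o : GL (Fin 7) F).ne_zero hk hk'
    have hdo : Matrix.det ((o : GL (Fin 7) F) : M7 F) = 1 :=
      GeoClasses.mem_specialLinear_iff.1 (hG.le_sl o.2)
    have hdx : Matrix.det (Xm : M7 F) = 1 := ex ▸ GeoClasses.mem_specialLinear_iff.1 (hG.le_sl hxX)
    rw [hv, Matrix.det_smul, Matrix.det_mul, Matrix.det_pow, hdx, det_Dm_linear hω, one_pow,
      mul_one, mul_one, Fintype.card_fin] at hdo
    obtain ⟨c, rfl⟩ := exists_w hω hdo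
    exact ⟨c, a, b, hv⟩
  intro h hh
  set g : X := ⟨h, hh⟩ with hg
  have hn : ∀ o ∈ O, InR ω ((g * o * g⁻¹ : X) : GL (Fin 7) F).val := fun o ho =>
    hR _ ((inferInstance : O.Normal).conj_mem o ho g)
  refine ⟨_, _, hn y hyO, hn x hxO, ?_, ?_⟩
  · rw [← ey, ← Units.val_mul, ← Units.val_mul]
    congr 1
    simp [hg, hy, mul_assoc]
  · rw [← ex, ← Units.val_mul, ← Units.val_mul]
    congr 1
    simp [hg, hx, mul_assoc]


/-- Changing the root of unity. -/
theorem cubic_or (h8 : Eight ω) : ω ^ 3 = ω + 1 ∨ (ω ^ 6) ^ 3 = ω ^ 6 + 1 := by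
  have h : (ω ^ 3 + ω + 1) * (ω ^ 3 + ω ^ 2 + 1) = 0 := by
    have e : (ω - 1) * ((ω ^ 3 + ω + 1) * (ω ^ 3 + ω ^ 2 + 1)) = 0 := by
      linear_combination h8.omega.pow_seven + (ω ^ 4 - ω ^ 3) * h8.two
    exact (mul_eq_zero.1 e).resolve_left (sub_ne_zero.2 h8.omega.ne_one)
  rcases mul_eq_zero.1 h with h | h
  · left
    linear_combination h - (ω + 1) * h8.two
  · right
    linear_combination (ω ^ 11 + ω ^ 4) * h8.omega.pow_seven + (ω ^ 3 + ω ^ 2 + 1) * h -
      (ω ^ 6 + ω ^ 5 + ω ^ 3 + ω ^ 2 + 1) * h8.two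

/-- The generators for the inverse root of unity. -/
theorem gen8_inv (hG : Gen8 ω X) : Gen8 (ω ^ 6) X := by
  have hω := hG.eight.omega
  have hω' : CSixSeven.Omega (ω ^ 6) := by
    refine ⟨by rw [← pow_mul, mul_comm, pow_mul, hω.pow_seven, one_pow], fun h => hω.ne_one ?_⟩
    calc ω = ω * ω ^ 6 := by rw [h, mul_one]
      _ = 1 := by rw [← pow_succ', hω.pow_seven]
  have hw : ∀ i : Fin 7, w (ω ^ 6) i = w ω (-i) := by
    intro i
    rw [show w (ω ^ 6) i = w ω 6 ^ (i : ℕ) by rfl, ← w_mul hω]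
    exact congrArg _ ((show ∀ i : Fin 7, 6 * i = -i by decide) i)
  have h8 : Eight (ω ^ 6) := ⟨hω', hG.eight.two, fun x => by
    rcases hG.eight.cases x with h | ⟨k, h⟩
    · exact Or.inl h
    · exact Or.inr ⟨-k, by rw [hw, neg_neg, h]⟩⟩
  have hd : ∀ f : Fin 7 → Fin 7, InX X (Dm ω f) → InX X (Dm ω fun i => -f i) := by
    intro f hf
    have h := hf.pow 6
    rwa [Dm, Matrix.diagonal_pow, show (fun i => w ω (f i)) ^ 6 = fun i => w ω (-f i) from
      funext fun i => by
        rw [Pi.pow_apply, show (6 : ℕ) = ((6 : Fin 7) : ℕ) from rfl, ← w_mul hω]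
        exact congrArg _ ((show ∀ c : Fin 7, c * 6 = -c by decide) (f i))] at h
  have hD : ∀ f : Fin 7 → Fin 7, Dm (ω ^ 6) f = Dm ω fun i => -f i := by
    intro f; simp only [Dm, hw]
  refine ⟨h8, hG.le_sl, ?_, hG.x, ?_, hG.s, hG.z, ?_⟩
  · rw [Ym, hD]; exact hd _ hG.y
  · rw [Gm, hD]; exact hd _ hG.g
  · have h := hG.f.mul hG.z
    convert h using 1
    refine Matrix.ext fun i j => ?_
    rw [CSixSeven.mul_Zm_apply, hG.eight.neg]
    simp [Fm, hw]

/-- The dichotomy over eight elements. -/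
theorem normR_or_sl (hG : Gen8 ω X) :
    (∀ h ∈ X, NormR ω (h : M7 F)) ∨ specialLinear (Fin 7) F ≤ X := by
  by_cases hN : specialLinear (Fin 7) F ≤ X
  · exact Or.inr hN
  rcases cubic_or hG.eight with hc | hc
  · exact Or.inl (normR_of_uniq hG (uniq ⟨hG.eight, hc⟩ hG hN)
      (odd_normal_scalar ⟨hG.eight, hc⟩ hG hN))
  · have hG' := gen8_inv hG
    exact Or.inl (normR_of_uniq hG (uniq ⟨hG'.eight, hc⟩ hG' hN)
      (odd_normal_scalar ⟨hG'.eight, hc⟩ hG' hN))

/-- Clause 5 of maximality for symplectic type in dimension seven, over eight elements. -/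
theorem symplecticType_seven_maximal_eight [Fintype F] (hcard : Fintype.card F = 8)
    (R : Subgroup (GL (Fin 7) F)) (hR : IsLinearSymplecticTypeData 7 R) :
    IsMaximalIn (specialLinear (Fin 7) F) (subgroupNormalizer R ⊓ specialLinear (Fin 7) F) := by
  obtain ⟨-, ω, hω, P, hP⟩ := exists_frame hR
  have h2 : (2 : F) = 0 := by
    have h : ((8 : ℕ) : F) = 0 := by rw [← hcard]; exact Nat.cast_card_eq_zero F
    have h' : (2 : F) ^ 3 = 0 := by norm_num; exact_mod_cast h
    exact pow_eq_zero_iff (three_ne_zero) |>.1 h'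
  have h8 : Eight ω := ⟨hω, h2, fun x => by
    rcases eq_or_ne x 0 with h | h
    · exact Or.inl h
    · have h7 : x ^ 7 = 1 := by
        have := FiniteField.pow_card_sub_one_eq_one x h
        rwa [hcard] at this
      obtain ⟨k, hk⟩ := exists_w hω h7
      exact Or.inr ⟨k, hk⟩⟩
  have hsl : (specialLinear (Fin 7) F).map (MulAut.conj P).toMonoidHom = specialLinear (Fin 7) F := by
    have hP0 : (P : M7 F).det ≠ 0 := ((Matrix.isUnit_iff_isUnit_det _).1 P.isUnit).ne_zero
    refine le_antisymm ?_ fun g hg => ?_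
    · rintro _ ⟨g, hg, rfl⟩
      rw [SetLike.mem_coe, GeoClasses.mem_specialLinear_iff] at hg
      rw [GeoClasses.mem_specialLinear_iff]
      simp [MulAut.conj_apply, hg, hP0]
    · refine ⟨P⁻¹ * g * P, ?_, by simp [MulAut.conj_apply]; group⟩
      rw [SetLike.mem_coe, GeoClasses.mem_specialLinear_iff] at *
      simp [hg, hP0]
  have hstd : IsMaximalIn (specialLinear (Fin 7) F)
      (Subgroup.normalizer (Rs hω : Set (GL (Fin 7) F)) ⊓ specialLinear (Fin 7) F) := by
    refine ⟨lt_of_le_not_ge inf_le_right fun hle => ?_, fun X hle hX => ?_⟩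
    · obtain ⟨t, ht, htn⟩ := transvection_not_mem hω
      exact htn (hle ht).1
    · rcases normR_or_sl (gen8_of_normalizer h8 hX hle) with h | h
      · exact Or.inl (le_antisymm
          (le_inf (fun g hg => mem_normalizer_of_normR hω (h g hg)) hX) hle)
      · exact Or.inr (le_antisymm hX h)
  have h := MaxSub.CSixFive.isMaximalIn_map (MulAut.conj P) hstd
  rw [Subgroup.map_inf_eq _ _ _ (MulAut.conj P).injective, hsl,
    ← MaxSub.CSixFive.normalizer_map, hP] at h
  exact h

end Cfsg.Agent.CSixSevenGFEight
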