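import Cfsg.Agent.CSixSevenGFEight.Basic

/-!
# A computable model of the field with eight elements
-/

set_option autoImplicit false
set_option linter.unusedSectionVars false

namespace Cfsg.Agent.CSixSevenGFEight

open Cfsg Cfsg.Geo Matrix Cfsg.Agent.CSixSeven

/-- The elements `a + b t + c t²` with `t³ = t + 1`. -/
structure E8 where
  a : Bool
  b : Bool
  c : Bool
deriving DecidableEq

namespace E8

/-- The element with the given three bits. -/
def e (n : ℕ) : E8 := ⟨n.testBit 0, n.testBit 1, n.testBit 2⟩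

def add (x y : E8) : E8 := ⟨xor x.a y.a, xor x.b y.b, xor x.c y.c⟩

/-- Multiplication by the generator. -/
def xt (x : E8) : E8 := ⟨x.c, xor x.a x.c, x.b⟩

def sc (t : Bool) (x : E8) : E8 := ⟨t && x.a, t && x.b, t && x.c⟩

def mul (x y : E8) : E8 := add (sc y.a x) (add (sc y.b x.xt) (sc y.c x.xt.xt))

/-- Powers of the generator. -/
def pw : ℕ → E8
  | 0 => e 1
  | n + 1 => (pw n).xt

/-- Powers indexed modulo seven. -/
def wq (i : Fin 7) : E8 := pw i.val

end E8

/-- Matrices over the model. -/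
abbrev Q7 := Fin 7 → Fin 7 → E8

/-- Product of model matrices. -/
def qmul (A B : Q7) : Q7 := fun i j =>
  E8.add (E8.mul (A i 0) (B 0 j)) (E8.add (E8.mul (A i 1) (B 1 j))
    (E8.add (E8.mul (A i 2) (B 2 j)) (E8.add (E8.mul (A i 3) (B 3 j))
      (E8.add (E8.mul (A i 4) (B 4 j)) (E8.add (E8.mul (A i 5) (B 5 j))
        (E8.mul (A i 6) (B 6 j)))))))

def qdm (f : Fin 7 → Fin 7) : Q7 := fun i j => if i = j then E8.wq (f i) else E8.e 0

def qperm (c : Fin 7 → Fin 7) : Q7 := fun i j => if i = c j then E8.e 1 else E8.e 0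

def qY : Q7 := qdm fun i => i

def qG : Q7 := qdm fun i => i * i

def qX : Q7 := qperm fun j => j + 1

def qS : Q7 := qperm fun j => 2 * j

def qZ : Q7 := qperm fun j => -j

def qF : Q7 := fun i j => E8.wq (i * j)

section Trans

variable {F : Type*} [Field F] {ω : F}

/-- A bit in the field. -/
def bit (F : Type*) [Field F] (t : Bool) : F := if t then 1 else 0

/-- The field element of a model element. -/
def ev (ω : F) (x : E8) : F := bit F x.a + bit F x.b * ω + bit F x.c * ω ^ 2

/-- The matrix of a model matrix. -/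
def toF (ω : F) (A : Q7) : M7 F := Matrix.of fun i j => ev ω (A i j)

/-- The eight element field with the cubic equation of the model. -/
structure Cubic (ω : F) : Prop where
  eight : Eight ω
  cub : ω ^ 3 = ω + 1

variable (hC : Cubic ω)
include hC

theorem bit_xor (s t : Bool) : bit F (xor s t) = bit F s + bit F t := by
  cases s <;> cases t <;> simp [bit, hC.eight.add_self]

theorem ev_add (x y : E8) : ev ω (E8.add x y) = ev ω x + ev ω y := by
  simp only [ev, E8.add, bit_xor hC]
  ring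

theorem ev_xt (x : E8) : ev ω x.xt = ω * ev ω x := by
  simp only [ev, E8.xt, bit_xor hC]
  linear_combination -(bit F x.c) * hC.cub

theorem ev_sc (t : Bool) (x : E8) : ev ω (E8.sc t x) = bit F t * ev ω x := by
  cases t <;> simp [ev, E8.sc, bit]

theorem ev_mul (x y : E8) : ev ω (E8.mul x y) = ev ω x * ev ω y := by
  simp only [E8.mul, ev_add hC, ev_sc hC, ev_xt hC]
  simp only [ev]
  ring

theorem ev_zero : ev ω (E8.e 0) = 0 := by simp [ev, E8.e, bit]

theorem ev_one : ev ω (E8.e 1) = 1 := by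
  have h1 : E8.e 1 = ⟨true, false, false⟩ := by decide
  simp [ev, h1, bit]

theorem ev_pw (n : ℕ) : ev ω (E8.pw n) = ω ^ n := by
  induction n with
  | zero => simp [E8.pw, ev_one hC]
  | succ n ih => simp [E8.pw, ev_xt hC, ih, pow_succ']

theorem ev_wq (i : Fin 7) : ev ω (E8.wq i) = w ω i := by simp [E8.wq, w, ev_pw hC]

theorem toF_mul (A B : Q7) : toF ω (qmul A B) = toF ω A * toF ω B := by
  refine Matrix.ext fun i j => ?_
  simp only [toF, qmul, Matrix.of_apply, Matrix.mul_apply, Fin.sum_univ_seven, ev_add hC,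
    ev_mul hC]
  ring

theorem toF_qdm (f : Fin 7 → Fin 7) : toF ω (qdm f) = Dm ω f := by
  refine Matrix.ext fun i j => ?_
  by_cases h : i = j
  · subst h; simp [toF, qdm, Dm, ev_wq hC]
  · simp [toF, qdm, Dm, h, ev_zero hC]

theorem toF_qperm (c : Fin 7 → Fin 7) :
    toF ω (qperm c) = Matrix.of fun i j => if i = c j then 1 else 0 := by
  refine Matrix.ext fun i j => ?_
  by_cases h : i = c j <;> simp [toF, qperm, h, ev_zero hC, ev_one hC]

theorem toF_qY : toF ω qY = Ym ω := toF_qdm hC _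

theorem toF_qG : toF ω qG = Gm ω := toF_qdm hC _

theorem toF_qX : toF ω qX = Xm := toF_qperm hC _

theorem toF_qS : toF ω qS = Sm := toF_qperm hC _

theorem toF_qZ : toF ω qZ = Zm := by
  rw [qZ, toF_qperm hC]
  simp [Zm, hC.eight.neg]

theorem toF_qF : toF ω qF = Fm ω := by
  refine Matrix.ext fun i j => ?_
  simp [toF, qF, Fm, ev_wq hC]

theorem ev_injective {x : E8} (h : ev ω x = 0) : x = E8.e 0 := by
  by_contra hne
  obtain ⟨y, hy⟩ : ∃ n : Fin 8, E8.mul x (E8.e n) = E8.e 1 := by
    revert hne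
    rcases x with ⟨_ | _, _ | _, _ | _⟩ <;> decide
  have := congrArg (ev ω) hy
  rw [ev_mul hC, h, zero_mul, ev_one hC] at this
  exact zero_ne_one this

end Trans

/-- An explicit transvection in the model. -/
def IsTvQ (A : Q7) (u v : Fin 7 → E8) : Prop :=
  (∀ i j, A i j = E8.add (if i = j then E8.e 1 else E8.e 0) (E8.mul (u i) (v j))) ∧
    (∃ i, u i ≠ E8.e 0) ∧ (∃ i, v i ≠ E8.e 0) ∧
    E8.add (E8.mul (v 0) (u 0)) (E8.add (E8.mul (v 1) (u 1)) (E8.add (E8.mul (v 2) (u 2))
      (E8.add (E8.mul (v 3) (u 3)) (E8.add (E8.mul (v 4) (u 4)) (E8.add (E8.mul (v 5) (u 5))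
        (E8.mul (v 6) (u 6))))))) = E8.e 0

theorem isTv_of_isTvQ {F : Type*} [Field F] {ω : F} (hC : Cubic ω) {A : Q7} {u v : Fin 7 → E8}
    (h : IsTvQ A u v) : IsTv (toF ω A) := by
  obtain ⟨h1, ⟨i, hi⟩, ⟨j, hj⟩, h4⟩ := h
  refine ⟨fun k => ev ω (u k), fun k => ev ω (v k),
    fun e => hi (ev_injective hC (congrFun e i)), fun e => hj (ev_injective hC (congrFun e j)),
    ?_, ?_⟩
  · have := congrArg (ev ω) h4
    simp only [ev_add hC, ev_mul hC, ev_zero hC] at this
    simp only [dotProduct, Fin.sum_univ_seven]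
    linear_combination this
  · refine Matrix.ext fun a b => ?_
    simp only [toF, Matrix.of_apply, h1, ev_add hC, ev_mul hC, Matrix.add_apply, Matrix.one_apply,
      Matrix.vecMulVec_apply]
    by_cases e : a = b <;> simp [e, ev_one hC, ev_zero hC]

end Cfsg.Agent.CSixSevenGFEight
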