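import Cfsg.Agent.CSixSevenGFEight.Image

/-!
# Odd normal subgroups of the centraliser of the parity involution are scalar
-/

set_option autoImplicit false
set_option linter.unusedSectionVars false
set_option maxHeartbeats 1000000

namespace Cfsg.Agent.CSixSevenGFEight

open Cfsg Cfsg.Geo Matrix Cfsg.Agent.CSixSeven

variable {F : Type*} [Field F] {ω : F} {X : Subgroup (GL (Fin 7) F)}

/-- All scalars of determinant one lie in the overgroup. -/
theorem Gen8.scalar (hG : Gen8 ω X) (k : Fin 7) : InX X (w ω k • (1 : M7 F)) := by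
  obtain ⟨a, ha, hav⟩ := hG.x
  obtain ⟨b, hb, hbv⟩ := hG.y
  have h6 : InX X (w ω 6 • (1 : M7 F)) := by
    refine ⟨a * b * (b * a)⁻¹, mul_mem (mul_mem ha hb) (inv_mem (mul_mem hb ha)), ?_⟩
    have h : ((a * b : GL (Fin 7) F) : M7 F) = w ω 6 • ((b * a : GL (Fin 7) F) : M7 F) := by
      simp [hav, hbv, xm_mul_ym hG.eight.omega]
    calc ((a * b * (b * a)⁻¹ : GL (Fin 7) F) : M7 F)
        = ((a * b : GL (Fin 7) F) : M7 F) * (((b * a)⁻¹ : GL (Fin 7) F) : M7 F) := rfl
      _ = w ω 6 • (1 : M7 F) := by rw [h, Matrix.smul_mul, Units.mul_inv]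
  have h := h6.pow ((-k : Fin 7) : ℕ)
  rwa [smul_pow, one_pow, ← w_mul hG.eight.omega,
    show ∀ k : Fin 7, (6 : Fin 7) * -k = k by decide] at h

theorem dvd_odd {a b : ℕ} (h : a ∣ b) (hb : Odd b) : Odd a := hb.of_dvd_nat h

variable [Finite F] (hC : Cubic ω) (hG : Gen8 ω X) (hN : ¬ specialLinear (Fin 7) F ≤ X)
include hC hG hN

/-- An element of odd order commuting with the corner element modulo nothing is scalar. -/
theorem scalar_of_commute_corner {s : GL (Fin 3) F} (hs : s ∈ (rho X hC).range)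
    (hodd : Odd (orderOf s)) {r : GL (Fin 3) F} (er : (r : Matrix (Fin 3) (Fin 3) F) = E13 1)
    (hsr : s * r = r * s) : s ∈ scalars (Fin 3) F := by
  have hF := hC.eight
  obtain ⟨z10, z20, z21, z22⟩ := e13_commute hC hG
    (s := (s : Matrix (Fin 3) (Fin 3) F)) (by rw [← er, ← Units.val_mul, hsr]; rfl)
  obtain ⟨t, ht, et⟩ := inH_real hC hG (real_x12 hC hG)
  have hxr : t * r = r * t := Units.ext (by
    rw [Units.val_mul, Units.val_mul, et, er]
    refine Matrix.ext fun i j => ?_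
    fin_cases i <;> fin_cases j <;>
      simp +decide [E13, ι2, i2, x12, Matrix.mul_apply, Fin.sum_univ_three])
  have ht2 : t * t = 1 := Units.ext (by
    rw [Units.val_mul, et, ← ι2_mul hC, show x12 * x12 = 1 by decide, ι2_one hC]; rfl)
  have ht1 : t ≠ 1 := fun h => by
    have := congrFun (congrFun (et.symm.trans (congrArg Units.val h)) 0) 1
    simp +decide [ι2, i2, x12] at this
  set m := s * t * s⁻¹ with hm
  have hm2 : m * m = 1 := by
    rw [hm, show s * t * s⁻¹ * (s * t * s⁻¹) = s * (t * t) * s⁻¹ by group, ht2, mul_one, mul_inv_cancel]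
  have hm1 : m ≠ 1 := fun h => ht1 (by simpa [hm] using h)
  have hmr : m * r = r * m := by
    have h1 : s⁻¹ * r = r * s⁻¹ := by
      rw [eq_mul_inv_iff_mul_eq, mul_assoc, ← hsr, inv_mul_cancel_left]
    calc s * t * s⁻¹ * r = s * (t * (s⁻¹ * r)) := by group
      _ = s * (r * t) * s⁻¹ := by rw [h1, ← mul_assoc t, hxr]; group
      _ = r * (s * t * s⁻¹) := by rw [← mul_assoc, hsr]; group
  obtain ⟨x, hx, ex⟩ := comm_corner hC hG hN ⟨m, mul_mem (mul_mem hs ht) (inv_mem hs), rfl⟩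
    (by rw [← Units.val_mul, hm2]; rfl) (fun e => hm1 (Units.ext e))
    (by rw [← er, ← Units.val_mul, hmr]; rfl)
  have hst : ι2 F x * (s : Matrix (Fin 3) (Fin 3) F) = (s : Matrix (Fin 3) (Fin 3) F) * ι2 F x12 := by
    rw [← ex, ← et, ← Units.val_mul, ← Units.val_mul, hm]
    congr 1
    group
  have e01 := congrFun (congrFun hst 0) 1
  have hd : (s : Matrix (Fin 3) (Fin 3) F) 0 0 ≠ 0 := by
    intro h0
    have hu : IsUnit (s : Matrix (Fin 3) (Fin 3) F).det :=
      (Matrix.isUnit_iff_isUnit_det _).1 s.isUnit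
    exact hu.ne_zero (by rw [Matrix.det_fin_three]; simp [h0, z10, z20])
  have ha : (s : Matrix (Fin 3) (Fin 3) F) 1 1 = (s : Matrix (Fin 3) (Fin 3) F) 0 0 := by
    simp only [List.mem_cons, List.not_mem_nil, or_false] at hx
    rcases hx with rfl | rfl | rfl | rfl | rfl <;>
      simp +decide [ι2, i2, x12, x13, x23, Matrix.mul_apply, Fin.sum_univ_three, z21] at e01
    all_goals first
      | exact absurd e01 hd
      | linear_combination e01
      | linear_combination -e01
  set a := (s : Matrix (Fin 3) (Fin 3) F) 0 0 with haa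
  have h4 : ((s ^ 4 : GL (Fin 3) F) : Matrix (Fin 3) (Fin 3) F) = a ^ 4 • (1 : Matrix _ _ F) := by
    have form : (s : Matrix (Fin 3) (Fin 3) F) =
        !![a, (s : Matrix (Fin 3) (Fin 3) F) 0 1, (s : Matrix (Fin 3) (Fin 3) F) 0 2;
          0, a, (s : Matrix (Fin 3) (Fin 3) F) 1 2; 0, 0, a] := by
      refine Matrix.ext fun i j => ?_
      fin_cases i <;> fin_cases j <;> simp [haa, z10, z20, z21, z22, ha]
    rw [Units.val_pow_eq_pow_val, form, pow_succ, pow_succ, pow_succ, pow_one]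
    refine Matrix.ext fun i j => ?_
    fin_cases i <;> fin_cases j <;>
      simp [Matrix.mul_apply, Fin.sum_univ_three] <;> grind [hF.two]
  have hs4 : s ^ 4 ∈ scalars (Fin 3) F := (mem_scalars_iff _).2
    ⟨(Units.mk0 a hd) ^ 4, by rw [h4]; simp⟩
  obtain ⟨n, hn⟩ : ∃ n : ℕ, (s ^ 4) ^ n = s := by
    obtain ⟨k, hk⟩ := hodd
    have h1 : s ^ (2 * k + 1) = 1 := by rw [← hk]; exact pow_orderOf_eq_one s
    refine ⟨(k + 1) * (k + 1), ?_⟩
    rw [← pow_mul, show 4 * ((k + 1) * (k + 1)) = (2 * k + 1) * (2 * k + 3) + 1 by ring, pow_succ,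
      pow_mul, h1, one_pow, one_mul]
  rw [← hn]
  exact pow_mem hs4 n

/-- Odd normal subgroups of the centraliser of the parity involution are scalar. -/
theorem odd_normal_scalar (N : Subgroup (GL (Fin 7) F)) (hle : N ≤ Kz X)
    (hodd : Odd (Nat.card N)) (hn : ∀ k ∈ Kz X, ∀ n ∈ N, k * n * k⁻¹ ∈ N) :
    N ≤ scalars (Fin 7) F := by
  intro n0 hn0
  set N' : Subgroup (Kz X) := N.subgroupOf (Kz X) with hN'
  haveI : N'.Normal := ⟨fun a ha g => hn g g.2 a ha⟩
  set H := (rho X hC).range with hH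
  set f : Kz X →* H := (rho X hC).rangeRestrict with hf
  set O : Subgroup H := N'.map f with hO
  haveI : O.Normal := Subgroup.Normal.map inferInstance f (MonoidHom.rangeRestrict_surjective _)
  have hN'odd : Odd (Nat.card N') := by
    rwa [hN', Nat.card_congr (Subgroup.subgroupOfEquivOfLe hle).toEquiv]
  have hOodd : Odd (Nat.card O) := hN'odd.of_dvd_nat (Subgroup.card_map_dvd _ _)
  set S : Subgroup H := (scalars (Fin 3) F).subgroupOf H with hS
  have hcen : ∀ s ∈ S, ∀ g : H, s * g = g * s := by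
    intro s hs g
    obtain ⟨c, hc⟩ := (mem_scalars_iff _).1 (Subgroup.mem_subgroupOf.1 hs)
    refine Subtype.ext (Units.ext ?_)
    simp only [Subgroup.coe_mul, Units.val_mul, hc, Matrix.smul_mul, Matrix.one_mul, Matrix.mul_smul,
      Matrix.mul_one]
  -- every involution inverts `O` modulo the scalars
  have hinvert : ∀ r : H, r * r = 1 → r ≠ 1 → ∀ o ∈ O, ∃ s ∈ S, r * o * r = s * o⁻¹ := by
    intro r hr hr1 o ho
    obtain ⟨s, v, hsO, -, hfix, hinv, e⟩ := exists_inverted_split hr O hOodd ho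
    obtain ⟨t, -, et, q, hq, eq'⟩ := conjR_invol hC hG hN r.2 (congrArg Subtype.val hr)
      (fun h => hr1 (Subtype.ext h))
    obtain rfl : t = (r : GL (Fin 3) F) := Units.ext et
    set q' : H := ⟨q, hq⟩ with hq'
    have hsS : q' * s * q'⁻¹ ∈ S := by
      have hcomm : q' * s * q'⁻¹ * (q' * r * q'⁻¹) = q' * r * q'⁻¹ * (q' * s * q'⁻¹) := by
        have h1 : s * r = r * s := by
          conv_lhs => rw [← hfix, mul_assoc, hr, mul_one]
        rw [show q' * s * q'⁻¹ * (q' * r * q'⁻¹) = q' * (s * r) * q'⁻¹ by group, h1]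
        group
      refine Subgroup.mem_subgroupOf.2 (scalar_of_commute_corner hC hG hN (q' * s * q'⁻¹).2 ?_
        (r := ((q' * r * q'⁻¹ : H) : GL (Fin 3) F)) eq' (congrArg Subtype.val hcomm))
      refine hOodd.of_dvd_nat ?_
      rw [Subgroup.orderOf_coe]
      exact Subgroup.orderOf_dvd_natCard O ((inferInstance : O.Normal).conj_mem s hsO q')
    have hsS' : s ∈ S := by
      have e' : q' * s * q'⁻¹ = s := by
        refine mul_left_cancel (a := q') ?_
        rw [← hcen _ hsS q']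
        group
      rwa [e'] at hsS
    refine ⟨s * s, mul_mem hsS' hsS', ?_⟩
    rw [e, _root_.mul_inv_rev, show r * (s * v) * r = (r * s * r) * (r * v * r) by
      rw [show r * s * r * (r * v * r) = r * s * (r * r) * v * r by group, hr, mul_one]; group,
      hfix, hinv, mul_assoc s s, hcen s hsS' (v⁻¹ * s⁻¹), inv_mul_cancel_right]
  have get : ∀ {x : R3}, Real ω X x → x * x = 1 → x ≠ 1 → ∃ r : H,
      ((r : GL (Fin 3) F) : Matrix (Fin 3) (Fin 3) F) = ι2 F x ∧ r * r = 1 ∧ r ≠ 1 := by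
    intro x hx hxx hx1
    obtain ⟨r, hr, e⟩ := inH_real hC hG hx
    refine ⟨⟨r, hr⟩, e, Subtype.ext (Units.ext ?_), fun h => hx1 ?_⟩
    · show (r : Matrix (Fin 3) (Fin 3) F) * r = 1
      rw [e, ← ι2_mul hC, hxx, ι2_one hC]
    · have h0' : r = 1 := congrArg Subtype.val h
      have h' : ι2 F x = 1 := by rw [← e, h0', Units.val_one]
      refine Matrix.ext fun i j => ?_
      have := congrFun (congrFun h' i) j
      have hd : ∀ a : ZMod 2, a = 0 ∨ a = 1 := by decide
      by_cases hij : i = j <;> rcases hd (x i j) with h0 | h0 <;>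
        simp +decide [ι2, i2, h0, Matrix.one_apply, hij] at this ⊢ <;> subst hij <;> simp_all
  obtain ⟨r1, e1, q1, n1⟩ := get (real_x13 hC hG) (by decide) (by decide)
  obtain ⟨r2, e2, q2, n2⟩ := get (real_x12 hC hG) (by decide) (by decide)
  obtain ⟨r3, e3, q3, n3⟩ := get (Real.mul hC (real_x12 hC hG) (real_x13 hC hG)) (by decide) (by decide)
  have h321 : r3 = r2 * r1 := Subtype.ext (Units.ext (by
    rw [e3, Subgroup.coe_mul, Units.val_mul, e2, e1, ι2_mul hC]))
  have h321' : r3 = r1 * r2 := by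
    have : r3⁻¹ = r3 := inv_eq_of_mul_eq_one_right q3
    rw [← this, h321, _root_.mul_inv_rev, inv_eq_of_mul_eq_one_right q1, inv_eq_of_mul_eq_one_right q2]
  have hscalar : ∀ o ∈ O, o ∈ S := by
    intro o ho
    obtain ⟨a, ha, ea⟩ := hinvert r1 q1 n1 o ho
    obtain ⟨b, hb, eb⟩ := hinvert r2 q2 n2 o ho
    obtain ⟨c, hc, ec⟩ := hinvert r3 q3 n3 o ho
    have e12 : r3 * o * r3 = a * b⁻¹ * o := by
      conv_lhs => arg 1; arg 1; rw [h321]
      rw [h321', show r2 * r1 * o * (r1 * r2) = r2 * (r1 * o * r1) * r2 by group, ea,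
        show r2 * (a * o⁻¹) * r2 = (r2 * a) * o⁻¹ * r2 by group, ← hcen a ha r2,
        show a * r2 * o⁻¹ * r2 = a * (r2 * o⁻¹ * r2) by group,
        show r2 * o⁻¹ * r2 = (r2⁻¹ * o * r2⁻¹)⁻¹ by group, inv_eq_of_mul_eq_one_right q2, eb,
        _root_.mul_inv_rev, inv_inv, ← hcen _ (inv_mem hb) o, mul_assoc]
    have ho2 : o * o ∈ S := by
      rw [ec] at e12
      have : o * o = (a * b⁻¹)⁻¹ * c := by
        have h' : a * b⁻¹ * o * o = c := by rw [← e12, inv_mul_cancel_right]
        rw [← h']; group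
      rw [this]
      exact mul_mem (inv_mem (mul_mem ha (inv_mem hb))) hc
    obtain ⟨k, hk⟩ := hOodd
    have hpow : o ^ (2 * k + 1) = 1 := by
      have h : (⟨o, ho⟩ : O) ^ Nat.card O = 1 := pow_card_eq_one'
      rw [hk] at h
      exact congrArg Subtype.val h
    have : o = (o * o) ^ (k + 1) := by
      rw [← pow_two, ← pow_mul, show 2 * (k + 1) = 2 * k + 1 + 1 by ring, pow_succ, hpow, one_mul]
    rw [this]
    exact pow_mem ho2 _
  -- back to dimension seven
  set a : Kz X := ⟨n0, hle hn0⟩ with ha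
  have haN : a ∈ N' := hn0
  obtain ⟨c, hc⟩ := (mem_scalars_iff _).1
    (Subgroup.mem_subgroupOf.1 (hscalar (f a) (Subgroup.mem_map_of_mem _ haN)))
  rcases hC.eight.cases (c : F) with h | ⟨k, hk⟩
  · exact absurd h c.ne_zero
  obtain ⟨u, hu, eu⟩ := hG.scalar k
  set b : Kz X := ⟨u, hu, by rw [eu]; exact (Commute.one_left _).smul_left _⟩ with hb
  have hab : rho X hC (a * b⁻¹) = 1 := by
    rw [map_mul, map_inv, mul_inv_eq_one]
    refine Units.ext ?_
    have hc' : ((rho X hC a : GL (Fin 3) F) : Matrix (Fin 3) (Fin 3) F) = (c : F) • 1 := hc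
    rw [hc', rho_val, hk]
    simp only [hb, eu, bm_smul, bm_one, Matrix.mul_smul, Matrix.smul_mul, mul_one, qv_qi hC]
  obtain ⟨tz, htz, hzz, hz1, hcz, hker⟩ := exists_tz hC hG hN
  have hbsc : (u : GL (Fin 7) F) ∈ scalars (Fin 7) F :=
    (mem_scalars_iff _).2 ⟨c, by rw [eu, hk]⟩
  rcases hker _ hab with h | h
  · have : n0 = u := congrArg Subtype.val (mul_inv_eq_one.1 h)
    rwa [this]
  · exfalso
    have hb7 : b ^ 7 = 1 := by
      refine Subtype.ext (Units.ext ?_)
      simp [hb, eu, smul_pow, CSixSeven.w_pow_seven hC.eight.omega]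
    have e : a = tz * b := mul_inv_eq_iff_eq_mul.1 h
    have h7 : a ^ 7 = tz := by
      rw [e, (show Commute tz b from hcz b).mul_pow, hb7, mul_one]
      calc tz ^ 7 = (tz * tz) ^ 3 * tz := by rw [← pow_two, ← pow_mul, ← pow_succ]
        _ = tz := by rw [hzz, one_pow, one_mul]
    have hzN : tz ∈ N' := h7 ▸ pow_mem haN 7
    have hord : orderOf (⟨tz, hzN⟩ : N') = 2 := by
      refine orderOf_eq_prime (hp := ⟨Nat.prime_two⟩) ?_ fun h => hz1 (congrArg Subtype.val h)
      exact Subtype.ext (by rw [Subgroup.coe_pow, pow_two, hzz, Subgroup.coe_one])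
    exact absurd (hN'odd.of_dvd_nat (hord ▸ orderOf_dvd_natCard (⟨tz, hzN⟩ : N'))) (by decide)

end Cfsg.Agent.CSixSevenGFEight
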