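import Cfsg.Agent.CSixSevenGFEight.Gens

/-!
# The bottom layer of the kernel is trivial modulo the parity involution
-/

set_option autoImplicit false
set_option linter.unusedSectionVars false
set_option maxHeartbeats 1000000

namespace Cfsg.Agent.CSixSevenGFEight

open Cfsg Cfsg.Geo Matrix Cfsg.Agent.CSixSeven

variable {F : Type*} [Field F] {ω : F} {X : Subgroup (GL (Fin 7) F)}

/-- A rational matrix occurring in the bottom layer of the kernel. -/
def InSig (ω : F) (X : Subgroup (GL (Fin 7) F)) (T : Matrix (Fin 3) (Fin 3) F) : Prop :=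
  ∃ q : M7 F, Ker X q ∧ mv q = 0 ∧ lv q = 0 ∧ Sp q = Qi ω * T * Qv ω

variable (hC : Cubic ω) (hG : Gen8 ω X) (hN : ¬ specialLinear (Fin 7) F ≤ X)
include hC hG

omit hG in
theorem InSig.add (hle : X ≤ specialLinear (Fin 7) F) {T U : Matrix (Fin 3) (Fin 3) F}
    (hT : InSig ω X T) (hU : InSig ω X U) : InSig ω X (T + U) := by
  obtain ⟨p, kp, mp, lp, sp⟩ := hT
  obtain ⟨q, kq, mq, lq, sq⟩ := hU
  obtain ⟨k, m, l, s⟩ := kp.mul hC hle kq
  refine ⟨p * q, k, by simp [m, mp, mq], by simp [l, lp, lq], ?_⟩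
  rw [s, sp, sq, mp, Matrix.mul_add, Matrix.add_mul]
  simp

theorem InSig.conj {T : Matrix (Fin 3) (Fin 3) F} (hT : InSig ω X T) {x y : R3}
    (hx : Real ω X x) (hxy : x * y = 1) : InSig ω X (ι2 F x * T * ι2 F y) := by
  obtain ⟨q, kq, mq, lq, sq⟩ := hT
  obtain ⟨M, hM, sM, oM, bM⟩ := hx
  obtain ⟨N, kN, mN, lN, pN⟩ := kq.conj hC hG.le_sl hM sM oM
  have e : ι2 F x * ι2 F y = 1 := by rw [← ι2_mul hC, hxy, ι2_one hC]
  have mN0 : mv N = 0 := by rw [mN, mq]; simp
  have eM : Bm M * (Qi ω * ι2 F y * Qv ω) = 1 := by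
    rw [← Matrix.mul_assoc, ← Matrix.mul_assoc, bM, Matrix.mul_assoc (Qi ω), e, mul_one, qi_qv hC]
  refine ⟨N, kN, mN0, ?_, ?_⟩
  · have h := congrArg (fun v => v ᵥ* (Qi ω * ι2 F y * Qv ω)) lN
    simpa [Matrix.vecMul_vecMul, eM, lq] using h
  · rw [mN0, lq] at pN
    simp only [Matrix.vecMulVec_zero, Matrix.zero_vecMulVec, add_zero] at pN
    calc Sp N = Sp N * Bm M * (Qi ω * ι2 F y * Qv ω) := by rw [Matrix.mul_assoc, eM, mul_one]
      _ = Bm M * Qi ω * T * (Qv ω * Qi ω) * ι2 F y * Qv ω := by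
        rw [pN, sq]; simp only [Matrix.mul_assoc]
      _ = Qi ω * (ι2 F x * T * ι2 F y) * Qv ω := by
        rw [bM, qv_qi hC, mul_one]; simp only [Matrix.mul_assoc]

/-- Conjugation step of the group algebra operator. -/
theorem InSig.step {T : Matrix (Fin 3) (Fin 3) F} (hT : InSig ω X T) {x : R3}
    (hx : Real ω X x) (hxx : x * x = 1) : InSig ω X (T + ι2 F x * T * ι2 F x) :=
  hT.add hC hG.le_sl (hT.conj hC hG hx hxx)

include hN

omit hN in
/-- A bottom element with a known block is the given model matrix. -/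
theorem inX_of_bottom {q : M7 F} (kq : Ker X q) (mq : mv q = 0) (lq : lv q = 0) {g : Q7}
    {D : Fin 3 → Fin 3 → E8} (sq : Sp q = toF3 ω D) (gs : ∀ i j, g (-i) (-j) = g i j)
    (gb : qBm g = qi2 1) (gp : ∀ r s, g (kb r) (-kb s) = D r s) (gm : ∀ r, g (kb r) 0 = E8.e 0)
    (gl : ∀ r, g 0 (kb r) = E8.e 0) (g0 : g 0 0 = E8.e 1) : InX X (toF ω g) := by
  have : q = toF ω g := by
    refine ext_coords hC.eight kq.sym (sym_toF hC gs) ?_ ?_ ?_ ?_ ?_
    · rw [kq.bm, bm_toF hC, gb, toF3_qi2 hC, ι2_one hC]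
    · rw [sq]
      refine Matrix.ext fun r s => ?_
      simp [Sp, toF, toF3, gp]
    · rw [mq]; funext r; simp [mv, toF, gm, ev_zero hC]
    · rw [lq]; funext r; simp [lv, toF, gl, ev_zero hC]
    · rw [kq.zero_zero hC hG.le_sl]; simp [toF, g0, ev_one hC]
  exact this ▸ kq.inX

/-- The diagonal model matrix of a multiple of the rational generator. -/
def qDiag (t : E8) : Fin 3 → Fin 3 → E8 := fun r s =>
  if r = s then E8.mul t (E8.wq (kb r * kb r)) else E8.e 0

theorem sig_corner_zero {T : Matrix (Fin 3) (Fin 3) F} (hT : InSig ω X T) : T 2 0 = 0 := by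
  have hF := hC.eight
  by_contra ht
  set T1 := T + ι2 F x13 * T * ι2 F x13 with hT1
  set T2 := T1 + ι2 F x12 * T1 * ι2 F x12 with hT2
  set T3 := T2 + ι2 F x23 * T2 * ι2 F x23 with hT3
  have h3 : InSig ω X T3 :=
    ((hT.step hC hG (real_x13 hC hG) (by decide)).step hC hG (real_x12 hC hG) (by decide)).step
      hC hG (real_x23 hC hG) (by decide)
  have e3 : T3 = Matrix.of fun i j => if i = 0 ∧ j = 2 then T 2 0 else 0 := by
    refine Matrix.ext fun i j => ?_
    fin_cases i <;> fin_cases j <;>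
      simp +decide [hT3, hT2, hT1, ι2, i2, x13, x12, x23, Matrix.mul_apply, Fin.sum_univ_three] <;>
      grind [hF.two]
  rw [e3] at h3
  -- a multiple of the rational generator
  have a1 := h3.conj hC hG (real_p201 hC hG) (show p201 * p120 = 1 by decide)
  have a2 := h3.conj hC hG (real_p102 hC hG) (show p102 * p102 = 1 by decide)
  have a3 := h3.conj hC hG (real_p120 hC hG) (show p120 * p201 = 1 by decide)
  obtain ⟨q, kq, mq, lq, sq⟩ : InSig ω X (T 2 0 • ι2 F rU) := by
    convert ((h3.add hC hG.le_sl a1).add hC hG.le_sl a2).add hC hG.le_sl a3 using 1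
    refine Matrix.ext fun i j => ?_
    fin_cases i <;> fin_cases j <;>
      simp +decide [ι2, i2, rU, p201, p120, p102, Matrix.mul_apply, Fin.sum_univ_three]
  obtain ⟨n, hn⟩ : ∃ n : Fin 8, T 2 0 = ev ω (E8.e n.val) := by
    rcases hF.cases (T 2 0) with h | ⟨k, h⟩
    · exact ⟨0, by rw [h]; exact (ev_zero hC).symm⟩
    · obtain ⟨n, hn⟩ := (show ∀ k : Fin 7, ∃ n : Fin 8, E8.wq k = E8.e n.val by decide) k
      exact ⟨n, by rw [h, ← hn, ev_wq hC]⟩
  have hD : qmul3 (qmul3 qQi (qi2 rU)) qQv = qDiag (E8.e 1) := by decide +kernel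
  have sq' : Sp q = toF3 ω (qDiag (E8.e n.val)) := by
    have hd := congrArg (toF3 ω) hD
    rw [toF3_mul hC, toF3_mul hC, toF3_qi2 hC] at hd
    rw [sq, Matrix.mul_smul, Matrix.smul_mul, show Qi ω = toF3 ω qQi from rfl,
      show Qv ω = toF3 ω qQv from rfl, hd, hn]
    refine Matrix.ext fun r s => ?_
    by_cases h : r = s <;>
      simp [toF3, qDiag, h, ev_mul hC, ev_one hC, ev_zero hC]
  fin_cases n
  · exact ht (hn.trans (ev_zero hC))
  · exact hN (Cert.word_t1 hC hG (inX_of_bottom hC hG kq mq lq sq' (by decide +kernel)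
      (by decide +kernel) (by decide +kernel) (by decide +kernel) (by decide +kernel)
      (by decide +kernel)))
  · exact hN (Cert.word_t2 hC hG (inX_of_bottom hC hG kq mq lq sq' (by decide +kernel)
      (by decide +kernel) (by decide +kernel) (by decide +kernel) (by decide +kernel)
      (by decide +kernel)))
  · exact hN (Cert.word_t3 hC hG (inX_of_bottom hC hG kq mq lq sq' (by decide +kernel)
      (by decide +kernel) (by decide +kernel) (by decide +kernel) (by decide +kernel)
      (by decide +kernel)))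
  · exact hN (Cert.word_t4 hC hG (inX_of_bottom hC hG kq mq lq sq' (by decide +kernel)
      (by decide +kernel) (by decide +kernel) (by decide +kernel) (by decide +kernel)
      (by decide +kernel)))
  · exact hN (Cert.word_t5 hC hG (inX_of_bottom hC hG kq mq lq sq' (by decide +kernel)
      (by decide +kernel) (by decide +kernel) (by decide +kernel) (by decide +kernel)
      (by decide +kernel)))
  · exact hN (Cert.word_t6 hC hG (inX_of_bottom hC hG kq mq lq sq' (by decide +kernel)
      (by decide +kernel) (by decide +kernel) (by decide +kernel) (by decide +kernel)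
      (by decide +kernel)))
  · exact hN (Cert.word_t7 hC hG (inX_of_bottom hC hG kq mq lq sq' (by decide +kernel)
      (by decide +kernel) (by decide +kernel) (by decide +kernel) (by decide +kernel)
      (by decide +kernel)))

theorem sig_offdiag {T : Matrix (Fin 3) (Fin 3) F} (hT : InSig ω X T) (i j : Fin 3) (hij : i ≠ j) :
    T i j = 0 := by
  have h021 := sig_corner_zero hC hG hN (hT.conj hC hG (real_p021 hC hG) (show p021 * p021 = 1 by decide))
  have h102 := sig_corner_zero hC hG hN (hT.conj hC hG (real_p102 hC hG) (show p102 * p102 = 1 by decide))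
  have h210 := sig_corner_zero hC hG hN (hT.conj hC hG (real_p210 hC hG) (show p210 * p210 = 1 by decide))
  have h120 := sig_corner_zero hC hG hN (hT.conj hC hG (real_p120 hC hG) (show p120 * p201 = 1 by decide))
  have h201 := sig_corner_zero hC hG hN (hT.conj hC hG (real_p201 hC hG) (show p201 * p120 = 1 by decide))
  have h0 := sig_corner_zero hC hG hN hT
  simp +decide [ι2, i2, p021, p102, p210, p120, p201, Matrix.mul_apply, Fin.sum_univ_three]
    at h021 h102 h210 h120 h201
  fin_cases i <;> fin_cases j <;> simp_all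

theorem sig_scalar {T : Matrix (Fin 3) (Fin 3) F} (hT : InSig ω X T) : T = T 0 0 • 1 := by
  have hF := hC.eight
  have h1 := sig_offdiag hC hG hN
    (hT.conj hC hG (real_x12 hC hG) (show x12 * x12 = 1 by decide)) 0 1 (by decide)
  have h2 := sig_offdiag hC hG hN
    (hT.conj hC hG (real_x23 hC hG) (show x23 * x23 = 1 by decide)) 1 2 (by decide)
  have o := sig_offdiag hC hG hN hT
  simp +decide [ι2, i2, x12, x23, Matrix.mul_apply, Fin.sum_univ_three, o] at h1 h2
  have e1 : T 0 0 = T 1 1 := hF.eq_of_add (by linear_combination h1)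
  have e2 : T 1 1 = T 2 2 := hF.eq_of_add (by linear_combination h2)
  refine Matrix.ext fun i j => ?_
  by_cases h : i = j
  · subst h
    fin_cases i <;> simp [e1, e2]
  · simp [o i j h, h]

theorem sig_value {T : Matrix (Fin 3) (Fin 3) F} (hT : InSig ω X T) : T = 0 ∨ T = 1 := by
  have hF := hC.eight
  set c := T 0 0 with hc
  have hT' := sig_scalar hC hG hN hT
  rw [← hc] at hT'
  have hone : InSig ω X (1 : Matrix (Fin 3) (Fin 3) F) :=
    ⟨Zm, ⟨hG.z, sym_zm, bm_zm⟩, mv_zm, lv_zm, by rw [sp_zm hF, mul_one, qi_qv hC]⟩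
  -- the three explicit values
  have key : ∀ e : E8, e ∈ [E8.e 2, E8.e 4, E8.e 6] →
      ¬ InSig ω X (ev ω e • (1 : Matrix (Fin 3) (Fin 3) F)) := by
    intro e he hS
    obtain ⟨q, kq, mq, lq, sq⟩ := hS
    rw [Matrix.mul_smul, mul_one, Matrix.smul_mul, qi_qv hC] at sq
    have sq' : Sp q = toF3 ω (fun r s => if r = s then e else E8.e 0) := by
      rw [sq]
      refine Matrix.ext fun r s => ?_
      by_cases h : r = s <;> simp [toF3, h, ev_zero hC]
    simp only [List.mem_cons, List.not_mem_nil, or_false] at he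
    rcases he with rfl | rfl | rfl
    · exact hN (Cert.word_ca hC hG (inX_of_bottom hC hG kq mq lq sq' (by decide +kernel)
        (by decide +kernel) (by decide +kernel) (by decide +kernel) (by decide +kernel)
        (by decide +kernel)))
    · exact hN (Cert.word_cb hC hG (inX_of_bottom hC hG kq mq lq sq' (by decide +kernel)
        (by decide +kernel) (by decide +kernel) (by decide +kernel) (by decide +kernel)
        (by decide +kernel)))
    · exact hN (Cert.word_cc hC hG (inX_of_bottom hC hG kq mq lq sq' (by decide +kernel)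
        (by decide +kernel) (by decide +kernel) (by decide +kernel) (by decide +kernel)
        (by decide +kernel)))
  have hS : InSig ω X (c • (1 : Matrix (Fin 3) (Fin 3) F)) := hT' ▸ hT
  have hS' : InSig ω X ((c + 1) • (1 : Matrix (Fin 3) (Fin 3) F)) := by
    rw [add_smul, one_smul]; exact hS.add hC hG.le_sl hone
  rcases hF.cases c with h | ⟨k, h⟩
  · left; rw [hT', h, zero_smul]
  rw [← ev_wq hC] at h
  have h1 : ev ω (E8.wq k) + 1 = ev ω (E8.add (E8.wq k) (E8.e 1)) := by
    rw [ev_add hC, ev_one hC]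
  have hk : ∀ k : Fin 7, E8.wq k = E8.e 1 ∨ E8.wq k ∈ [E8.e 2, E8.e 4, E8.e 6] ∨
      E8.add (E8.wq k) (E8.e 1) ∈ [E8.e 2, E8.e 4, E8.e 6] := by decide
  rcases hk k with hk | hk | hk
  · right; rw [hT', h, hk, ev_one hC, one_smul]
  · exact absurd (h ▸ hS) (key _ hk)
  · exact absurd (by rw [← h1, ← h]; exact hS') (key _ hk)

/-- A kernel element of the bottom layer is trivial or the parity involution. -/
theorem bottom {q : M7 F} (hq : Ker X q) (hm : mv q = 0) (hl : lv q = 0) :
    Sp q = 0 ∨ Sp q = 1 := by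
  have h : InSig ω X (Qv ω * Sp q * Qi ω) := ⟨q, hq, hm, hl, by
    calc Sp q = (Qi ω * Qv ω) * Sp q * (Qi ω * Qv ω) := by rw [qi_qv hC, one_mul, mul_one]
      _ = _ := by simp only [Matrix.mul_assoc]⟩
  have e : Sp q = Qi ω * (Qv ω * Sp q * Qi ω) * Qv ω := by
    calc Sp q = (Qi ω * Qv ω) * Sp q * (Qi ω * Qv ω) := by rw [qi_qv hC, one_mul, mul_one]
      _ = _ := by simp only [Matrix.mul_assoc]
  rcases sig_value hC hG hN h with h' | h'
  · left; rw [e, h']; simp
  · right; rw [e, h', mul_one, qi_qv hC]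

end Cfsg.Agent.CSixSevenGFEight
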