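import Cfsg.Agent.CSixSevenGFEight.Kernel

/-!
# The transposed overgroup and the kernel of the action on the odd vectors
-/

set_option autoImplicit false
set_option linter.unusedSectionVars false
set_option maxHeartbeats 1000000

namespace Cfsg.Agent.CSixSevenGFEight

open Cfsg Cfsg.Geo Matrix Cfsg.Agent.CSixSeven

variable {F : Type*} [Field F] {ω : F} {X : Subgroup (GL (Fin 7) F)}

/-- The transposed inverse. -/
def tHom : GL (Fin 7) F →* GL (Fin 7) F :=
  MonoidHom.mk' (fun h => ⟨((h⁻¹ : GL (Fin 7) F) : M7 F)ᵀ, (h : M7 F)ᵀ,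
      by rw [← Matrix.transpose_mul, Units.mul_inv, Matrix.transpose_one],
      by rw [← Matrix.transpose_mul, Units.inv_mul, Matrix.transpose_one]⟩)
    (fun a b => Units.ext (by simp [Matrix.transpose_mul]))

theorem inX_transpose {M : M7 F} (h : InX X M) : InX (X.map tHom) Mᵀ := by
  obtain ⟨a, ha, rfl⟩ := h
  exact ⟨tHom a⁻¹, ⟨a⁻¹, inv_mem ha, rfl⟩, by simp [tHom]⟩

theorem inX_of_transpose {M : M7 F} (h : InX (X.map tHom) M) : InX X Mᵀ := by
  obtain ⟨_, ⟨a, ha, rfl⟩, rfl⟩ := h
  exact ⟨a⁻¹, inv_mem ha, by simp [tHom]⟩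

theorem ns_transpose (hN : ¬ specialLinear (Fin 7) F ≤ X) :
    ¬ specialLinear (Fin 7) F ≤ X.map tHom := by
  refine fun h => hN fun g hg => ?_
  have ht : tHom g ∈ specialLinear (Fin 7) F := by
    rw [GeoClasses.mem_specialLinear_iff]
    show Matrix.det ((g⁻¹ : GL (Fin 7) F) : M7 F)ᵀ = 1
    rw [Matrix.det_transpose]
    exact GeoClasses.mem_specialLinear_iff.1 (inv_mem hg)
  obtain ⟨a, ha, e⟩ := h ht
  have hinj : g⁻¹ = a⁻¹ := Units.ext (Matrix.transpose_injective
    (congrArg (fun x : GL (Fin 7) F => (x : M7 F)) e).symm)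
  rwa [inv_inj.1 hinj]

theorem sym_transpose {M : M7 F} (h : Sym M) : Sym Mᵀ := fun i j => h j i

theorem toF_transpose (ω : F) (A : Q7) : (toF ω A)ᵀ = toF ω (fun i j => A j i) := rfl

variable (hC : Cubic ω) (hG : Gen8 ω X) (hN : ¬ specialLinear (Fin 7) F ≤ X)
include hC hG

theorem gen_transpose : Gen8 ω (X.map tHom) := by
  refine ⟨hC.eight, ?_, ?_, ?_, ?_, ?_, ?_, ?_⟩
  · rintro _ ⟨a, ha, rfl⟩
    rw [GeoClasses.mem_specialLinear_iff]
    show Matrix.det ((a⁻¹ : GL (Fin 7) F) : M7 F)ᵀ = 1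
    rw [Matrix.det_transpose]
    exact GeoClasses.mem_specialLinear_iff.1 (hG.le_sl (inv_mem ha))
  · have h := inX_transpose hG.y
    rwa [Ym, Dm, Matrix.diagonal_transpose] at h
  · have hX : InX X (toF ω qX) := by rw [toF_qX hC]; exact hG.x
    have h2 := hX.mul hX
    have h6 := inX_transpose ((h2.mul h2).mul h2)
    rw [← toF_mul hC, ← toF_mul hC, ← toF_mul hC, toF_transpose,
      show (fun i j => qmul (qmul (qmul qX qX) (qmul qX qX)) (qmul qX qX) j i) = qX by decide +kernel,
      toF_qX hC] at h6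
    exact h6
  · have h := inX_transpose hG.g
    rwa [Gm, Dm, Matrix.diagonal_transpose] at h
  · have hS : InX X (toF ω qS) := by rw [toF_qS hC]; exact hG.s
    have h2 := inX_transpose (hS.mul hS)
    rw [← toF_mul hC, toF_transpose, show (fun i j => qmul qS qS j i) = qS by decide +kernel,
      toF_qS hC] at h2
    exact h2
  · have h := inX_transpose hG.z
    rwa [← toF_qZ hC, toF_transpose, show (fun i j => qZ j i) = qZ by decide +kernel, toF_qZ hC] at h
  · have h := inX_transpose hG.f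
    rwa [← toF_qF hC, toF_transpose, show (fun i j => qF j i) = qF by decide +kernel, toF_qF hC] at h

omit hG in
theorem ker_transpose {Y : Subgroup (GL (Fin 7) F)} {q : M7 F} (hX : InX Y qᵀ) (sq : Sym q)
    (bq : Bm q = 1) : Ker Y qᵀ := by
  refine ⟨hX, sym_transpose sq, Matrix.ext fun r s => ?_⟩
  have h : Bm qᵀ r s = Bm q s r := by
    simp only [bm_apply hC.eight, Matrix.transpose_apply]
    rw [sym_kn sq s r]
  rw [h, bq]
  simp [Matrix.one_apply, eq_comm]

include hN

/-- The kernel of the action on the odd vectors is generated by the parity involution. -/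
theorem ker_cases {q : M7 F} (hq : Ker X q) : q = 1 ∨ q = Zm := by
  have hF := hC.eight
  obtain ⟨hm, hl⟩ : mv q = 0 ∧ lv q = 0 := by
    rcases mv_all_or_lv_all hC hG hN with h | h
    · refine ⟨h q hq, ?_⟩
      have hall : ∀ p : M7 F, Ker (X.map tHom) p → lv p = 0 := fun p hp =>
        h pᵀ (ker_transpose hC (inX_of_transpose hp.inX) hp.sym hp.bm)
      exact mv_zero hC (gen_transpose hC hG) (ns_transpose hN) hall
        (ker_transpose hC (inX_transpose hq.inX) hq.sym hq.bm)
    · exact ⟨mv_zero hC hG hN h hq, h q hq⟩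
  rcases bottom hC hG hN hq hm hl with h | h
  · left
    exact ext_coords hF hq.sym sym_one (by rw [hq.bm, bm_one]) (by rw [h, sp_one])
      (by rw [hm, mv_one]) (by rw [hl, lv_one]) (by rw [hq.zero_zero hC hG.le_sl, Matrix.one_apply_eq])
  · right
    exact ext_coords hF hq.sym sym_zm (by rw [hq.bm, bm_zm]) (by rw [h, sp_zm hF])
      (by rw [hm, mv_zm]) (by rw [hl, lv_zm]) (by rw [hq.zero_zero hC hG.le_sl, zm_00 hF])

end Cfsg.Agent.CSixSevenGFEight
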